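import Cfsg.Agent.R10.Defs

/-! Coordinates in the split model `2¹⁰ : L₅(2)`. -/

set_option autoImplicit false
set_option linter.unusedSectionVars false
set_option linter.unusedVariables false

namespace Cfsg.Lib.R10

open Subgroup Cfsg.Lib.Trans Cfsg.Lib.Gold Matrix
open scoped commutatorElement

universe u

/-- Upper unitriangular matrices. -/
def Up (g : L5) : Prop := ∀ i j : Fin 5, j ≤ i → g.1 i j = (1 : Mt) i j

/-- The unipotent radical of the stabiliser of `⟨e 0, e 1⟩`. -/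
def RR (g : L5) : Prop := ∀ i j : Fin 5, ¬ (i.val < 2 ∧ 2 ≤ j.val) → g.1 i j = (1 : Mt) i j

/-- The unipotent radical of the stabiliser of `⟨e 0, …, e 3⟩`. -/
def R4 (g : L5) : Prop := ∀ i j : Fin 5, ¬ (i.val < 4 ∧ j = 4) → g.1 i j = (1 : Mt) i j

/-- `⟨e 0, e 1⟩ ∧ V`. -/
def U7 (m : Mt) : Prop := Al m ∧ ∀ i j : Fin 5, 2 ≤ i.val → 2 ≤ j.val → m i j = 0

/-- `Λ²⟨e 0, …, e 3⟩`. -/
def W6 (m : Mt) : Prop := Al m ∧ ∀ i : Fin 5, m i 4 = 0

namespace CA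

theorem z2 : ∀ a : ZMod 2, a + a = 0 := by decide

theorem z2' : ∀ a : ZMod 2, a ≠ 0 → a = 1 := by decide

theorem madd (m : Mt) : m + m = 0 := by ext i j; exact z2 _

/-- A submonoid of a finite group. -/
def mkSub {Γ : Type*} [Group Γ] [Finite Γ] (P : Γ → Prop) (h1 : P 1)
    (hm : ∀ a b, P a → P b → P (a * b)) : Subgroup Γ where
  carrier := {x | P x}
  one_mem' := h1
  mul_mem' := hm _ _
  inv_mem' {x} hx := by
    have k : ∀ n : ℕ, P (x ^ n) := fun n => by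
      induction n with
      | zero => rwa [pow_zero]
      | succ n ih => rw [pow_succ]; exact hm _ _ ih hx
    have e : x⁻¹ = x ^ (orderOf x - 1) := by
      refine inv_eq_of_mul_eq_one_left ?_
      rw [← pow_succ, Nat.sub_add_cancel (orderOf_pos x), pow_orderOf_eq_one]
    exact e ▸ k _

end CA

open CA

theorem cmul (g g' : L5) : (g * g').1 = g.1 * g'.1 := rfl

instance (g : L5) : Decidable (Up g) :=
  @Fintype.decidableForallFintype _ _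
    (fun _ => @Fintype.decidableForallFintype _ _ (fun _ => inferInstance) _) _

instance (g : L5) : Decidable (RR g) :=
  @Fintype.decidableForallFintype _ _
    (fun _ => @Fintype.decidableForallFintype _ _ (fun _ => inferInstance) _) _

instance (g : L5) : Decidable (R4 g) :=
  @Fintype.decidableForallFintype _ _
    (fun _ => @Fintype.decidableForallFintype _ _ (fun _ => inferInstance) _) _

instance (m : Mt) : Decidable (U7 m) :=
  @instDecidableAnd _ _ _ (@Fintype.decidableForallFintype _ _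
    (fun _ => @Fintype.decidableForallFintype _ _ (fun _ => inferInstance) _) _)

instance (m : Mt) : Decidable (W6 m) := by unfold W6; infer_instance

theorem Al.symm {m : Mt} (h : Al m) (i j : Fin 5) : m j i = m i j := congrFun (congrFun h.1 i) j

theorem al_zero : Al 0 := ⟨rfl, fun _ => rfl⟩

theorem Al.add {m m' : Mt} (h : Al m) (h' : Al m') : Al (m + m') :=
  ⟨by rw [transpose_add, h.1, h'.1], fun i => by rw [Matrix.add_apply, h.2, h'.2, add_zero]⟩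

theorem Al.ent {m : Mt} (h : Al m) : m 0 0 = 0 ∧ m 1 1 = 0 ∧ m 2 2 = 0 ∧ m 3 3 = 0 ∧ m 4 4 = 0 ∧
    m 1 0 = m 0 1 ∧ m 2 0 = m 0 2 ∧ m 3 0 = m 0 3 ∧ m 4 0 = m 0 4 ∧ m 2 1 = m 1 2 ∧ m 3 1 = m 1 3 ∧
    m 4 1 = m 1 4 ∧ m 3 2 = m 2 3 ∧ m 4 2 = m 2 4 ∧ m 4 3 = m 3 4 :=
  ⟨h.2 _, h.2 _, h.2 _, h.2 _, h.2 _, h.symm _ _, h.symm _ _, h.symm _ _, h.symm _ _, h.symm _ _,
    h.symm _ _, h.symm _ _, h.symm _ _, h.symm _ _, h.symm _ _⟩

theorem Al.act {m : Mt} (h : Al m) (g : Mt) : Al (g * m * gᵀ) := by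
  refine ⟨by rw [transpose_mul, transpose_mul, transpose_transpose, h.1, Matrix.mul_assoc],
    fun i => ?_⟩
  obtain ⟨a0, a1, a2, a3, a4, a5, a6, a7, a8, a9, a10, a11, a12, a13, a14⟩ := h.ent
  simp only [mul_apply, Fin.sum_univ_five, transpose_apply, a0, a1, a2, a3, a4, a5, a6, a7, a8, a9,
    a10, a11, a12, a13, a14]
  have : (2 : ZMod 2) = 0 := rfl
  linear_combination (g i 0 * g i 1 * m 0 1 + g i 0 * g i 2 * m 0 2 + g i 0 * g i 3 * m 0 3 +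
    g i 0 * g i 4 * m 0 4 + g i 1 * g i 2 * m 1 2 + g i 1 * g i 3 * m 1 3 + g i 1 * g i 4 * m 1 4 +
    g i 2 * g i 3 * m 2 3 + g i 2 * g i 4 * m 2 4 + g i 3 * g i 4 * m 3 4) * this

theorem Al.ext {m m' : Mt} (h : Al m) (h' : Al m') (k : ∀ i j, i < j → m i j = m' i j) : m = m' := by
  ext i j
  rcases lt_trichotomy i j with e | rfl | e
  · exact k i j e
  · rw [h.2, h'.2]
  · rw [h.symm, h'.symm, k j i e]

theorem Up.ent {g : L5} (h : Up g) : g.1 0 0 = 1 ∧ g.1 1 1 = 1 ∧ g.1 2 2 = 1 ∧ g.1 3 3 = 1 ∧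
    g.1 4 4 = 1 ∧ g.1 1 0 = 0 ∧ g.1 2 0 = 0 ∧ g.1 3 0 = 0 ∧ g.1 4 0 = 0 ∧ g.1 2 1 = 0 ∧
    g.1 3 1 = 0 ∧ g.1 4 1 = 0 ∧ g.1 3 2 = 0 ∧ g.1 4 2 = 0 ∧ g.1 4 3 = 0 :=
  ⟨h _ _ le_rfl, h _ _ le_rfl, h _ _ le_rfl, h _ _ le_rfl, h _ _ le_rfl, h _ _ (by decide),
    h _ _ (by decide), h _ _ (by decide), h _ _ (by decide), h _ _ (by decide), h _ _ (by decide),
    h _ _ (by decide), h _ _ (by decide), h _ _ (by decide), h _ _ (by decide)⟩

theorem RR.up {g : L5} (h : RR g) : Up g := fun i j e => h i j (by omega)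

theorem R4.up {g : L5} (h : R4 g) : Up g := fun i j e => h i j (by omega)

theorem RR.ent {g : L5} (h : RR g) : g.1 0 1 = 0 ∧ g.1 2 3 = 0 ∧ g.1 2 4 = 0 ∧ g.1 3 4 = 0 :=
  ⟨h _ _ (by decide), h _ _ (by decide), h _ _ (by decide), h _ _ (by decide)⟩

theorem Up.rr {g : L5} (h : Up g) (h1 : g.1 0 1 = 0) (h2 : g.1 2 3 = 0) (h3 : g.1 2 4 = 0)
    (h4 : g.1 3 4 = 0) : RR g := fun i j e => by
  by_cases k : j ≤ i
  · exact h i j k
  · fin_cases i <;> fin_cases j <;> simp_all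

theorem R4.ent {g : L5} (h : R4 g) : g.1 0 1 = 0 ∧ g.1 0 2 = 0 ∧ g.1 0 3 = 0 ∧ g.1 1 2 = 0 ∧
    g.1 1 3 = 0 ∧ g.1 2 3 = 0 :=
  ⟨h _ _ (by decide), h _ _ (by decide), h _ _ (by decide), h _ _ (by decide), h _ _ (by decide),
    h _ _ (by decide)⟩

theorem Up.r4 {g : L5} (h : Up g) (h1 : g.1 0 1 = 0) (h2 : g.1 0 2 = 0) (h3 : g.1 0 3 = 0)
    (h4 : g.1 1 2 = 0) (h5 : g.1 1 3 = 0) (h6 : g.1 2 3 = 0) : R4 g := fun i j e => by
  by_cases k : j ≤ i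
  · exact h i j k
  · fin_cases i <;> fin_cases j <;> simp_all

theorem U7.ent {m : Mt} (h : U7 m) : m 2 3 = 0 ∧ m 2 4 = 0 ∧ m 3 4 = 0 :=
  ⟨h.2 _ _ (by decide) (by decide), h.2 _ _ (by decide) (by decide), h.2 _ _ (by decide) (by decide)⟩

theorem Al.u7 {m : Mt} (h : Al m) (h1 : m 2 3 = 0) (h2 : m 2 4 = 0) (h3 : m 3 4 = 0) : U7 m := by
  refine ⟨h, fun i j hi hj => ?_⟩
  obtain ⟨a0, a1, a2, a3, a4, a5, a6, a7, a8, a9, a10, a11, a12, a13, a14⟩ := h.ent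
  fin_cases i <;> fin_cases j <;> simp_all

theorem U7.add {m m' : Mt} (h : U7 m) (h' : U7 m') : U7 (m + m') :=
  ⟨h.1.add h'.1, fun i j a b => by rw [Matrix.add_apply, h.2 i j a b, h'.2 i j a b, add_zero]⟩

theorem W6.add {m m' : Mt} (h : W6 m) (h' : W6 m') : W6 (m + m') :=
  ⟨h.1.add h'.1, fun i => by rw [Matrix.add_apply, h.2 i, h'.2 i, add_zero]⟩

theorem up_one : Up 1 := fun _ _ _ => rfl

theorem rr_one : RR 1 := fun _ _ _ => rfl

theorem r4_one : R4 1 := fun _ _ _ => rfl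

theorem Up.mul {g g' : L5} (h : Up g) (h' : Up g') : Up (g * g') := fun i j e => by
  rw [cmul, mul_apply, Finset.sum_eq_single i, h i i le_rfl, h' i j e,
    one_apply_eq, one_mul]
  · intro k _ hk
    rcases lt_or_gt_of_ne hk with c | c
    · rw [h i k c.le, one_apply_ne hk.symm, zero_mul]
    · rw [h' k j (e.trans c.le), one_apply_ne (e.trans_lt c).ne', mul_zero]
  · simp

/-- Entries of a product of unitriangular matrices. -/
theorem Up.mul_ent {g g' : L5} (h : Up g) (h' : Up g') :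
    (g * g').1 0 1 = g'.1 0 1 + g.1 0 1 ∧
    (g * g').1 0 2 = g'.1 0 2 + g.1 0 1 * g'.1 1 2 + g.1 0 2 ∧
    (g * g').1 0 3 = g'.1 0 3 + g.1 0 1 * g'.1 1 3 + g.1 0 2 * g'.1 2 3 + g.1 0 3 ∧
    (g * g').1 0 4 = g'.1 0 4 + g.1 0 1 * g'.1 1 4 + g.1 0 2 * g'.1 2 4 + g.1 0 3 * g'.1 3 4 +
      g.1 0 4 ∧
    (g * g').1 1 2 = g'.1 1 2 + g.1 1 2 ∧
    (g * g').1 1 3 = g'.1 1 3 + g.1 1 2 * g'.1 2 3 + g.1 1 3 ∧
    (g * g').1 1 4 = g'.1 1 4 + g.1 1 2 * g'.1 2 4 + g.1 1 3 * g'.1 3 4 + g.1 1 4 ∧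
    (g * g').1 2 3 = g'.1 2 3 + g.1 2 3 ∧
    (g * g').1 2 4 = g'.1 2 4 + g.1 2 3 * g'.1 3 4 + g.1 2 4 ∧
    (g * g').1 3 4 = g'.1 3 4 + g.1 3 4 := by
  obtain ⟨a0, a1, a2, a3, a4, a5, a6, a7, a8, a9, a10, a11, a12, a13, a14⟩ := h.ent
  obtain ⟨b0, b1, b2, b3, b4, b5, b6, b7, b8, b9, b10, b11, b12, b13, b14⟩ := h'.ent
  simp [mul_apply, Fin.sum_univ_five, *]

theorem RR.mul {g g' : L5} (h : RR g) (h' : RR g') : RR (g * g') := by
  obtain ⟨a0, a1, a2, a3⟩ := h.ent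
  obtain ⟨b0, b1, b2, b3⟩ := h'.ent
  obtain ⟨c0, -, -, -, -, -, -, c1, c2, c3⟩ := h.up.mul_ent h'.up
  refine (h.up.mul h'.up).rr ?_ ?_ ?_ ?_ <;> simp [*]

theorem R4.mul {g g' : L5} (h : R4 g) (h' : R4 g') : R4 (g * g') := by
  obtain ⟨a0, a1, a2, a3, a4, a5⟩ := h.ent
  obtain ⟨b0, b1, b2, b3, b4, b5⟩ := h'.ent
  obtain ⟨c0, c1, c2, -, c3, c4, -, c5, -, -⟩ := h.up.mul_ent h'.up
  refine (h.up.mul h'.up).r4 ?_ ?_ ?_ ?_ ?_ ?_ <;> simp [*]

theorem Up.inv {g : L5} (h : Up g) : Up g⁻¹ := (mkSub Up up_one fun _ _ => Up.mul).inv_mem h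

theorem RR.inv {g : L5} (h : RR g) : RR g⁻¹ := (mkSub RR rr_one fun _ _ => RR.mul).inv_mem h

theorem Up.ext {g g' : L5} (h : Up g) (h' : Up g') (k : ∀ i j, i < j → g.1 i j = g'.1 i j) :
    g = g' := by
  ext i j
  by_cases e : j ≤ i
  · exact (h i j e).trans (h' i j e).symm
  · exact k i j (not_le.1 e)

/-- Entries of the image of an alternating matrix under a unitriangular matrix. -/
theorem Up.act_ent {g : L5} (h : Up g) {m : Mt} (hm : Al m) :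
    (g.1 * m * g.1ᵀ) 3 4 = m 3 4 ∧
    (g.1 * m * g.1ᵀ) 2 4 = m 2 4 + g.1 2 3 * m 3 4 ∧
    (g.1 * m * g.1ᵀ) 2 3 = m 2 3 + g.1 2 4 * m 3 4 + (m 2 4 + g.1 2 3 * m 3 4) * g.1 3 4 ∧
    (g.1 * m * g.1ᵀ) 1 4 = m 1 4 + g.1 1 2 * m 2 4 + g.1 1 3 * m 3 4 ∧
    (g.1 * m * g.1ᵀ) 1 3 = m 1 3 + g.1 1 2 * m 2 3 + g.1 1 4 * m 3 4 +
      (m 1 4 + g.1 1 2 * m 2 4 + g.1 1 3 * m 3 4) * g.1 3 4 ∧
    (g.1 * m * g.1ᵀ) 1 2 = m 1 2 + g.1 1 3 * m 2 3 + g.1 1 4 * m 2 4 +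
      (m 1 3 + g.1 1 2 * m 2 3 + g.1 1 4 * m 3 4) * g.1 2 3 +
      (m 1 4 + g.1 1 2 * m 2 4 + g.1 1 3 * m 3 4) * g.1 2 4 ∧
    (g.1 * m * g.1ᵀ) 0 4 = m 0 4 + g.1 0 1 * m 1 4 + g.1 0 2 * m 2 4 + g.1 0 3 * m 3 4 ∧
    (g.1 * m * g.1ᵀ) 0 3 = m 0 3 + g.1 0 1 * m 1 3 + g.1 0 2 * m 2 3 + g.1 0 4 * m 3 4 +
      (m 0 4 + g.1 0 1 * m 1 4 + g.1 0 2 * m 2 4 + g.1 0 3 * m 3 4) * g.1 3 4 ∧
    (g.1 * m * g.1ᵀ) 0 2 = m 0 2 + g.1 0 1 * m 1 2 + g.1 0 3 * m 2 3 + g.1 0 4 * m 2 4 +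
      (m 0 3 + g.1 0 1 * m 1 3 + g.1 0 2 * m 2 3 + g.1 0 4 * m 3 4) * g.1 2 3 +
      (m 0 4 + g.1 0 1 * m 1 4 + g.1 0 2 * m 2 4 + g.1 0 3 * m 3 4) * g.1 2 4 ∧
    (g.1 * m * g.1ᵀ) 0 1 = m 0 1 + g.1 0 2 * m 1 2 + g.1 0 3 * m 1 3 + g.1 0 4 * m 1 4 +
      (m 0 2 + g.1 0 1 * m 1 2 + g.1 0 3 * m 2 3 + g.1 0 4 * m 2 4) * g.1 1 2 +
      (m 0 3 + g.1 0 1 * m 1 3 + g.1 0 2 * m 2 3 + g.1 0 4 * m 3 4) * g.1 1 3 +
      (m 0 4 + g.1 0 1 * m 1 4 + g.1 0 2 * m 2 4 + g.1 0 3 * m 3 4) * g.1 1 4 := by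
  obtain ⟨a0, a1, a2, a3, a4, a5, a6, a7, a8, a9, a10, a11, a12, a13, a14⟩ := h.ent
  obtain ⟨b0, b1, b2, b3, b4, b5, b6, b7, b8, b9, b10, b11, b12, b13, b14⟩ := hm.ent
  simp [mul_apply, Fin.sum_univ_five, *]

theorem U7.act {m : Mt} (hm : U7 m) {g : L5} (h : Up g) : U7 (g.1 * m * g.1ᵀ) := by
  obtain ⟨a, b, c, -⟩ := h.act_ent hm.1
  obtain ⟨d, e, f⟩ := hm.ent
  refine (hm.1.act _).u7 ?_ ?_ ?_ <;> simp [*]

theorem W6.act {m : Mt} (hm : W6 m) {g : L5} (h : Up g) : W6 (g.1 * m * g.1ᵀ) := by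
  obtain ⟨a, b, -, c, -, -, d, -⟩ := h.act_ent hm.1
  refine ⟨hm.1.act _, fun i => ?_⟩
  have e := hm.2
  have f := (hm.1.act g.1).2 4
  fin_cases i <;> simp_all

theorem tv_ent (i j a b : Fin 5) : (tv i j).1 a b = if a = b ∨ (a = i ∧ b = j) then 1 else 0 := rfl

theorem wm_ent (i j a b : Fin 5) :
    wm i j a b = if i ≠ j ∧ ((a = i ∧ b = j) ∨ (a = j ∧ b = i)) then 1 else 0 := rfl

theorem up_tv : ∀ i j : Fin 5, i < j → Up (tv i j) := by decide +kernel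

theorem rr_tv : ∀ i j : Fin 5, i.val < 2 → 2 ≤ j.val → RR (tv i j) := by decide +kernel

theorem r4_tv : ∀ i : Fin 5, i.val < 4 → R4 (tv i 4) := by decide +kernel

theorem u7_wm : ∀ i j : Fin 5, i.val < 2 → U7 (wm i j) := by decide +kernel

theorem w6_wm : ∀ i j : Fin 5, i.val < 4 → j.val < 4 → W6 (wm i j) := by decide +kernel

theorem CA.tv_sq : ∀ i j : Fin 5, i ≠ j → tv i j * tv i j = 1 := by decide +kernel

theorem mul_tv (g : Mt) {i j : Fin 5} (h : i ≠ j) (a b : Fin 5) :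
    (g * (tv i j).1) a b = g a b + if b = j then g a i else 0 := by
  have e : (tv i j).1 = 1 + single i j 1 := by
    ext c d
    rw [tv_ent, Matrix.add_apply, one_apply, single_apply]
    by_cases h1 : c = d <;> by_cases h2 : i = c ∧ j = d <;> simp_all [eq_comm]
  rw [e, Matrix.mul_add, Matrix.mul_one, Matrix.add_apply]
  by_cases h1 : b = j
  · subst h1; simp
  · simp [h1]

/-- Unitriangular matrices are products of the transvections in their support. -/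
theorem Up.mem {H : Subgroup L5} {g : L5} (h : Up g)
    (k : ∀ i j, i < j → g.1 i j ≠ 0 → tv i j ∈ H) : g ∈ H := by
  obtain ⟨n, hn⟩ : ∃ n, (Finset.univ.filter fun p : Fin 5 × Fin 5 =>
    p.1 < p.2 ∧ g.1 p.1 p.2 ≠ 0).card = n := ⟨_, rfl⟩
  induction n using Nat.strong_induction_on generalizing g with | _ n ih => ?_
  by_cases h0 : (Finset.univ.filter fun p : Fin 5 × Fin 5 => p.1 < p.2 ∧ g.1 p.1 p.2 ≠ 0).Nonempty
  · obtain ⟨⟨i, j⟩, hp, hmin⟩ := Finset.exists_min_image _ Prod.snd h0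
    simp only [Finset.mem_filter, Finset.mem_univ, true_and] at hp hmin
    have e : ∀ a b, (g * tv i j).1 a b = if a = i ∧ b = j then 0 else g.1 a b := fun a b => by
      rw [cmul, mul_tv _ hp.1.ne]
      by_cases hb : b = j
      · subst hb
        by_cases ha : a = i
        · subst ha; rw [if_pos rfl, if_pos ⟨rfl, rfl⟩, h a a le_rfl, z2' _ hp.2, one_apply_eq]; rfl
        · have : g.1 a i = 0 := by
            rcases lt_or_gt_of_ne ha with c | c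
            · by_contra h1
              exact absurd (hmin (a, i) ⟨c, h1⟩) (not_le.2 hp.1)
            · rw [h a i c.le, one_apply_ne ha]
          simp [ha, this]
      · simp [hb]
    have h1 : g * tv i j ∈ H := by
      refine ih _ ?_ (h.mul (up_tv i j hp.1)) (fun a b hab h2 => k a b hab fun h3 => h2 ?_) rfl
      · rw [← hn]
        refine Finset.card_lt_card ⟨fun p hp' => ?_, fun h2 => ?_⟩
        · simp only [Finset.mem_filter, Finset.mem_univ, true_and, e] at hp' ⊢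
          refine ⟨hp'.1, fun h3 => hp'.2 ?_⟩
          split_ifs <;> simp [h3]
        · have := h2 (x := (i, j)) (by simpa using hp)
          simp [e] at this
      · rw [e]; split_ifs <;> simp [h3]
    simpa [mul_assoc, CA.tv_sq i j hp.1.ne] using mul_mem h1 (k i j hp.1 hp.2)
  · have : g = 1 := h.ext up_one fun i j hij => by
      by_contra h1
      refine h0 ⟨(i, j), ?_⟩
      simp only [Finset.mem_filter, Finset.mem_univ, true_and]
      exact ⟨hij, fun h2 => h1 (h2.trans (one_apply_ne hij.ne).symm)⟩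
    rw [this]; exact one_mem H

theorem faithful {g : L5} (k : ∀ i j, g.1 * wm i j * g.1ᵀ = wm i j) : g = 1 := by
  have e1 : g.1ᵀ * (g⁻¹).1ᵀ = 1 := by
    rw [← transpose_mul, ← cmul, inv_mul_cancel]; exact transpose_one
  have e2 : ∀ a i, a ≠ i → g.1 a i = 0 := fun a i hai => by
    obtain ⟨j, h1, h2⟩ : ∃ j, j ≠ a ∧ j ≠ i := by revert a i; decide
    have e3 : g.1 * wm i j = wm i j * (g⁻¹).1ᵀ := by
      conv_rhs => rw [← k i j, Matrix.mul_assoc, e1, Matrix.mul_one]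
    have e4 := congrFun (congrFun e3 a) j
    rw [mul_apply, mul_apply, Finset.sum_eq_single i, Finset.sum_eq_zero] at e4
    · simpa [wm_ent, h2.symm] using e4
    · intro c _
      simp [wm_ent, hai, h1.symm]
    · intro c _ hc
      simp [wm_ent, hc, h2]
    · simp
  ext a b
  by_cases e : a = b
  · subst e
    have e3 : (g * g⁻¹).1 a a = 1 := by rw [mul_inv_cancel]; exact one_apply_eq a
    rw [cmul, mul_apply, Finset.sum_eq_single a] at e3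
    · exact (z2' _ (left_ne_zero_of_mul_eq_one e3)).trans (one_apply_eq a).symm
    · intro c _ hc
      rw [e2 a c hc.symm, zero_mul]
    · simp
  · exact (e2 a b e).trans (one_apply_ne e).symm

variable {G : Type u} [Group G] {θ : Mt → G} {ψ : L5 →* G}

namespace Fr

variable (h : Fr θ ψ)
include h

theorem zero : θ 0 = 1 := by
  have := h.add 0 0
  rw [add_zero] at this
  exact left_eq_mul.1 this

theorem sq (m : Mt) : θ m * θ m = 1 := by rw [← h.add, madd, h.zero]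

theorem inv (m : Mt) : (θ m)⁻¹ = θ m := inv_eq_of_mul_eq_one_right (h.sq m)

theorem comm (m m' : Mt) : θ m * θ m' = θ m' * θ m := by rw [← h.add, add_comm, h.add]

theorem inj' {m m' : Mt} (hm : Al m) (hm' : Al m') (e : θ m = θ m') : m = m' := by
  have := h.inj _ (hm.add hm') (by rw [h.add, e, h.sq])
  rw [← add_zero m, ← madd m', ← add_assoc, this, zero_add]

theorem mem_AA {a : G} : a ∈ AA θ ↔ ∃ m, Al m ∧ θ m = a := by
  refine ⟨fun ha => ?_, fun ha => subset_closure ha⟩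
  induction ha using closure_induction with
  | mem x hx => exact hx
  | one => exact ⟨0, al_zero, h.zero⟩
  | mul x y _ _ hx hy =>
    obtain ⟨m, hm, rfl⟩ := hx
    obtain ⟨m', hm', rfl⟩ := hy
    exact ⟨_, hm.add hm', h.add _ _⟩
  | inv x _ hx =>
    obtain ⟨m, hm, rfl⟩ := hx
    exact ⟨m, hm, (h.inv m).symm⟩

theorem θ_mem {m : Mt} (hm : Al m) : θ m ∈ AA θ := h.mem_AA.2 ⟨m, hm, rfl⟩

theorem act' (g : L5) {m : Mt} (hm : Al m) : ψ g * θ m = θ (g.1 * m * g.1ᵀ) * ψ g := by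
  rw [← h.act g m hm, inv_mul_cancel_right]

theorem el_mul (m : Mt) (g : L5) {m' : Mt} (hm' : Al m') (g' : L5) :
    θ m * ψ g * (θ m' * ψ g') = θ (m + g.1 * m' * g.1ᵀ) * ψ (g * g') := by
  rw [mul_assoc, ← mul_assoc (ψ g), h.act' g hm', h.add, map_mul]
  simp only [mul_assoc]

theorem ψ_mem {g : L5} (hg : ψ g ∈ AA θ) : g = 1 := by
  obtain ⟨m, hm, e⟩ := h.mem_AA.1 hg
  refine faithful fun i j => h.inj' ((al_wm i j).act _) (al_wm i j) ?_
  rw [← h.act g _ (al_wm i j), ← e, h.comm, mul_inv_cancel_right]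

theorem el_inj {m m' : Mt} (hm : Al m) (hm' : Al m') {g g' : L5} (e : θ m * ψ g = θ m' * ψ g') :
    m = m' ∧ g = g' := by
  have e1 : ψ (g' * g⁻¹) = θ m' * θ m := by
    rw [map_mul, map_inv, ← h.inv m', eq_inv_mul_iff_mul_eq, ← mul_assoc, ← e,
      mul_inv_cancel_right]
  have e2 := mul_inv_eq_one.1 (h.ψ_mem (e1 ▸ mul_mem (h.θ_mem hm') (h.θ_mem hm)))
  subst e2
  exact ⟨h.inj' hm hm' (mul_right_cancel e), rfl⟩

/-- An alternating matrix is a sum of the basic ones in its support. -/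
theorem θ_mem_of {H : Subgroup G} {m : Mt} (hm : Al m)
    (k : ∀ i j, i < j → m i j ≠ 0 → ww θ i j ∈ H) : θ m ∈ H := by
  obtain ⟨n, hn⟩ : ∃ n, (Finset.univ.filter fun p : Fin 5 × Fin 5 =>
    p.1 < p.2 ∧ m p.1 p.2 ≠ 0).card = n := ⟨_, rfl⟩
  induction n using Nat.strong_induction_on generalizing m with | _ n ih => ?_
  by_cases h0 : (Finset.univ.filter fun p : Fin 5 × Fin 5 => p.1 < p.2 ∧ m p.1 p.2 ≠ 0).Nonempty
  · obtain ⟨⟨i, j⟩, hp⟩ := h0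
    simp only [Finset.mem_filter, Finset.mem_univ, true_and] at hp
    have e : ∀ a b, a < b → (m + wm i j) a b = if a = i ∧ b = j then 0 else m a b :=
      fun a b hab => by
        rw [Matrix.add_apply, wm_ent]
        by_cases h1 : a = i ∧ b = j
        · rw [if_pos h1, if_pos ⟨hp.1.ne, Or.inl h1⟩, h1.1, h1.2, z2' _ hp.2]; rfl
        · rw [if_neg h1, if_neg, add_zero]
          rintro ⟨-, h2 | ⟨rfl, rfl⟩⟩
          exacts [h1 h2, absurd hab (not_lt.2 hp.1.le)]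
    have h1 : θ (m + wm i j) ∈ H := by
      refine ih _ ?_ (hm.add (al_wm i j)) (fun a b hab h2 => k a b hab fun h3 => h2 ?_) rfl
      · rw [← hn]
        refine Finset.card_lt_card ⟨fun p hp' => ?_, fun h2 => ?_⟩
        · simp only [Finset.mem_filter, Finset.mem_univ, true_and] at hp' ⊢
          refine ⟨hp'.1, fun h3 => hp'.2 ?_⟩
          rw [e _ _ hp'.1]
          split_ifs <;> simp [h3]
        · have := h2 (x := (i, j)) (by simpa using hp)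
          simp only [Finset.mem_filter, Finset.mem_univ, true_and] at this
          exact this.2 (by rw [e _ _ hp.1, if_pos ⟨rfl, rfl⟩])
      · rw [e _ _ hab]; split_ifs <;> simp [h3]
    have h2 := mul_mem h1 (k i j hp.1 hp.2)
    rwa [ww, ← h.add, add_assoc, madd, add_zero] at h2
  · have : m = 0 := hm.ext al_zero fun i j hij => by
      by_contra h1
      refine h0 ⟨(i, j), ?_⟩
      simp only [Finset.mem_filter, Finset.mem_univ, true_and]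
      exact ⟨hij, h1⟩
    rw [this, h.zero]; exact one_mem H

omit h in
theorem ψ_mem_of {H : Subgroup G} {g : L5} (hg : Up g)
    (k : ∀ i j, i < j → g.1 i j ≠ 0 → tt ψ i j ∈ H) : ψ g ∈ H :=
  hg.mem (H := H.comap ψ) k

/-- The subgroup of the elements with coordinates in `W` and `U`. -/
def SG [Finite G] (W : Mt → Prop) (U : L5 → Prop) (w0 : W 0) (u1 : U 1) (wa : ∀ m, W m → Al m)
    (w1 : ∀ m m', W m → W m' → W (m + m')) (u2 : ∀ g g', U g → U g' → U (g * g'))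
    (wu : ∀ m g, W m → U g → W (g.1 * m * g.1ᵀ)) : Subgroup G :=
  mkSub (fun x => ∃ m g, W m ∧ U g ∧ x = θ m * ψ g) ⟨0, 1, w0, u1, by rw [h.zero, map_one, one_mul]⟩
    (by
      rintro _ _ ⟨m, g, hm, hg, rfl⟩ ⟨m', g', hm', hg', rfl⟩
      exact ⟨_, _, w1 _ _ hm (wu _ _ hm' hg), u2 _ _ hg hg', h.el_mul m g (wa _ hm') g'⟩)

variable [Finite G]

theorem mem_TT {x : G} : x ∈ TT θ ψ ↔ ∃ m g, Al m ∧ Up g ∧ x = θ m * ψ g := by
  constructor
  · intro hx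
    refine (show TT θ ψ ≤ h.SG Al Up al_zero up_one (fun _ => id) (fun _ _ => Al.add)
      (fun _ _ => Up.mul) (fun _ _ k _ => k.act _) from sup_le (fun a ha => ?_)
        ((closure_le _).2 ?_)) hx
    · obtain ⟨m, hm, rfl⟩ := h.mem_AA.1 ha
      exact ⟨m, 1, hm, up_one, by rw [map_one, mul_one]⟩
    · rintro _ ⟨i, j, hij, rfl⟩
      exact ⟨0, _, al_zero, up_tv i j hij, by rw [h.zero, one_mul, tt]⟩
  · rintro ⟨m, g, hm, hg, rfl⟩
    exact mul_mem (mem_sup_left (h.θ_mem hm))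
      (ψ_mem_of hg fun i j hij _ => mem_sup_right (subset_closure ⟨i, j, hij, rfl⟩))

theorem θ_mem_QQ {m : Mt} (hm : U7 m) : θ m ∈ QQ θ ψ :=
  h.θ_mem_of hm.1 fun i j hij h1 => subset_closure ⟨i, j, by
    by_contra h2
    exact h1 (hm.2 i j (by omega) (by have : i.val < j.val := hij; omega)), hij, Or.inl rfl⟩

omit h in
theorem ψ_mem_QQ {g : L5} (hg : RR g) : ψ g ∈ QQ θ ψ :=
  ψ_mem_of hg.up fun i j hij h1 => by
    have : i.val < 2 ∧ 2 ≤ j.val := by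
      by_contra h2
      exact h1 ((hg i j h2).trans (one_apply_ne hij.ne))
    exact subset_closure ⟨i, j, this.1, hij, Or.inr ⟨this.2, rfl⟩⟩

theorem mem_QQ {x : G} : x ∈ QQ θ ψ ↔ ∃ m g, U7 m ∧ RR g ∧ x = θ m * ψ g := by
  constructor
  · intro hx
    refine (show QQ θ ψ ≤ h.SG U7 RR ⟨al_zero, fun _ _ _ _ => rfl⟩ rr_one (fun _ k => k.1)
      (fun _ _ => U7.add) (fun _ _ => RR.mul) (fun _ _ k k' => k.act k'.up) from
        (closure_le _).2 ?_) hx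
    rintro _ ⟨i, j, hi, hij, rfl | ⟨hj, rfl⟩⟩
    · exact ⟨_, 1, u7_wm i j hi, rr_one, by rw [map_one, mul_one, ww]⟩
    · exact ⟨0, _, ⟨al_zero, fun _ _ _ _ => rfl⟩, rr_tv i j hi hj, by rw [h.zero, one_mul, tt]⟩
  · rintro ⟨m, g, hm, hg, rfl⟩
    exact mul_mem (h.θ_mem_QQ hm) (ψ_mem_QQ hg)

theorem of_mem_A1 {x : G} (hx : x ∈ A1 θ ψ) : ∃ m g, W6 m ∧ R4 g ∧ x = θ m * ψ g := by
  refine (show A1 θ ψ ≤ h.SG W6 R4 ⟨al_zero, fun _ => rfl⟩ r4_one (fun _ k => k.1)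
    (fun _ _ => W6.add) (fun _ _ => R4.mul) (fun _ _ k k' => k.act k'.up) from
      sup_le ((closure_le _).2 ?_) ((closure_le _).2 ?_)) hx
  · rintro _ ⟨i, j, hi, hj, rfl⟩
    exact ⟨_, 1, w6_wm i j hi hj, r4_one, by rw [map_one, mul_one, ww]⟩
  · rintro _ ⟨i, hi, rfl⟩
    exact ⟨0, _, ⟨al_zero, fun _ => rfl⟩, r4_tv i hi, by rw [h.zero, one_mul, tt]⟩

theorem QQ_le_TT : QQ θ ψ ≤ TT θ ψ := fun x hx => by
  obtain ⟨m, g, hm, hg, rfl⟩ := h.mem_QQ.1 hx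
  exact h.mem_TT.2 ⟨m, g, hm.1, hg.up, rfl⟩

theorem O14_le_TT : O14 θ ψ ≤ TT θ ψ := sup_le le_sup_left fun x hx => by
  obtain ⟨m, g, hm, hg, rfl⟩ := h.of_mem_A1 hx
  exact h.mem_TT.2 ⟨m, g, hm.1, hg.up, rfl⟩

omit h in
theorem TT_le_G01 : TT θ ψ ≤ G01 θ ψ := by
  refine sup_le (le_sup_left.trans le_sup_left) ((closure_le _).2 ?_)
  rintro _ ⟨i, j, hij, rfl⟩
  have : i.val < j.val := hij
  by_cases e : j = 4
  · subst e
    exact mem_sup_left (mem_sup_right (mem_sup_right (subset_closure ⟨i, this, rfl⟩)))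
  · exact mem_sup_right (subset_closure ⟨i, j, by omega, by omega, rfl⟩)

theorem TT_le_Ns : TT θ ψ ≤ Ns (AA θ) := fun x hx => by
  obtain ⟨m, g, hm, hg, rfl⟩ := h.mem_TT.1 hx
  exact (h.nrm _).2 ⟨m, g, hm, rfl⟩

end Fr

end Cfsg.Lib.R10
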