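import Cfsg.Agent.R10.CA

/-! The extraspecial group `Q = 2¹⁺¹²` in the split model: orders of centralisers. -/

set_option autoImplicit false
set_option linter.unusedSectionVars false
set_option linter.unusedVariables false

namespace Cfsg.Lib.R10

open Subgroup Cfsg.Lib.Trans Cfsg.Lib.Gold Matrix
open scoped commutatorElement

universe u

namespace CB

abbrev V3 : Type := ZMod 2 × ZMod 2 × ZMod 2

abbrev V4 : Type := ZMod 2 × V3

abbrev V6 : Type := V3 × V3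

def k6 (m : Mt) : V6 := ((m 0 2, m 0 3, m 0 4), (m 1 2, m 1 3, m 1 4))

def k3 (m : Mt) : V3 := (m 2 3, m 2 4, m 3 4)

def k4 (m : Mt) : V4 := (m 0 1, k3 m)

def cR (x : V4) (c : V6) : Prop :=
  x.1 * c.2.1 = 0 ∧ c.1.1 * x.2.1 = x.1 * c.2.2.1 ∧
    c.1.1 * x.2.2.1 + c.1.2.1 * x.2.2.2 = x.1 * c.2.2.2 ∧ c.2.1 * x.2.1 = 0 ∧
    c.2.1 * x.2.2.1 + c.2.2.1 * x.2.2.2 = 0

def cU (x : V4) (u : V6) : Prop :=
  u.2.2.2 * x.2.2.2 = 0 ∧ u.2.2.1 * x.2.1 + u.2.2.2 * x.2.2.1 = 0 ∧ x.1 * u.2.2.2 = 0 ∧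
    x.1 * u.2.2.1 + (u.1.2.2 + x.1 * u.2.2.2) * x.2.2.2 = 0 ∧
    x.1 * u.2.1 + (u.1.2.1 + x.1 * u.2.2.1) * x.2.1 + (u.1.2.2 + x.1 * u.2.2.2) * x.2.2.1 = 0

def cD (d : V3) (c : V6) : Prop :=
  c.2.1 * d.2.1 + c.2.2.1 * d.2.2 = 0 ∧ c.2.1 * d.1 + c.2.2.2 * d.2.2 = 0 ∧
    c.2.2.1 * d.1 + c.2.2.2 * d.2.1 = 0 ∧ c.1.1 * d.2.1 + c.1.2.1 * d.2.2 = 0 ∧
    c.1.1 * d.1 + c.1.2.2 * d.2.2 = 0 ∧ c.1.2.1 * d.1 + c.1.2.2 * d.2.1 = 0

instance (x : V4) : DecidablePred (cR x) := fun c => by unfold cR; infer_instance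

instance (x : V4) : DecidablePred (cU x) := fun c => by unfold cU; infer_instance

instance (d : V3) : DecidablePred (cD d) := fun c => by unfold cD; infer_instance

theorem nR : ∀ x : V4, x ≠ 0 → (Finset.univ.filter (cR x)).card ≤ 16 := by decide +kernel

theorem nR' : ∀ x : V4, x.1 ≠ 0 → (Finset.univ.filter (cR x)).card ≤ 8 := by decide +kernel

theorem nU : ∀ x : V4, x ≠ 0 → (Finset.univ.filter (cU x)).card ≤ 16 := by decide +kernel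

theorem nU' : ∀ x : V4, x.1 ≠ 0 → (Finset.univ.filter (cU x)).card ≤ 8 := by decide +kernel

theorem nD : ∀ d : V3, d ≠ 0 → (Finset.univ.filter (cD d)).card ≤ 4 := by decide +kernel

theorem nD' : ∀ d d' : V3, d ≠ 0 ∧ d' ≠ 0 ∧ d ≠ d' →
    (Finset.univ.filter fun c => cD d c ∧ cD d' c).card ≤ 1 := by
  decide +kernel

theorem n6 : (Finset.univ : Finset V6).card = 64 := by decide +kernel

theorem n3 : (Finset.univ : Finset V3).card = 8 := by decide +kernel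

theorem nW : (Finset.univ.filter fun u : V6 => u.1.2.2 = 0 ∧ u.2.2.2 = 0).card = 16 := by
  decide +kernel

def rm (c : V6) : Mt :=
  !![1, 0, c.1.1, c.1.2.1, c.1.2.2; 0, 1, c.2.1, c.2.2.1, c.2.2.2; 0, 0, 1, 0, 0; 0, 0, 0, 1, 0;
    0, 0, 0, 0, 1]

theorem det_rm (c : V6) : (rm c).det = 1 := by
  rw [det_of_upperTriangular]
  · simp [rm, Fin.prod_univ_five]
  · intro i j e
    fin_cases i <;> fin_cases j <;> simp_all [rm]

def rl (c : V6) : L5 := ⟨rm c, det_rm c⟩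

theorem rr_rl : ∀ c, RR (rl c) := by decide +kernel

def um (t : ZMod 2) (c : V6) : Mt :=
  !![0, t, c.1.1, c.1.2.1, c.1.2.2; t, 0, c.2.1, c.2.2.1, c.2.2.2; c.1.1, c.2.1, 0, 0, 0;
    c.1.2.1, c.2.2.1, 0, 0, 0; c.1.2.2, c.2.2.2, 0, 0, 0]

theorem u7_um : ∀ t c, U7 (um t c) := by decide +kernel

theorem card_le {G β : Type*} [Group G] [Finite G] (K H : Subgroup G) (f : G → β) (P : Finset β)
    (h1 : ∀ x ∈ K, f x ∈ P) (h2 : ∀ x ∈ K, ∀ y ∈ K, f x = f y → x⁻¹ * y ∈ H) :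
    Nat.card K ≤ Nat.card ↥(K ⊓ H) * P.card := by
  rw [← card_mul_relIndex (inf_le_left : K ⊓ H ≤ K), inf_relIndex_left]
  refine Nat.mul_le_mul_left _ ?_
  rw [← Nat.card_eq_finsetCard]
  refine Nat.card_le_card_of_injective
    (fun q : K ⧸ H.subgroupOf K => (⟨f q.out, h1 _ q.out.2⟩ : P)) fun a b e => ?_
  rw [← a.out_eq', ← b.out_eq', QuotientGroup.eq]
  exact h2 _ a.out.2 _ b.out.2 (congrArg Subtype.val e)

theorem rr_ext {r r' : L5} (h : RR r) (h' : RR r') (e : k6 r.1 = k6 r'.1) : r = r' := by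
  obtain ⟨a0, a1, a2, a3⟩ := h.ent
  obtain ⟨b0, b1, b2, b3⟩ := h'.ent
  simp only [k6, Prod.mk.injEq] at e
  refine h.up.ext h'.up fun i j hij => ?_
  fin_cases i <;> fin_cases j <;> simp_all

theorem rr_of_k4 {g g' : L5} (h : Up g) (h' : Up g') (e : k4 g.1 = k4 g'.1) : RR (g⁻¹ * g') := by
  have k := h.inv.mul h'
  obtain ⟨c0, -, -, -, -, -, -, c1, c2, c3⟩ := h.mul_ent k
  rw [mul_inv_cancel_left] at c0 c1 c2 c3
  simp only [k4, k3, Prod.mk.injEq] at e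
  obtain ⟨e0, e1, e2, e3⟩ := e
  have d3 : (g⁻¹ * g').1 3 4 = 0 := by linear_combination -c3 - e3
  refine k.rr (by linear_combination -c0 - e0) (by linear_combination -c1 - e1) ?_ d3
  rw [d3] at c2
  linear_combination -c2 - e2

theorem act_z {g : L5} (h : Up g) : g.1 * wm 0 1 * g.1ᵀ = wm 0 1 := by
  obtain ⟨a0, a1, a2, a3, a4, a5, a6, a7, a8, a9⟩ := h.act_ent (al_wm 0 1)
  refine ((al_wm 0 1).act _).ext (al_wm 0 1) fun i j hij => ?_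
  fin_cases i <;> fin_cases j <;> simp_all [wm_ent]

theorem eq_z {m : Mt} (h : U7 m) (e : k6 m = 0) : m = 0 ∨ m = wm 0 1 := by
  obtain ⟨a0, a1, a2⟩ := h.ent
  simp only [k6, Prod.mk_eq_zero] at e
  by_cases c : m 0 1 = 0
  · refine Or.inl (h.1.ext al_zero fun i j hij => ?_)
    fin_cases i <;> fin_cases j <;> simp_all
  · have c' := CA.z2' _ c
    refine Or.inr (h.1.ext (al_wm 0 1) fun i j hij => ?_)
    fin_cases i <;> fin_cases j <;> simp_all [wm_ent]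

theorem k6_add {m m' : Mt} (e : k6 m = k6 m') : k6 (m + m') = 0 := by
  simp only [k6, Prod.mk.injEq, Prod.mk_eq_zero, Matrix.add_apply] at e ⊢
  simp [e, CA.z2]

theorem u7_add {m m' : Mt} (h : Al m) (h' : Al m') (e : k3 m = k3 m') : U7 (m + m') := by
  simp only [k3, Prod.mk.injEq] at e
  refine (h.add h').u7 ?_ ?_ ?_ <;> simp [e, CA.z2]

open Classical in
/-- Coordinates of an element of `N(A)`. -/
noncomputable def co {G : Type u} [Group G] (θ : Mt → G) (ψ : L5 →* G) (x : G) : Mt × L5 :=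
  if h : ∃ p : Mt × L5, Al p.1 ∧ x = θ p.1 * ψ p.2 then h.choose else (0, 1)

theorem k6_eq_1' : type_of% @k6.eq_1 := @k6.eq_1
theorem k4_eq_1' : type_of% @k4.eq_1 := @k4.eq_1
theorem k3_eq_1' : type_of% @k3.eq_1 := @k3.eq_1
theorem co_eq_1' : type_of% @co.eq_1 := @co.eq_1

end CB

open CB

variable {G : Type u} [Group G] [Finite G] {θ : Mt → G} {ψ : L5 →* G}

namespace Fr

variable (h : Fr θ ψ)
include h

theorem co_el {m : Mt} (hm : Al m) (g : L5) : co θ ψ (θ m * ψ g) = (m, g) := by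
  have e : ∃ p : Mt × L5, Al p.1 ∧ θ m * ψ g = θ p.1 * ψ p.2 := ⟨(m, g), hm, rfl⟩
  rw [co, dif_pos e]
  obtain ⟨e1, e2⟩ := h.el_inj hm e.choose_spec.1 e.choose_spec.2
  exact Prod.ext e1.symm e2.symm

theorem co_θ {m : Mt} (hm : Al m) : co θ ψ (θ m) = (m, 1) := by
  rw [← h.co_el hm 1, map_one, mul_one]

theorem z_sq : zz θ * zz θ = 1 := h.sq _

theorem z_ne : zz θ ≠ 1 := fun e => absurd (h.inj _ (al_wm 0 1) e) (by decide +kernel)

theorem z_ord : orderOf (zz θ) = 2 := orderOf_eq_prime (by rw [pow_two, h.z_sq]) h.z_ne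

theorem mem_zp {x : G} : x ∈ zpowers (zz θ) ↔ x = 1 ∨ x = zz θ := by
  refine ⟨fun hx => ?_, by rintro (rfl | rfl); exacts [one_mem _, mem_zpowers _]⟩
  refine (show zpowers (zz θ) ≤ CA.mkSub (fun x => x = 1 ∨ x = zz θ) (Or.inl rfl) ?_ from
    zpowers_le.2 (Or.inr rfl)) hx
  rintro _ _ (rfl | rfl) (rfl | rfl) <;> simp [h.z_sq]

theorem z_mem_QQ : zz θ ∈ QQ θ ψ := h.θ_mem_QQ (u7_wm 0 1 (by decide))

theorem zp_le_AA : zpowers (zz θ) ≤ AA θ := zpowers_le.2 (h.θ_mem (al_wm 0 1))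

theorem z_comm {x : G} (hx : x ∈ TT θ ψ) : x * zz θ = zz θ * x := by
  obtain ⟨m, g, hm, hg, rfl⟩ := h.mem_TT.1 hx
  rw [zz, ww, mul_assoc, h.act' g (al_wm 0 1), act_z hg, ← mul_assoc, h.comm, mul_assoc]

theorem θ_mem_zp {m : Mt} (hm : U7 m) (e : k6 m = 0) : θ m ∈ zpowers (zz θ) := by
  rcases eq_z hm e with rfl | rfl
  · rw [h.zero]; exact one_mem _
  · exact mem_zpowers _

theorem cm_coord {m m' : Mt} {r g : L5} (hm : Al m) (hm' : Al m')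
    (e : ⁅θ m * ψ r, θ m' * ψ g⁆ ∈ zpowers (zz θ)) :
    r * g = g * r ∧ k6 (m + r.1 * m' * r.1ᵀ) = k6 (m' + g.1 * m * g.1ᵀ) := by
  obtain ⟨ε, h1, h2, h3⟩ : ∃ ε, Al ε ∧ (∀ a, k6 (ε + a) = k6 a) ∧
      ⁅θ m * ψ r, θ m' * ψ g⁆ = θ ε := by
    rcases h.mem_zp.1 e with e | e
    · exact ⟨0, al_zero, fun a => by rw [zero_add], e.trans h.zero.symm⟩
    · exact ⟨_, al_wm 0 1, fun a => by simp [k6, wm_ent], e⟩
  rw [commutatorElement_def, mul_inv_eq_iff_eq_mul, mul_inv_eq_iff_eq_mul, mul_assoc (θ ε),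
    h.el_mul _ _ hm', h.el_mul _ _ hm, ← mul_assoc, ← h.add] at h3
  obtain ⟨e1, e2⟩ := h.el_inj (hm.add (hm'.act _)) (h1.add (hm'.add (hm.act _))) h3
  exact ⟨e2, by rw [e1, h2]⟩

theorem cm_R {m m' : Mt} {r g : L5} (hm : Al m) (hm' : Al m') (hr : RR r) (hg : Up g)
    (e : ⁅θ m * ψ r, θ m' * ψ g⁆ ∈ zpowers (zz θ)) : cR (k4 g.1) (k6 r.1) := by
  have e1 := (h.cm_coord hm hm' e).1
  obtain ⟨a0, a1, a2, a3⟩ := hr.ent
  obtain ⟨-, b1, b2, b3, -, b5, b6, -⟩ := hr.up.mul_ent hg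
  obtain ⟨-, c1, c2, c3, -, c5, c6, -⟩ := hg.mul_ent hr.up
  rw [e1] at b1 b2 b3 b5 b6
  simp only [a0, a1, a2, a3] at b1 b2 b3 b5 b6 c1 c2 c3 c5 c6
  simp only [cR, k4, k3, k6]
  exact ⟨by linear_combination b1 - c1, by linear_combination c2 - b2,
    by linear_combination c3 - b3, by linear_combination c5 - b5, by linear_combination c6 - b6⟩

theorem cm_D {m m' : Mt} {r g : L5} (hm : U7 m) (hm' : Al m') (hr : RR r) (hg : RR g)
    (e : ⁅θ m * ψ r, θ m' * ψ g⁆ ∈ zpowers (zz θ)) : cD (k3 m') (k6 r.1) := by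
  have e1 := (h.cm_coord hm.1 hm' e).2
  obtain ⟨a0, a1, a2, a3⟩ := hr.ent
  obtain ⟨a4, a5, a6, a7⟩ := hg.ent
  obtain ⟨a8, a9, a10⟩ := hm.ent
  obtain ⟨-, -, -, b1, b2, b3, b4, b5, b6, -⟩ := hr.up.act_ent hm'
  obtain ⟨-, -, -, c1, c2, c3, c4, c5, c6, -⟩ := hg.up.act_ent hm.1
  simp only [k6, Prod.mk.injEq, Matrix.add_apply, b1, b2, b3, b4, b5, b6, c1, c2, c3, c4, c5, c6,
    a0, a1, a2, a3, a4, a5, a6, a7, a8, a9, a10] at e1
  obtain ⟨⟨d1, d2, d3⟩, d4, d5, d6⟩ := e1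
  simp only [cD, k3, k6]
  exact ⟨by linear_combination d6, by linear_combination d5, by linear_combination d4,
    by linear_combination d3, by linear_combination d2, by linear_combination d1⟩

theorem cm_U {m m' : Mt} {g : L5} (hm : U7 m) (hm' : Al m') (hg : Up g)
    (e : ⁅θ m, θ m' * ψ g⁆ ∈ zpowers (zz θ)) : cU (k4 g.1) (k6 m) := by
  have e0 : θ m = θ m * ψ 1 := by rw [map_one, mul_one]
  rw [e0] at e
  have e1 := (h.cm_coord hm.1 hm' e).2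
  have e2 : (1 : L5).1 * m' * (1 : L5).1ᵀ = m' := by
    change (1 : Mt) * m' * (1 : Mt)ᵀ = m'
    simp
  obtain ⟨a8, a9, a10⟩ := hm.ent
  obtain ⟨-, -, -, c1, c2, c3, c4, c5, c6, -⟩ := hg.act_ent hm.1
  simp only [e2, k6, Prod.mk.injEq, Matrix.add_apply, c1, c2, c3, c4, c5, c6, a8, a9, a10] at e1
  obtain ⟨⟨d1, d2, d3⟩, d4, d5, d6⟩ := e1
  simp only [cU, k4, k3, k6]
  exact ⟨by linear_combination -d5, by linear_combination -d4, by linear_combination -d3,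
    by linear_combination -d2, by linear_combination -d1⟩

theorem card_I {I : Subgroup G} (hI : I ≤ QQ θ ψ) (P P' : Finset V6)
    (h1 : ∀ m r, U7 m → RR r → θ m * ψ r ∈ I → k6 r.1 ∈ P)
    (h2 : ∀ m, U7 m → θ m ∈ I → k6 m ∈ P') : Nat.card I ≤ 2 * P'.card * P.card := by
  refine (card_le I (AA θ) (fun x => k6 (co θ ψ x).2.1) P (fun x hx => ?_)
    fun x hx y hy e => ?_).trans (Nat.mul_le_mul_right _ ?_)
  · obtain ⟨m, r, hm, hr, rfl⟩ := h.mem_QQ.1 (hI hx)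
    rw [h.co_el hm.1]
    exact h1 m r hm hr hx
  · obtain ⟨m, r, hm, hr, rfl⟩ := h.mem_QQ.1 (hI hx)
    obtain ⟨m', r', hm', hr', rfl⟩ := h.mem_QQ.1 (hI hy)
    rw [h.co_el hm.1, h.co_el hm'.1] at e
    obtain rfl := rr_ext hr hr' e
    have := mem_normalizer_conj' ((h.nrm (ψ r)).2 ⟨0, r, al_zero, by rw [h.zero, one_mul]⟩)
      (mul_mem (inv_mem (h.θ_mem hm.1)) (h.θ_mem hm'.1))
    simpa [mul_assoc] using this
  · have k : ∀ x ∈ I ⊓ AA θ, ∃ m, U7 m ∧ x = θ m := fun x hx => by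
      obtain ⟨m, r, hm, hr, rfl⟩ := h.mem_QQ.1 (hI hx.1)
      obtain rfl := h.ψ_mem ((mul_mem_cancel_left (h.θ_mem hm.1)).1 hx.2)
      exact ⟨m, hm, by rw [map_one, mul_one]⟩
    refine (card_le _ (zpowers (zz θ)) (fun x => k6 (co θ ψ x).1) P' (fun x hx => ?_)
      fun x hx y hy e => ?_).trans (Nat.mul_le_mul_right _ ?_)
    · obtain ⟨m, hm, rfl⟩ := k x hx
      rw [h.co_θ hm.1]
      exact h2 m hm hx.1
    · obtain ⟨m, hm, rfl⟩ := k x hx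
      obtain ⟨m', hm', rfl⟩ := k y hy
      rw [h.co_θ hm.1, h.co_θ hm'.1] at e
      rw [h.inv, ← h.add]
      exact h.θ_mem_zp (hm.add hm') (k6_add e)
    · refine (Trans.card_le_of_le inf_le_right).trans ?_
      rw [Nat.card_zpowers, h.z_ord]

theorem card_QQ : Nat.card (QQ θ ψ) = 2 ^ 13 := by
  refine le_antisymm ?_ ?_
  · have := h.card_I le_rfl Finset.univ Finset.univ (fun _ _ _ _ _ => Finset.mem_univ _)
      fun _ _ _ => Finset.mem_univ _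
    rwa [n6] at this
  · have := Nat.card_le_card_of_injective
      (fun p : (ZMod 2 × V6) × V6 => (⟨θ (um p.1.1 p.1.2) * ψ (rl p.2),
        h.mem_QQ.2 ⟨_, _, u7_um _ _, rr_rl _, rfl⟩⟩ : QQ θ ψ)) fun p p' e => by
        obtain ⟨e1, e2⟩ := h.el_inj (u7_um _ _).1 (u7_um _ _).1 (congrArg Subtype.val e)
        exact Prod.ext (Prod.ext (congrFun (congrFun e1 0) 1) (congrArg k6 e1))
          (congrArg (fun g : L5 => k6 g.1) e2)
    simpa using this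

theorem sq_QQ {q : G} (hq : q ∈ QQ θ ψ) : q * q ∈ zpowers (zz θ) := by
  obtain ⟨m, r, hm, hr, rfl⟩ := h.mem_QQ.1 hq
  obtain ⟨a0, a1, a2, a3⟩ := hr.ent
  have e : r * r = 1 := by
    obtain ⟨-, b1, b2, b3, b4, b5, b6, -⟩ := hr.up.mul_ent hr.up
    refine rr_ext (hr.mul hr) rr_one ?_
    simp only [k6, b1, b2, b3, b4, b5, b6, a0, a1, a2, a3, zero_mul, mul_zero, add_zero, CA.z2]
    rfl
  rw [h.el_mul _ _ hm.1, e, map_one, mul_one]
  refine h.θ_mem_zp (hm.add (hm.act hr.up)) (k6_add ?_)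
  obtain ⟨a8, a9, a10⟩ := hm.ent
  obtain ⟨-, -, -, c1, c2, c3, c4, c5, c6, -⟩ := hr.up.act_ent hm.1
  simp [k6, *]

theorem pair_QQ {m m' : Mt} {r r' : L5} (hm : U7 m) (hm' : U7 m') (hr : RR r) (hr' : RR r')
    (e : θ m * ψ r * (θ m' * ψ r') = θ m' * ψ r' * (θ m * ψ r)) :
    r.1 0 2 * m' 1 2 + r.1 0 3 * m' 1 3 + r.1 0 4 * m' 1 4 + m' 0 2 * r.1 1 2 + m' 0 3 * r.1 1 3 +
      m' 0 4 * r.1 1 4 = r'.1 0 2 * m 1 2 + r'.1 0 3 * m 1 3 + r'.1 0 4 * m 1 4 + m 0 2 * r'.1 1 2 +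
      m 0 3 * r'.1 1 3 + m 0 4 * r'.1 1 4 := by
  rw [h.el_mul _ _ hm.1, h.el_mul _ _ hm'.1] at e
  have e1 := congrFun (congrFun
    (h.el_inj (hm.1.add (hm'.1.act _)) (hm'.1.add (hm.1.act _)) e).1 0) 1
  obtain ⟨a0, -⟩ := hr.ent
  obtain ⟨a1, -⟩ := hr'.ent
  obtain ⟨a2, a3, a4⟩ := hm.ent
  obtain ⟨a5, a6, a7⟩ := hm'.ent
  rw [Matrix.add_apply, Matrix.add_apply, (hr.up.act_ent hm'.1).2.2.2.2.2.2.2.2.2,
    (hr'.up.act_ent hm.1).2.2.2.2.2.2.2.2.2, a0, a1, a2, a3, a4, a5, a6, a7] at e1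
  linear_combination e1

theorem cen_QQ {c : G} (hc : c ∈ QQ θ ψ) (k : ∀ q ∈ QQ θ ψ, q * c = c * q) :
    c ∈ zpowers (zz θ) := by
  obtain ⟨m, r, hm, hr, rfl⟩ := h.mem_QQ.1 hc
  have k1 := fun a b => h.pair_QQ (u7_um 0 a) hm (rr_rl b) hr
    (k _ (h.mem_QQ.2 ⟨_, _, u7_um 0 a, rr_rl b, rfl⟩))
  have e1 : r = 1 := by
    have a1 := k1 ((1, 0, 0), 0) 0
    have a2 := k1 ((0, 1, 0), 0) 0
    have a3 := k1 ((0, 0, 1), 0) 0
    have a4 := k1 (0, (1, 0, 0)) 0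
    have a5 := k1 (0, (0, 1, 0)) 0
    have a6 := k1 (0, (0, 0, 1)) 0
    simp [um, rl, rm] at a1 a2 a3 a4 a5 a6
    refine rr_ext hr rr_one ?_
    simp only [k6, ← a1, ← a2, ← a3, ← a4, ← a5, ← a6]
    rfl
  have e2 : k6 m = 0 := by
    have a1 := k1 0 ((1, 0, 0), 0)
    have a2 := k1 0 ((0, 1, 0), 0)
    have a3 := k1 0 ((0, 0, 1), 0)
    have a4 := k1 0 (0, (1, 0, 0))
    have a5 := k1 0 (0, (0, 1, 0))
    have a6 := k1 0 (0, (0, 0, 1))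
    simp [um, rl, rm] at a1 a2 a3 a4 a5 a6
    simp only [k6, a1, a2, a3, a4, a5, a6]
    rfl
  rw [e1, map_one, mul_one]
  exact h.θ_mem_zp hm e2

theorem sp : Local.SympPair (QQ θ ψ) (zz θ) :=
  ⟨h.z_mem_QQ, h.z_ord, fun _ hq => h.z_comm (h.QQ_le_TT hq), fun _ hq => h.sq_QQ hq,
    fun _ hc k _ => h.cen_QQ hc k⟩

/-- Elements of `T` outside `Q` centralise at most a subgroup of index `16` of `Q / z`. -/
theorem bT {s : G} (hs : s ∈ TT θ ψ) (hs' : s ∉ QQ θ ψ) {I : Subgroup G} (hI : I ≤ QQ θ ψ)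
    (k : ∀ q ∈ I, ⁅q, s⁆ ∈ zpowers (zz θ)) : Nat.card I ≤ 2 ^ 9 := by
  obtain ⟨m', g, hm', hg, rfl⟩ := h.mem_TT.1 hs
  by_cases e : k4 g.1 = 0
  · have e' := e
    simp only [k4, k3, Prod.mk_eq_zero] at e'
    have hr := hg.rr e'.1 e'.2.1 e'.2.2.1 e'.2.2.2
    have e1 : k3 m' ≠ 0 := fun e1 => by
      simp only [k3, Prod.mk_eq_zero] at e1
      exact hs' (h.mem_QQ.2 ⟨m', g, hm'.u7 e1.1 e1.2.1 e1.2.2, hr, rfl⟩)
    have := h.card_I hI (Finset.univ.filter (cD (k3 m'))) Finset.univ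
      (fun m r hm hr' hq => by simpa using h.cm_D hm hm' hr' hr (k _ hq))
      fun _ _ _ => Finset.mem_univ _
    have := nD _ e1
    rw [n6] at *
    omega
  · have := h.card_I hI (Finset.univ.filter (cR (k4 g.1))) (Finset.univ.filter (cU (k4 g.1)))
      (fun m r hm hr' hq => by simpa using h.cm_R hm.1 hm' hr' hg (k _ hq))
      fun m hm hq => by simpa using h.cm_U hm hm' hg (k _ hq)
    refine this.trans ?_
    exact (Nat.mul_le_mul (Nat.mul_le_mul_left 2 (nU _ e)) (nR _ e)).trans (by norm_num)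

end Fr

end Cfsg.Lib.R10
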