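import Cfsg.Agent.R10.CB

/-! Weak closure of `Q = 2¹⁺¹²` in the Sylow subgroup `S`. -/

set_option autoImplicit false
set_option linter.unusedSectionVars false
set_option linter.unusedVariables false

namespace Cfsg.Lib.R10

open Subgroup Cfsg.Lib.Trans Cfsg.Lib.Gold Matrix CB
open scoped commutatorElement

universe u

namespace CC

theorem m4 : (Finset.univ.filter fun x : V4 => x.2.1 = 0).card = 8 ∧
    (Finset.univ.filter fun x : V4 => x.2.2.2 = 0).card = 8 ∧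
    (Finset.univ.filter fun x : V4 => x.1 = 0 ∧ x.2.1 = 0).card = 4 ∧
    (Finset.univ.filter fun x : V4 => x.1 = 0 ∧ x.2.2.2 = 0).card = 4 := by decide +kernel

end CC

open CC

variable {G : Type u} [Group G] [Finite G] {θ : Mt → G} {ψ : L5 →* G} {S : Subgroup G} {a : G}

namespace Fr

variable (h : Fr θ ψ)
include h

theorem card_B {B : Subgroup G} (hB : B ≤ TT θ ψ) (P : Finset V4) (P' : Finset V3)
    (h1 : ∀ m g, Al m → Up g → θ m * ψ g ∈ B → k4 g.1 ∈ P)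
    (h2 : ∀ m g, Al m → RR g → θ m * ψ g ∈ B → k3 m ∈ P') :
    Nat.card B ≤ Nat.card ↥(B ⊓ QQ θ ψ) * P'.card * P.card := by
  let H := h.SG Al RR al_zero rr_one (fun _ => id) (fun _ _ => Al.add) (fun _ _ => RR.mul)
    (fun _ _ k _ => k.act _)
  refine (card_le B H (fun x => k4 (co θ ψ x).2.1) P (fun x hx => ?_)
    fun x hx y hy e => ?_).trans (Nat.mul_le_mul_right _ ?_)
  · obtain ⟨m, r, hm, hr, rfl⟩ := h.mem_TT.1 (hB hx)
    rw [h.co_el hm]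
    exact h1 m r hm hr hx
  · obtain ⟨m, r, hm, hr, rfl⟩ := h.mem_TT.1 (hB hx)
    obtain ⟨m', r', hm', hr', rfl⟩ := h.mem_TT.1 (hB hy)
    rw [h.co_el hm, h.co_el hm'] at e
    refine ⟨_, _, (hm.add hm').act (r⁻¹).1, rr_of_k4 hr hr' e, ?_⟩
    rw [map_mul, ← mul_assoc (θ _), ← h.act' _ (hm.add hm'), h.add, _root_.mul_inv_rev, h.inv, map_inv]
    simp only [mul_assoc]
  · refine (card_le _ (QQ θ ψ) (fun x => k3 (co θ ψ x).1) P' (fun x hx => ?_)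
      fun x hx y hy e => ?_).trans (Nat.mul_le_mul_right _ ?_)
    · obtain ⟨m, r, hm, hr, rfl⟩ := hx.2
      rw [h.co_el hm]
      exact h2 m r hm hr hx.1
    · obtain ⟨m, r, hm, hr, rfl⟩ := hx.2
      obtain ⟨m', r', hm', hr', rfl⟩ := hy.2
      rw [h.co_el hm, h.co_el hm'] at e
      have := mul_mem (mul_mem (inv_mem (ψ_mem_QQ (θ := θ) (ψ := ψ) hr))
        (h.θ_mem_QQ (u7_add hm hm' e))) (ψ_mem_QQ hr')
      rw [h.add] at this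
      rw [_root_.mul_inv_rev, h.inv]
      simpa only [mul_assoc] using this
    · exact Trans.card_le_of_le (inf_le_inf_right _ inf_le_left)

/-- `Q / z` is the only large elementary abelian subgroup of `T / z`. -/
theorem JT {B : Subgroup G} (hB : B ≤ TT θ ψ)
    (k : ∀ b ∈ B, ∀ b' ∈ B, ⁅b, b'⁆ ∈ zpowers (zz θ)) (k' : ∀ b ∈ B, b * b ∈ zpowers (zz θ))
    (hc : 2 ^ 12 ≤ Nat.card B) : B ≤ QQ θ ψ := by
  have bd : ∀ (P4 : Finset V4) (P3 : Finset V3) (P6 P6' : Finset V6),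
      (∀ m g, Al m → Up g → θ m * ψ g ∈ B → k4 g.1 ∈ P4) →
      (∀ m g, Al m → RR g → θ m * ψ g ∈ B → k3 m ∈ P3) →
      (∀ m r, U7 m → RR r → θ m * ψ r ∈ B → k6 r.1 ∈ P6) →
      (∀ m, U7 m → θ m ∈ B → k6 m ∈ P6') →
      2 ^ 11 ≤ P6'.card * (P6.card * P3.card) * P4.card := fun P4 P3 P6 P6' a1 a2 a3 a4 => by
    have b1 := h.card_B hB P4 P3 a1 a2
    have b2 := h.card_I (I := B ⊓ QQ θ ψ) inf_le_right P6 P6' (fun m r c1 c2 c3 => a3 m r c1 c2 c3.1)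
      fun m c1 c2 => a4 m c1 c2.1
    have b3 := (hc.trans b1).trans (Nat.mul_le_mul_right _ (Nat.mul_le_mul_right _ b2))
    have b4 : 2 * P6'.card * P6.card * P3.card * P4.card =
      2 * (P6'.card * (P6.card * P3.card) * P4.card) := by ring
    omega
  have hD : (∃ m g, Al m ∧ RR g ∧ θ m * ψ g ∈ B ∧ k3 m ≠ 0) → ∃ (P3 : Finset V3) (P6 : Finset V6),
      (∀ m g, Al m → RR g → θ m * ψ g ∈ B → k3 m ∈ P3) ∧
      (∀ m r, U7 m → RR r → θ m * ψ r ∈ B → k6 r.1 ∈ P6) ∧ P6.card * P3.card ≤ 8 := by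
    rintro ⟨m₀, g₀, a1, a2, a3, a4⟩
    by_cases e : ∀ m g, Al m → RR g → θ m * ψ g ∈ B → k3 m = 0 ∨ k3 m = k3 m₀
    · refine ⟨{0, k3 m₀}, Finset.univ.filter (cD (k3 m₀)), fun m g b1 b2 b3 => by
        simpa using e m g b1 b2 b3, fun m r b1 b2 b3 => by
        simpa using h.cm_D b1 a1 b2 a2 (k _ b3 _ a3), ?_⟩
      exact Nat.mul_le_mul (nD _ a4) Finset.card_le_two
    · push Not at e
      obtain ⟨m₁, g₁, b1, b2, b3, b4, b5⟩ := e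
      refine ⟨Finset.univ, Finset.univ.filter fun c => cD (k3 m₁) c ∧ cD (k3 m₀) c,
        fun _ _ _ _ _ => Finset.mem_univ _, fun m r c1 c2 c3 => by
          simpa using ⟨h.cm_D c1 b1 c2 b2 (k _ c3 _ b3), h.cm_D c1 a1 c2 a2 (k _ c3 _ a3)⟩, ?_⟩
      rw [n3]
      exact Nat.mul_le_mul_right 8 (nD' _ _ ⟨b4, a4, b5⟩)
  have hY : (∀ m g, Al m → Up g → θ m * ψ g ∈ B → g.1 2 3 = 0) ∨
      ∀ m g, Al m → Up g → θ m * ψ g ∈ B → g.1 3 4 = 0 := by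
    by_contra! e
    obtain ⟨⟨m, g, a1, a2, a3, a4⟩, m', g', b1, b2, b3, b4⟩ := e
    have c1 := (h.cm_coord a1 b1 (k _ a3 _ b3)).1
    have c2 := h.zp_le_AA (k' _ a3)
    rw [h.el_mul _ _ a1] at c2
    have c3 := h.ψ_mem ((mul_mem_cancel_left (h.θ_mem (a1.add (a1.act _)))).1 c2)
    have c4 := (a2.mul_ent a2).2.2.2.2.2.2.2.2.1
    have c5 := (a2.mul_ent b2).2.2.2.2.2.2.2.2.1
    have c6 := (b2.mul_ent a2).2.2.2.2.2.2.2.2.1
    rw [c3, CA.z2' _ a4, show (1 : L5).1 2 4 = 0 from rfl] at c4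
    rw [c1, c6, CA.z2' _ a4, CA.z2' _ b4] at c5
    have c7 : g.1 3 4 = 0 := by linear_combination -c4 - CA.z2 (g.1 2 4)
    rw [c7] at c5
    exact one_ne_zero (α := ZMod 2) (by linear_combination -c5)
  by_cases hE : ∃ m g, Al m ∧ Up g ∧ θ m * ψ g ∈ B ∧ k4 g.1 ≠ 0
  · exfalso
    obtain ⟨m₀, g₀, a1, a2, a3, a4⟩ := hE
    have uU : ∀ m g, Al m → Up g → θ m * ψ g ∈ B → ∀ m', U7 m' → θ m' ∈ B →
        k6 m' ∈ Finset.univ.filter (cU (k4 g.1)) := fun m g b1 b2 b3 m' b4 b5 => by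
      simpa using h.cm_U b4 b1 b2 (k _ b5 _ b3)
    have uR : ∀ m g, Al m → Up g → θ m * ψ g ∈ B → ∀ m' r, U7 m' → RR r → θ m' * ψ r ∈ B →
        k6 r.1 ∈ Finset.univ.filter (cR (k4 g.1)) := fun m g b1 b2 b3 m' r b4 b5 b6 => by
      simpa using h.cm_R b4.1 b1 b5 b2 (k _ b6 _ b3)
    obtain ⟨P4, p1, p2⟩ : ∃ P : Finset V4, (∀ m g, Al m → Up g → θ m * ψ g ∈ B → k4 g.1 ∈ P) ∧
        P.card = 8 := by
      rcases hY with e | e
      · exact ⟨_, fun m g b1 b2 b3 => by simpa [k4, k3] using e m g b1 b2 b3, m4.1⟩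
      · exact ⟨_, fun m g b1 b2 b3 => by simpa [k4, k3] using e m g b1 b2 b3, m4.2.1⟩
    by_cases hD' : ∃ m g, Al m ∧ RR g ∧ θ m * ψ g ∈ B ∧ k3 m ≠ 0
    · obtain ⟨P3, P6, q1, q2, q3⟩ := hD hD'
      have := bd P4 P3 P6 _ p1 q1 q2 (uU _ _ a1 a2 a3)
      rw [p2] at this
      have := Nat.mul_le_mul (nU _ a4) q3
      omega
    · push Not at hD'
      have q1 : ∀ m g, Al m → RR g → θ m * ψ g ∈ B → k3 m ∈ ({0} : Finset V3) :=
        fun m g b1 b2 b3 => by simpa using hD' m g b1 b2 b3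
      by_cases hX : ∃ m g, Al m ∧ Up g ∧ θ m * ψ g ∈ B ∧ g.1 0 1 ≠ 0
      · obtain ⟨m₁, g₁, b1, b2, b3, b4⟩ := hX
        have := bd P4 _ _ _ p1 q1 (uR _ _ b1 b2 b3) (uU _ _ b1 b2 b3)
        rw [p2, Finset.card_singleton, mul_one] at this
        have := Nat.mul_le_mul (nU' (k4 g₁.1) b4) (nR' (k4 g₁.1) b4)
        omega
      · push Not at hX
        obtain ⟨P, p3, p4⟩ : ∃ P : Finset V4, (∀ m g, Al m → Up g → θ m * ψ g ∈ B → k4 g.1 ∈ P) ∧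
            P.card = 4 := by
          rcases hY with e | e
          · exact ⟨_, fun m g b1 b2 b3 => by
              simpa [k4, k3] using ⟨hX m g b1 b2 b3, e m g b1 b2 b3⟩, m4.2.2.1⟩
          · exact ⟨_, fun m g b1 b2 b3 => by
              simpa [k4, k3] using ⟨hX m g b1 b2 b3, e m g b1 b2 b3⟩, m4.2.2.2⟩
        have := bd P _ _ _ p3 q1 (uR _ _ a1 a2 a3) (uU _ _ a1 a2 a3)
        rw [p4, Finset.card_singleton, mul_one] at this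
        have := Nat.mul_le_mul (nU _ a4) (nR _ a4)
        omega
  · push Not at hE
    by_cases hD' : ∃ m g, Al m ∧ RR g ∧ θ m * ψ g ∈ B ∧ k3 m ≠ 0
    · obtain ⟨P3, P6, q1, q2, q3⟩ := hD hD'
      have := bd {0} P3 P6 Finset.univ (fun m g b1 b2 b3 => by simpa using hE m g b1 b2 b3) q1 q2
        fun _ _ _ => Finset.mem_univ _
      rw [n6, Finset.card_singleton] at this
      omega
    · push Not at hD'
      intro x hx
      obtain ⟨m, g, b1, b2, rfl⟩ := h.mem_TT.1 (hB hx)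
      have e := hE m g b1 b2 hx
      simp only [k4, k3, Prod.mk_eq_zero] at e
      have hr := b2.rr e.1 e.2.1 e.2.2.1 e.2.2.2
      have e' := hD' m g b1 hr hx
      simp only [k3, Prod.mk_eq_zero] at e'
      exact h.mem_QQ.2 ⟨m, g, b1.u7 e'.1 e'.2.1 e'.2.2, hr, rfl⟩

theorem sw_conj (ha : Sw θ ψ a) {t : G} (ht : t ∈ TT θ ψ) : a * t * a⁻¹ ∈ TT θ ψ := by
  have := mul_mem (h.O14_le_TT (ha.cG t (TT_le_G01 ht))) ht
  rwa [commutatorElement_def, inv_mul_cancel_right] at this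

theorem sw_Ns (ha : Sw θ ψ a) : a ∈ Ns (TT θ ψ) :=
  mem_normalizer_of_cj_le (cj_le_iff.2 fun _ ht => h.sw_conj ha ht)

theorem sw_mul (ha : Sw θ ψ a) {s s' : G} (h1 : a * s ∈ TT θ ψ) (h2 : a * s' ∈ TT θ ψ) :
    s * s' ∈ TT θ ψ := by
  have := mul_mem (mul_mem (mem_normalizer_conj' (h.sw_Ns ha) h1) (inv_mem (h.O14_le_TT ha.sq))) h2
  simpa [mul_assoc] using this

theorem sw_cases (ha : Sw θ ψ a) {s : G} (hs : s ∈ TT θ ψ ⊔ zpowers a) :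
    s ∈ TT θ ψ ∨ a * s ∈ TT θ ψ := by
  refine (show TT θ ψ ⊔ zpowers a ≤ CA.mkSub (fun s => s ∈ TT θ ψ ∨ a * s ∈ TT θ ψ)
    (Or.inl (one_mem _)) ?_ from sup_le (fun _ k => Or.inl k)
      (zpowers_le.2 (Or.inr (h.O14_le_TT ha.sq)))) hs
  rintro x y (hx | hx) (hy | hy)
  · exact Or.inl (mul_mem hx hy)
  · exact Or.inr (by simpa [mul_assoc] using mul_mem (h.sw_conj ha hx) hy)
  · exact Or.inr (by simpa [mul_assoc] using mul_mem hx hy)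
  · exact Or.inl (h.sw_mul ha hx hy)

omit h in
theorem TT_le_S (hS : Sy θ ψ S) : TT θ ψ ≤ S := by
  rcases hS.alt with ⟨e, -⟩ | ⟨a, -, e, -⟩
  · exact e.ge
  · exact e ▸ le_sup_left

theorem S_cases (hS : Sy θ ψ S) {s : G} (hs : s ∈ S) :
    s ∈ TT θ ψ ∨ ∃ a, Sw θ ψ a ∧ a ∈ S ∧ a * s ∈ TT θ ψ := by
  rcases hS.alt with ⟨e, -⟩ | ⟨a, ha, e, -⟩
  · exact Or.inl (e ▸ hs)
  · exact (h.sw_cases ha (e ▸ hs)).imp id fun k =>
      ⟨a, ha, e ▸ mem_sup_right (mem_zpowers a), k⟩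

theorem S_idx (hS : Sy θ ψ S) {s s' : G} (hs : s ∈ S) (hs' : s' ∈ S) (h1 : s ∉ TT θ ψ)
    (h2 : s' ∉ TT θ ψ) : s * s' ∈ TT θ ψ := by
  rcases hS.alt with ⟨e, -⟩ | ⟨a, ha, e, -⟩
  · exact absurd (e ▸ hs) h1
  · exact h.sw_mul ha ((h.sw_cases ha (e ▸ hs)).resolve_left h1)
      ((h.sw_cases ha (e ▸ hs')).resolve_left h2)

/-- No element of `S` outside `Q` centralises a hyperplane of `Q / z`. -/
theorem bS (hS : Sy θ ψ S) {s : G} (hs : s ∈ S) (hs' : s ∉ QQ θ ψ) {I : Subgroup G}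
    (hI : I ≤ QQ θ ψ) (k : ∀ q ∈ I, ⁅q, s⁆ ∈ zpowers (zz θ)) : Nat.card I ≤ 2 ^ 11 := by
  rcases h.S_cases hS hs with ht | ⟨a, ha, -, ht⟩
  · exact (h.bT ht hs' hI k).trans (by norm_num)
  obtain ⟨m', g, hm', hg, e⟩ := h.mem_TT.1 ht
  have := h.card_I hI Finset.univ (Finset.univ.filter fun u : V6 => u.1.2.2 = 0 ∧ u.2.2.2 = 0)
    (fun _ _ _ _ _ => Finset.mem_univ _) fun m hm hq => by
      have a1 : s * θ m * s⁻¹ ∈ AA θ := by
        have := mul_mem (inv_mem (h.θ_mem hm.1)) (h.zp_le_AA (k _ hq))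
        rw [commutatorElement_def, mul_assoc (θ m), mul_assoc (θ m), inv_mul_cancel_left,
          h.inv] at this
        exact this
      have a2 : a * s * θ m * (a * s)⁻¹ ∈ A1 θ ψ := by
        have := (conj_mem_cj (g := a)).2 a1
        rw [ha.a01] at this
        simpa [mul_assoc] using this
      obtain ⟨m₁, r, b1, b2, b3⟩ := h.of_mem_A1 a2
      have a3 : a * s * θ m * (a * s)⁻¹ = θ (g.1 * m * g.1ᵀ) * ψ 1 := by
        rw [e, map_one, mul_one, mul_assoc (θ m'), h.act' g hm.1, ← mul_assoc, h.comm,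
          mul_assoc (θ _), mul_inv_cancel_right]
      obtain ⟨b4, -⟩ := h.el_inj (hm.1.act _) b1.1 (a3.symm.trans b3)
      obtain ⟨-, -, -, c1, -, -, c2, -⟩ := hg.act_ent hm.1
      obtain ⟨-, d1, d2⟩ := hm.ent
      rw [b4, b1.2, d1, d2] at c1 c2
      have c3 : m 1 4 = 0 := by linear_combination -c1
      rw [c3] at c2
      simp only [k6, Finset.mem_filter, Finset.mem_univ, true_and]
      exact ⟨by linear_combination -c2, c3⟩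
  rwa [n6, nW] at this

/-- `S / Q` is faithful on `Q / z`. -/
theorem cV (hS : Sy θ ψ S) {s : G} (hs : s ∈ S) (k : ∀ q ∈ QQ θ ψ, ⁅q, s⁆ ∈ zpowers (zz θ)) :
    s ∈ QQ θ ψ := by
  by_contra e
  have := h.bS hS hs e le_rfl k
  rw [h.card_QQ] at this
  omega

theorem cS (hS : Sy θ ψ S) {s : G} (hs : s ∈ S) (k : ∀ q ∈ QQ θ ψ, s * q = q * s) :
    s ∈ zpowers (zz θ) :=
  h.cen_QQ (h.cV hS hs fun q hq => by
    rw [commutatorElement_eq_one_iff_mul_comm.2 (k q hq).symm]; exact one_mem _)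
    fun q hq => (k q hq).symm

/-- No four-group of `S / Q` has all involutions of codimension two. -/
theorem b4 (hS : Sy θ ψ S) {s s' : G} (hs : s ∈ S) (hs' : s' ∈ S) (h1 : s ∉ QQ θ ψ)
    (h2 : s' ∉ QQ θ ψ) (h3 : s * s' ∉ QQ θ ψ) : ∃ t, (t = s ∨ t = s' ∨ t = s * s') ∧
      ∀ I : Subgroup G, I ≤ QQ θ ψ → (∀ q ∈ I, ⁅q, t⁆ ∈ zpowers (zz θ)) → Nat.card I ≤ 2 ^ 9 := by
  by_cases e : s ∈ TT θ ψ
  · exact ⟨s, Or.inl rfl, fun I => h.bT e h1⟩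
  by_cases e' : s' ∈ TT θ ψ
  · exact ⟨s', Or.inr (Or.inl rfl), fun I => h.bT e' h2⟩
  exact ⟨_, Or.inr (Or.inr rfl), fun I => h.bT (h.S_idx hS hs hs' e e') h3⟩

/-- `J(S / z) = Q / z`. -/
theorem JS (hS : Sy θ ψ S) {B : Subgroup G} (hB : B ≤ S)
    (k : ∀ b ∈ B, ∀ b' ∈ B, ⁅b, b'⁆ ∈ zpowers (zz θ)) (k' : ∀ b ∈ B, b * b ∈ zpowers (zz θ))
    (hc : 2 ^ 13 ≤ Nat.card B) : B = QQ θ ψ := by
  classical
  have a1 := card_le B (TT θ ψ) (fun x => decide (x ∈ TT θ ψ)) Finset.univ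
    (fun _ _ => Finset.mem_univ _) fun x hx y hy e => by
      rw [decide_eq_decide] at e
      by_cases e1 : x ∈ TT θ ψ
      · exact mul_mem (inv_mem e1) (e.1 e1)
      · exact h.S_idx hS (inv_mem (hB hx)) (hB hy) (by rwa [inv_mem_iff]) (mt e.2 e1)
  rw [Finset.card_univ, Fintype.card_bool] at a1
  have a2 : B ⊓ TT θ ψ ≤ QQ θ ψ := h.JT inf_le_right (fun b hb b' hb' => k b hb.1 b' hb'.1)
    (fun b hb => k' b hb.1) (by omega)
  refine Subgroup.eq_of_le_of_card_ge (fun s hs => ?_) (by rw [h.card_QQ]; exact hc)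
  by_contra e
  have := h.bS hS (hB hs) e a2 fun q hq => k q hq.1 s hs
  omega

theorem cm_QQ {q q' : G} (hq : q ∈ QQ θ ψ) (hq' : q' ∈ QQ θ ψ) : ⁅q, q'⁆ ∈ zpowers (zz θ) :=
  h.sp.commutator_mem hq hq'

/-- Weak closure of `Q` in `S` with respect to `C(z)`. -/
theorem wc (hS : Sy θ ψ S) {c : G} (hc : c ∈ C1 (zz θ)) (k : cj c (QQ θ ψ) ≤ S) :
    cj c (QQ θ ψ) = QQ θ ψ := by
  have e : ∀ w ∈ zpowers (zz θ), c * w * c⁻¹ ∈ zpowers (zz θ) := fun w hw => by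
    rcases h.mem_zp.1 hw with rfl | rfl
    · simp
    · rw [mem_centralizer_singleton_iff.1 hc, mul_inv_cancel_right]; exact mem_zpowers _
  refine h.JS hS k ?_ ?_ (by rw [card_cj, h.card_QQ])
  · rintro _ ⟨q, hq, rfl⟩ _ ⟨q', hq', rfl⟩
    rw [← map_commutatorElement]
    exact e _ (h.cm_QQ hq hq')
  · rintro _ ⟨q, hq, rfl⟩
    rw [← map_mul]
    exact e _ (h.sq_QQ hq)

theorem S_le_NQ (hS : Sy θ ψ S) : S ≤ Ns (QQ θ ψ) := fun s hs => by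
  have hT : ∀ t ∈ TT θ ψ, t ∈ Ns (QQ θ ψ) := fun t ht => cj_eq_self_iff.1
    (h.wc hS (mem_centralizer_singleton_iff.2 (h.z_comm ht))
      (cj_le_of_mem_of_le (TT_le_S hS ht) (h.QQ_le_TT.trans (TT_le_S hS))))
  rcases h.S_cases hS hs with ht | ⟨a, ha, -, ht⟩
  · exact hT s ht
  · exact (mul_mem_cancel_left ha.nQ).1 (hT _ ht)

theorem sqQ : ∀ x ∈ QQ θ ψ, x * x = 1 ∨ x * x = zz θ := fun _ hx => h.mem_zp.1 (h.sq_QQ hx)

theorem cenQ : ∀ x ∈ QQ θ ψ, (∀ y ∈ QQ θ ψ, x * y = y * x) → x = 1 ∨ x = zz θ :=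
  fun _ hx k => h.mem_zp.1 (h.cen_QQ hx fun q hq => (k q hq).symm)

theorem QS (hS : Sy θ ψ S) : QQ θ ψ ≤ S := h.QQ_le_TT.trans (TT_le_S hS)

theorem wc' (hS : Sy θ ψ S) : ∀ g ∈ C1 (zz θ), cj g (QQ θ ψ) ≤ S → cj g (QQ θ ψ) = QQ θ ψ :=
  fun _ hg k => h.wc hS hg k

theorem i2 (hS : Sy θ ψ S) : ∀ s ∈ S, ∀ s' ∈ S, s ∉ TT θ ψ → s' ∉ TT θ ψ → s * s' ∈ TT θ ψ :=
  fun _ hs _ hs' => h.S_idx hS hs hs'

theorem n1 (hS : Sy θ ψ S) : ∀ s ∈ S, s ∉ QQ θ ψ → ∀ C : Subgroup G, C ≤ QQ θ ψ →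
    (∀ c ∈ C, c * s * c⁻¹ * s⁻¹ ∈ zpowers (zz θ)) → 2 * Nat.card C < Nat.card (QQ θ ψ) :=
  fun s hs hs' C hC k => by
    have := h.bS hS hs hs' hC k
    rw [h.card_QQ]; omega

theorem n2 : ∀ s ∈ S, s ∈ TT θ ψ → s ∉ QQ θ ψ → ∀ C : Subgroup G, C ≤ QQ θ ψ →
    (∀ c ∈ C, c * s * c⁻¹ * s⁻¹ ∈ zpowers (zz θ)) → 4 * Nat.card C < Nat.card (QQ θ ψ) :=
  fun s _ hs hs' C hC k => by
    have := h.bT hs hs' hC k
    rw [h.card_QQ]; omega

end Fr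

end Cfsg.Lib.R10
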