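import Cfsg.Agent.R10.Defs
import Cfsg.Agent.J4T.PB1

/-! Coordinates on `R15 / B3` and the action of `C(B3)`. -/

set_option autoImplicit false

namespace Cfsg.Lib.R10

open Subgroup Cfsg.Lib.Trans Cfsg.Lib.Gold Matrix
open Cfsg.Lib.J4T (N4 M12 Z3 bv rho)

universe u

def bz (b : Bool) : ZMod 2 := bif b then 1 else 0

/-- The coordinates of `d` with respect to the basis `w3, w4, t3, t4 = 5, 1, 6, 11`. -/
def dc (d : N4) (k : ℕ) : Bool := J4T.beta d (bv 4 ([6, 11, 5, 1].getD k 0))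

/-- The component of `f` belonging to `e i`. -/
def rw3 (f : M12) (i : Fin 5) : N4 :=
  if i = 0 then f.2.2 else if i = 1 then f.2.1 else if i = 2 then f.1 else 0

/-- The element of `M12` with component `d` at `e i`. -/
def at3 (i : Fin 5) (d : N4) : M12 :=
  (if i = 2 then d else 0, if i = 1 then d else 0, if i = 0 then d else 0)

def mL (f : M12) : Mt := Matrix.of fun a c =>
  if 3 ≤ c.val then bz (dc (rw3 f a) (c.val - 3))
  else if 3 ≤ a.val then bz (dc (rw3 f c) (a.val - 3)) else 0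

def gM (f : M12) : Mt := Matrix.of fun a c =>
  if a = c then 1 else if 3 ≤ c.val ∧ a.val < 3 then bz (dc (rw3 f a) (c.val - 1)) else 0

theorem det_gM (f : M12) : (gM f).det = 1 := by
  rw [Matrix.det_of_isUpperTriangular]
  · simp [gM]
  · intro a c h
    have h' : c.val < a.val := h
    simp only [gM, of_apply]
    rw [if_neg (fun e => by rw [e] at h'; omega), if_neg (by omega)]

def gL (f : M12) : L5 := ⟨gM f, det_gM f⟩

/-- The alternating matrix with coordinates `w01, w02, w12`. -/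
def mZ (ζ : Z3) : Mt :=
  bz (ζ.v.testBit 0) • wm 0 1 + bz (ζ.v.testBit 1) • wm 0 2 + bz (ζ.v.testBit 2) • wm 1 2

/-- The quadratic form of plus type on `N4`. -/
def qD (d : N4) : Bool := (dc d 0 && dc d 2) ^^ (dc d 1 && dc d 3)

/-- The image of `A`. -/
def D0 (d : N4) : Prop := dc d 2 = false ∧ dc d 3 = false

/-- The image of `A1`. -/
def D1 (d : N4) : Prop := dc d 1 = false ∧ dc d 2 = false

instance (d : N4) : Decidable (D0 d) := inferInstanceAs (Decidable (_ ∧ _))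
instance (d : N4) : Decidable (D1 d) := inferInstanceAs (Decidable (_ ∧ _))

/-- The action of `ww 3 4`. -/
def la : N4 → N4 := rho (Equiv.swap 3 4)
/-- The action of `tt 3 4`. -/
def l34 : N4 → N4 := rho (Equiv.swap 0 1)
/-- The action of `tt 4 3`. -/
def l43 : N4 → N4 := rho (Equiv.swap 1 2)
/-- The action of the negative root element. -/
def lb (d : N4) : N4 := d + (bif dc d 0 then bv 4 11 else 0) + (bif dc d 1 then bv 4 6 else 0)

/-- Symplectic maps. -/
structure Sp (l : N4 → N4) : Prop where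
  add : ∀ u v, l (u + v) = l u + l v
  bet : ∀ u v, J4T.beta (l u) (l v) = J4T.beta u v

variable {G : Type u} [Group G] (θ : Mt → G) (ψ : L5 →* G)

/-- `x ∈ R15` has coordinates `f` modulo `B3`. -/
def Cl (x : G) (f : M12) : Prop := ∃ ζ : Z3, x = θ (mZ ζ + mL f) * ψ (gL f)

/-- `c` centralises `B3` and induces `l` on `R15 / B3`. -/
def La (c : G) (l : N4 → N4) : Prop :=
  c ∈ Cs (B3 θ) ∧ ∀ x f, Cl θ ψ x f → Cl θ ψ (c * x * c⁻¹) (l f.1, l f.2.1, l f.2.2)

/-- The Levi factor `L₃(2)`. -/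
def M3 : Subgroup G := closure {g | ∃ i j : Fin 5, i.val < 3 ∧ j.val < 3 ∧ g = tt ψ i j}

/-- The negative root element of the fifth node. -/
structure DB (b : G) : Prop where
  sq : b * b = 1
  br : (ww θ 3 4 * b) ^ 3 = 1
  cm : ∀ i j : Fin 5, i.val < 3 → Commute b (tt ψ i j)
  c34 : Commute b (tt ψ 3 4)
  c43 : Commute b (tt ψ 4 3)
  cZ : ∀ i j : Fin 5, i.val < 3 → j.val < 3 → Commute b (ww θ i j)
  w3 : ∀ i : Fin 5, i.val < 3 → b * ww θ i 3 * b = ww θ i 3 * tt ψ i 4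
  w4 : ∀ i : Fin 5, i.val < 3 → b * ww θ i 4 * b = ww θ i 4 * tt ψ i 3

theorem Cl_eq_1' : type_of% @Cl.eq_1 := @Cl.eq_1
theorem La_eq_1' : type_of% @La.eq_1 := @La.eq_1
theorem M3_eq_1' : type_of% @M3.eq_1 := @M3.eq_1
theorem mL_eq_1' : type_of% @mL.eq_1 := @mL.eq_1
theorem gM_eq_1' : type_of% @gM.eq_1 := @gM.eq_1
theorem gL_eq_1' : type_of% @gL.eq_1 := @gL.eq_1
theorem mZ_eq_1' : type_of% @mZ.eq_1 := @mZ.eq_1
theorem rw3_eq_1' : type_of% @rw3.eq_1 := @rw3.eq_1
theorem at3_eq_1' : type_of% @at3.eq_1 := @at3.eq_1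
theorem bz_eq_1' : type_of% @bz.eq_1 := @bz.eq_1
theorem dc_eq_1' : type_of% @dc.eq_1 := @dc.eq_1
theorem qD_eq_1' : type_of% @qD.eq_1 := @qD.eq_1
theorem D0_eq_1' : type_of% @D0.eq_1 := @D0.eq_1
theorem D1_eq_1' : type_of% @D1.eq_1 := @D1.eq_1
theorem la_eq_1' : type_of% @la.eq_1 := @la.eq_1
theorem l34_eq_1' : type_of% @l34.eq_1 := @l34.eq_1
theorem l43_eq_1' : type_of% @l43.eq_1 := @l43.eq_1
theorem lb_eq_1' : type_of% @lb.eq_1 := @lb.eq_1

end Cfsg.Lib.R10
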