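import Cfsg.Agent.Gold.Defs
import Cfsg.Agent.Local.PCoreOf
import Cfsg.Agent.SporChar.LargeX
import Cfsg.Prelude.Def_JankoFourType
import Cfsg.Prelude.Def_Classical
import Mathlib.LinearAlgebra.Matrix.SpecialLinearGroup

/-! Setting of the tower for groups with a local subgroup `2¹⁰ : L₅(2)`. -/

set_option autoImplicit false

namespace Cfsg.Lib.R10

open Subgroup Cfsg.Lib.Trans Cfsg.Lib.Gold Matrix
open scoped commutatorElement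

universe u

abbrev Mt : Type := Matrix (Fin 5) (Fin 5) (ZMod 2)

abbrev L5 : Type := SpecialLinearGroup (Fin 5) (ZMod 2)

/-- Alternating matrices. -/
def Al (m : Mt) : Prop := mᵀ = m ∧ ∀ i, m i i = 0

instance (m : Mt) : Decidable (Al m) := inferInstanceAs (Decidable (_ ∧ _))

/-- The matrix of `e i ∧ e j` (zero for `i = j`). -/
def wm (i j : Fin 5) : Mt :=
  Matrix.of fun a c => if i ≠ j ∧ ((a = i ∧ c = j) ∨ (a = j ∧ c = i)) then 1 else 0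

/-- The matrix `1 + e i j` (the identity for `i = j`). -/
def tm (i j : Fin 5) : Mt := Matrix.of fun a c => if a = c ∨ (a = i ∧ c = j) then 1 else 0

theorem det_tm : ∀ i j, (tm i j).det = 1 := by decide +kernel

/-- The transvection `e j ↦ e j + e i`. -/
def tv (i j : Fin 5) : L5 := ⟨tm i j, det_tm i j⟩

theorem al_wm : ∀ i j, Al (wm i j) := by decide +kernel

variable {G : Type u} [Group G]

section

variable (θ : Mt → G) (ψ : L5 →* G)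

/-- The subgroup `A = 2¹⁰`. -/
def AA : Subgroup G := closure {a | ∃ m, Al m ∧ θ m = a}

/-- The element `e i ∧ e j` of `A`. -/
def ww (i j : Fin 5) : G := θ (wm i j)

/-- The root element over the transvection `e j ↦ e j + e i`. -/
def tt (i j : Fin 5) : G := ψ (tv i j)

def zz : G := ww θ 0 1

/-- The element of order three acting on `⟨e 0, e 1⟩`. -/
def xx : G := tt ψ 0 1 * tt ψ 1 0

/-- The element of order three acting on `⟨e 2, e 3⟩`. -/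
def yy : G := tt ψ 2 3 * tt ψ 3 2

/-- Sylow 2-subgroup of `N(A)`, order `2²⁰`. -/
def TT : Subgroup G := AA θ ⊔ closure {g | ∃ i j, i < j ∧ g = tt ψ i j}

/-- The extraspecial group `2¹⁺¹²`. -/
def QQ : Subgroup G :=
  closure {g | ∃ i j : Fin 5, i.val < 2 ∧ i < j ∧ (g = ww θ i j ∨ (2 ≤ j.val ∧ g = tt ψ i j))}

/-- `Λ²⟨e 0, e 1, e 2⟩ = 2³`. -/
def B3 : Subgroup G := closure {ww θ 0 1, ww θ 0 2, ww θ 1 2}

/-- The special group `2³⁺¹²`. -/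
def R15 : Subgroup G :=
  closure {g | ∃ i j : Fin 5, i.val < 3 ∧ i < j ∧ (g = ww θ i j ∨ (3 ≤ j.val ∧ g = tt ψ i j))}

/-- `Λ²⟨e 0, …, e 3⟩ = 2⁶`. -/
def Z6 : Subgroup G := closure {g | ∃ i j : Fin 5, i.val < 4 ∧ j.val < 4 ∧ g = ww θ i j}

def A1 : Subgroup G := Z6 θ ⊔ closure {g | ∃ i : Fin 5, i.val < 4 ∧ g = tt ψ i 4}

def A2 : Subgroup G := Z6 θ ⊔ closure {g | ∃ i : Fin 5, i.val < 4 ∧ g = tt ψ i 4 * ww θ i 4}

/-- The special group `2⁶⁺⁸`. -/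
def O14 : Subgroup G := AA θ ⊔ A1 θ ψ

/-- The parabolic `2⁶⁺⁸ : L₄(2)` of `N(A)`. -/
def G01 : Subgroup G := O14 θ ψ ⊔ closure {g | ∃ i j : Fin 5, i.val < 4 ∧ j.val < 4 ∧ g = tt ψ i j}

end

/-- The split model of `N(A)` inside `G`. -/
structure Fr (θ : Mt → G) (ψ : L5 →* G) : Prop where
  add : ∀ m m', θ (m + m') = θ m * θ m'
  inj : ∀ m, Al m → θ m = 1 → m = 0
  act : ∀ (g : L5) m, Al m → ψ g * θ m * (ψ g)⁻¹ = θ (g.1 * m * g.1ᵀ)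
  nrm : ∀ n, n ∈ Ns (AA θ) ↔ ∃ m g, Al m ∧ n = θ m * ψ g
  core : Oc (C1 (zz θ)) = ⊥

/-- An element interchanging `A` and `A1`. -/
structure Sw (θ : Mt → G) (ψ : L5 →* G) (a : G) : Prop where
  sq : a * a ∈ O14 θ ψ
  a01 : cj a (AA θ) = A1 θ ψ
  a10 : cj a (A1 θ ψ) = AA θ
  cZ : a ∈ Cs (Z6 θ)
  cG : ∀ g ∈ G01 θ ψ, ⁅a, g⁆ ∈ O14 θ ψ
  cx : a * xx ψ = xx ψ * a
  cy : a * yy ψ = yy ψ * a
  nQ : a ∈ Ns (QQ θ ψ)

/-- The Sylow 2-subgroup `S` of `G` over `T`. -/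
structure Sy (θ : Mt → G) (ψ : L5 →* G) (S : Subgroup G) : Prop where
  syl : IsSylowIn 2 S ⊤
  alt : (S = TT θ ψ ∧ ∀ g, cj g (AA θ) ≤ S → cj g (AA θ) = AA θ) ∨
    ∃ a, Sw θ ψ a ∧ S = TT θ ψ ⊔ zpowers a ∧
      ∀ g, cj g (AA θ) ≤ S → cj g (AA θ) = AA θ ∨ cj g (AA θ) = A1 θ ψ
  fus : ∀ (B : Subgroup G) g, B ≤ AA θ → cj g B ≤ AA θ →
    ∃ n ∈ Ns (AA θ), ∀ b ∈ B, g * b * g⁻¹ = n * b * n⁻¹

/-- `Q` is the large extraspecial subgroup `F*(C(z))`. -/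
structure LXQ (θ : Mt → G) (ψ : L5 →* G) : Prop where
  pre : Local.PreLX (QQ θ ψ) (zz θ)
  card : Nat.card (QQ θ ψ) = 2 ^ 13
  two : pCoreOf 2 (C1 (zz θ)) = QQ θ ψ

/-- Output of the analysis of `C(z) / Q` in the orthogonal case. -/
structure DO (θ : Mt → G) (ψ : L5 →* G) (S K : Subgroup G) (f : K →* alternatingGroup (Fin 8)) :
    Prop where
  nx : C1 (zz θ) ≤ Ns (QQ θ ψ ⊔ zpowers (xx ψ))
  le : K ≤ C1 (zz θ) ⊓ C1 (xx ψ)
  nK : C1 (zz θ) ⊓ Ns (zpowers (xx ψ)) ≤ Ns K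
  surj : Function.Surjective f
  ker : ∀ k, f k = 1 ↔ (k : G) ∈ zpowers (zz θ)
  mw : ∀ i j : Fin 5, 2 ≤ i.val → 2 ≤ j.val → ww θ i j ∈ K
  mt : ∀ i j : Fin 5, 2 ≤ i.val → 2 ≤ j.val → tt ψ i j ∈ K
  gen : C1 (zz θ) = QQ θ ψ ⊔ K ⊔ S ⊔ zpowers (xx ψ)

/-- The conclusion. -/
def Con (G : Type u) [Group G] : Prop :=
  Nonempty (G ≃* ↥(Cfsg.Omega (ZMod 2) (Cfsg.quadFormPlus 5 (ZMod 2)))) ∨
    Nonempty (G ≃* ↥(Cfsg.isometryGroup (ZMod 2) (Cfsg.quadFormPlus 5 (ZMod 2)))) ∨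
    Cfsg.IsOfJankoFourType G

end Cfsg.Lib.R10
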