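import Cfsg.Agent.R10.E10a

/-! The elementary abelian subgroups of order `2¹⁰` of `T`. -/

set_option autoImplicit false
set_option linter.unusedSectionVars false
set_option linter.unusedVariables false

namespace Cfsg.Lib.R10

open Subgroup Cfsg.Lib.Trans Cfsg.Lib.Gold Matrix CB
open scoped commutatorElement

universe u

namespace E10

def am (w : V6) (v : V4) : Mt :=
  !![0, w.1.1, w.1.2.1, w.1.2.2, v.1; w.1.1, 0, w.2.1, w.2.2.1, v.2.1;
    w.1.2.1, w.2.1, 0, w.2.2.2, v.2.2.1; w.1.2.2, w.2.2.1, w.2.2.2, 0, v.2.2.2;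
    v.1, v.2.1, v.2.2.1, v.2.2.2, 0]

theorem al_am (w : V6) (v : V4) : Al (am w v) :=
  ⟨by ext i j; fin_cases i <;> fin_cases j <;> rfl, fun i => by fin_cases i <;> rfl⟩

def qm (v : V4) : Mt :=
  !![1, 0, 0, 0, v.1; 0, 1, 0, 0, v.2.1; 0, 0, 1, 0, v.2.2.1; 0, 0, 0, 1, v.2.2.2; 0, 0, 0, 0, 1]

theorem det_qm : ∀ v, (qm v).det = 1 := by decide +kernel

def ql (v : V4) : L5 := ⟨qm v, det_qm v⟩

theorem r4_ql : ∀ v, R4 (ql v) := by decide +kernel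

theorem j6_am (w : V6) (v : V4) : j6 (am w v) = w := rfl

theorem c4_am (w : V6) (v : V4) : c4 (am w v) = v := rfl

theorem c4_ql (v : V4) : c4 (ql v).1 = v := rfl

theorem card_V : Nat.card (V6 × V4) = 2 ^ 10 := by
  rw [Nat.card_prod, Nat.card_eq_fintype_card, Nat.card_eq_fintype_card, ← Finset.card_univ,
    ← Finset.card_univ, n6, n4]
  norm_num

theorem tv_wm : ∀ i : Fin 5, i.val < 4 → (tv i 4).1 * wm i 4 * (tv i 4).1ᵀ = wm i 4 ∧
    c4 (wm i 4) = c4 (tv i 4).1 := by decide +kernel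

theorem w6_of {m : Mt} (hm : Al m) (e : c4 m = 0) : W6 m := by
  simp only [c4, Prod.mk_eq_zero] at e
  refine ⟨hm, fun i => ?_⟩
  have := hm.2 4
  fin_cases i <;> simp_all

theorem W6.c4 {m : Mt} (hm : W6 m) : c4 m = 0 := by simp [E10.c4, hm.2]

theorem c4_add (m m' : Mt) : c4 (m + m') = c4 m + c4 m' := rfl

theorem v4_add : ∀ v : V4, v + v = 0 := by decide +kernel

theorem r4_of {g : L5} (hg : Up g) (e : j6 g.1 = 0) : R4 g := by
  simp only [j6, Prod.mk_eq_zero] at e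
  exact hg.r4 e.1.1 e.1.2.1 e.1.2.2 e.2.1 e.2.2.1 e.2.2.2

theorem r4_ext {r r' : L5} (h : R4 r) (h' : R4 r') (e : c4 r.1 = c4 r'.1) : r = r' := by
  obtain ⟨a0, a1, a2, a3, a4, a5⟩ := h.ent
  obtain ⟨b0, b1, b2, b3, b4, b5⟩ := h'.ent
  simp only [c4, Prod.mk.injEq] at e
  refine h.up.ext h'.up fun i j hij => ?_
  fin_cases i <;> fin_cases j <;> simp_all

theorem al_ext {m m' : Mt} (h : Al m) (h' : Al m') (e : j6 m = j6 m') (e' : c4 m = c4 m') :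
    m = m' := by
  simp only [c4, j6, Prod.mk.injEq] at e e'
  refine h.ext h' fun i j hij => ?_
  fin_cases i <;> fin_cases j <;> simp_all

theorem r4_of_j6 {g g' : L5} (h : Up g) (h' : Up g') (e : j6 g.1 = j6 g'.1) : R4 (g⁻¹ * g') := by
  have k := h.inv.mul h'
  obtain ⟨c0, c1, c2, -, c3, c4, -, c5, -, -⟩ := h.mul_ent k
  rw [mul_inv_cancel_left] at c0 c1 c2 c3 c4 c5
  simp only [j6, Prod.mk.injEq] at e
  obtain ⟨⟨e0, e1, e2⟩, e3, e4, e5⟩ := e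
  have d5 : (g⁻¹ * g').1 2 3 = 0 := by linear_combination -c5 - e5
  have d3 : (g⁻¹ * g').1 1 2 = 0 := by linear_combination -c3 - e3
  rw [d5] at c2 c4
  rw [d3] at c1
  have d4 : (g⁻¹ * g').1 1 3 = 0 := by linear_combination -c4 - e4
  rw [d4] at c2
  exact k.r4 (by linear_combination -c0 - e0) (by linear_combination -c1 - e1)
    (by linear_combination -c2 - e2) d3 d4 d5

theorem r4_act {r : L5} (hr : R4 r) {m : Mt} (hm : Al m) :
    c4 (r.1 * m * r.1ᵀ) = c4 m ∧ j6 (r.1 * m * r.1ᵀ) = j6 m + wd (c4 r.1) (c4 m) := by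
  obtain ⟨a0, a1, a2, a3, a4, a5⟩ := hr.ent
  obtain ⟨b0, b1, b2, b3, b4, b5, b6, b7, b8, b9⟩ := hr.up.act_ent hm
  simp [c4, j6, wd, add_assoc, *]

theorem r4_mul {r r' : L5} (hr : R4 r) (hr' : R4 r') : c4 (r * r').1 = c4 r.1 + c4 r'.1 := by
  obtain ⟨a0, a1, a2, a3, a4, a5⟩ := hr.ent
  obtain ⟨-, -, -, b3, -, -, b6, -, b8, b9⟩ := hr.up.mul_ent hr'.up
  simp only [c4, b3, b6, b8, b9, a0, a1, a2, a3, a4, a5, zero_mul, add_zero, zero_add, Prod.mk_add_mk,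
    add_comm]

theorem fix_H {g : L5} (hg : Up g) {m : Mt} (hm : Al m) (e : g.1 * m * g.1ᵀ = m) :
    fH (j6 g.1) (c4 m) := by
  obtain ⟨-, b1, -, b3, -, -, b6, -⟩ := hg.act_ent hm
  rw [e] at b1 b3 b6
  simp only [fH, j6, c4]
  exact ⟨by linear_combination -b6, by linear_combination -b3, by linear_combination -b1⟩

theorem fix_Z {g : L5} (hg : Up g) {m : Mt} (hm : W6 m) (e : g.1 * m * g.1ᵀ = m) :
    fZ (j6 g.1) (j6 m) := by
  obtain ⟨-, -, -, -, b4, b5, -, b7, b8, b9⟩ := hg.act_ent hm.1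
  rw [e] at b4 b5 b7 b8 b9
  simp only [hm.2] at b4 b5 b7 b8 b9
  simp only [fZ, j6]
  exact ⟨by linear_combination -b4, by linear_combination -b5, by linear_combination -b7,
    by linear_combination -b8, by linear_combination -b9⟩

theorem comm_H {g r : L5} (hg : Up g) (hr : R4 r) (e : g * r = r * g) : fH (j6 g.1) (c4 r.1) := by
  obtain ⟨a0, a1, a2, a3, a4, a5⟩ := hr.ent
  obtain ⟨-, -, -, b3, -, -, b6, -, b8, -⟩ := hg.mul_ent hr.up
  obtain ⟨-, -, -, c3, -, -, c6, -, c8, -⟩ := hr.up.mul_ent hg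
  rw [e] at b3 b6 b8
  simp only [a0, a1, a2, a3, a4, a5] at c3 c6 c8
  simp only [fH, j6, c4]
  exact ⟨by linear_combination c3 - b3, by linear_combination c6 - b6,
    by linear_combination c8 - b8⟩

theorem iv_of {g : L5} (hg : Up g) (e : g * g = 1) : iv (j6 g.1) := by
  obtain ⟨-, b1, b2, -, -, b5, -⟩ := hg.mul_ent hg
  rw [e] at b1 b2 b5
  have z : ∀ i j : Fin 5, i ≠ j → (1 : L5).1 i j = 0 := fun i j k => one_apply_ne k
  rw [z _ _ (by decide)] at b1 b2 b5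
  simp only [iv, j6]
  exact ⟨by linear_combination -b1 - CA.z2 (g.1 0 2), by linear_combination -b5 - CA.z2 (g.1 1 3),
    by linear_combination -b2 - CA.z2 (g.1 0 3)⟩

end E10

open E10

variable {G : Type u} [Group G] [Finite G] {θ : Mt → G} {ψ : L5 →* G} {B : Subgroup G}

namespace Fr

variable (h : Fr θ ψ)
include h

theorem mem_Z6e {x : G} : x ∈ Z6 θ ↔ ∃ m, W6 m ∧ x = θ m := by
  constructor
  · intro hx
    refine (show Z6 θ ≤ CA.mkSub (fun x => ∃ m, W6 m ∧ x = θ m)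
      ⟨0, ⟨al_zero, fun _ => rfl⟩, h.zero.symm⟩ ?_ from (closure_le _).2 ?_) hx
    · rintro _ _ ⟨m, hm, rfl⟩ ⟨m', hm', rfl⟩
      exact ⟨_, hm.add hm', (h.add _ _).symm⟩
    · rintro _ ⟨i, j, hi, hj, rfl⟩
      exact ⟨_, w6_wm i j hi hj, rfl⟩
  · rintro ⟨m, hm, rfl⟩
    refine h.θ_mem_of hm.1 fun i j hij e => subset_closure ⟨i, j, ?_, ?_, rfl⟩
    · have : i.val < j.val := hij
      omega
    · by_contra e1
      exact e ((show j = 4 from Fin.ext (by omega)) ▸ hm.2 i)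

omit h in
theorem r4_suppe {r : L5} (hr : R4 r) {i j : Fin 5} (hij : i < j) (e : r.1 i j ≠ 0) :
    i.val < 4 ∧ j = 4 := by
  by_contra e1
  exact e ((hr i j e1).trans (one_apply_ne hij.ne))

theorem mem_A1 {x : G} : x ∈ A1 θ ψ ↔ ∃ m r, W6 m ∧ R4 r ∧ x = θ m * ψ r := by
  refine ⟨h.of_mem_A1, ?_⟩
  rintro ⟨m, r, hm, hr, rfl⟩
  refine mul_mem (mem_sup_left (h.mem_Z6e.2 ⟨m, hm, rfl⟩)) (ψ_mem_of hr.up fun i j hij e => ?_)
  obtain ⟨e1, rfl⟩ := r4_suppe hr hij e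
  exact mem_sup_right (subset_closure ⟨i, e1, rfl⟩)

theorem mem_O14e {x : G} : x ∈ O14 θ ψ ↔ ∃ m r, Al m ∧ R4 r ∧ x = θ m * ψ r := by
  constructor
  · intro hx
    refine (show O14 θ ψ ≤ h.SG Al R4 al_zero r4_one (fun _ => id) (fun _ _ => Al.add)
      (fun _ _ => R4.mul) (fun _ _ k _ => k.act _) from sup_le (fun a ha => ?_) fun a ha => ?_) hx
    · obtain ⟨m, hm, rfl⟩ := h.mem_AA.1 ha
      exact ⟨m, 1, hm, r4_one, by rw [map_one, mul_one]⟩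
    · obtain ⟨m, r, hm, hr, rfl⟩ := h.mem_A1.1 ha
      exact ⟨m, r, hm.1, hr, rfl⟩
  · rintro ⟨m, r, hm, hr, rfl⟩
    exact mul_mem (mem_sup_left (h.θ_mem hm)) (mem_sup_right
      (h.mem_A1.2 ⟨0, r, ⟨al_zero, fun _ => rfl⟩, hr, by rw [h.zero, one_mul]⟩))

theorem tw_eqe {i : Fin 5} (hi : i.val < 4) : tt ψ i 4 * ww θ i 4 = θ (wm i 4) * ψ (tv i 4) := by
  rw [tt, ww, h.act' _ (al_wm i 4), (tv_wm i hi).1]

theorem mem_A2e {x : G} :
    x ∈ A2 θ ψ ↔ ∃ m r, Al m ∧ R4 r ∧ c4 m = c4 r.1 ∧ x = θ m * ψ r := by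
  have k : ∀ {m m' : Mt} {r r' : L5}, Al m' → R4 r → R4 r' → c4 m = c4 r.1 → c4 m' = c4 r'.1 →
      c4 (m + r.1 * m' * r.1ᵀ) = c4 (r * r').1 := fun a1 a2 a3 a4 a5 => by
    rw [c4_add, (r4_act a2 a1).1, r4_mul a2 a3, a4, a5]
  constructor
  · intro hx
    refine (show A2 θ ψ ≤ CA.mkSub (fun x => ∃ m r, Al m ∧ R4 r ∧ c4 m = c4 r.1 ∧ x = θ m * ψ r)
      ⟨0, 1, al_zero, r4_one, rfl, by rw [h.zero, map_one, mul_one]⟩ ?_ from
        sup_le (fun a ha => ?_) ((closure_le _).2 ?_)) hx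
    · rintro _ _ ⟨m, r, a1, a2, a3, rfl⟩ ⟨m', r', b1, b2, b3, rfl⟩
      exact ⟨_, _, a1.add (b1.act _), a2.mul b2, k b1 a2 b2 a3 b3, h.el_mul _ _ b1 _⟩
    · obtain ⟨m, hm, rfl⟩ := h.mem_Z6e.1 ha
      exact ⟨m, 1, hm.1, r4_one, W6.c4 hm, by rw [map_one, mul_one]⟩
    · rintro _ ⟨i, hi, rfl⟩
      exact ⟨_, _, al_wm i 4, r4_tv i hi, (tv_wm i hi).2, h.tw_eqe hi⟩
  · rintro ⟨m, r, a1, a2, a3, rfl⟩
    obtain ⟨m', b1, -, b3, b4⟩ := a2.up.mem (H := CA.mkSub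
      (fun r => ∃ m, Al m ∧ R4 r ∧ c4 m = c4 r.1 ∧ θ m * ψ r ∈ A2 θ ψ)
      ⟨0, al_zero, r4_one, rfl, by rw [h.zero, map_one, mul_one]; exact one_mem _⟩
      (by
        rintro r r' ⟨m, a1, a2, a3, a4⟩ ⟨m', b1, b2, b3, b4⟩
        exact ⟨_, a1.add (b1.act _), a2.mul b2, k b1 a2 b2 a3 b3,
          h.el_mul _ _ b1 _ ▸ mul_mem a4 b4⟩)) fun i j hij e => by
      obtain ⟨e1, rfl⟩ := r4_suppe a2 hij e
      exact ⟨_, al_wm i 4, r4_tv i e1, (tv_wm i e1).2,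
        h.tw_eqe e1 ▸ mem_sup_right (subset_closure ⟨i, e1, rfl⟩)⟩
    have := mul_mem (mem_sup_left (h.mem_Z6e.2 ⟨m + m', w6_of (a1.add b1)
      (by rw [c4_add, a3, b3, v4_add]), rfl⟩)) b4
    rwa [h.add, mul_assoc, ← mul_assoc (θ m'), h.sq, one_mul] at this

theorem card_L1 (hB : B ≤ TT θ ψ) (P : Finset V6)
    (h1 : ∀ m g, Al m → Up g → θ m * ψ g ∈ B → j6 g.1 ∈ P) :
    Nat.card B ≤ Nat.card ↥(B ⊓ O14 θ ψ) * P.card := by
  refine card_le B _ (fun x => j6 (co θ ψ x).2.1) P (fun x hx => ?_) fun x hx y hy e => ?_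
  · obtain ⟨m, r, hm, hr, rfl⟩ := h.mem_TT.1 (hB hx)
    rw [h.co_el hm]
    exact h1 m r hm hr hx
  · obtain ⟨m, r, hm, hr, rfl⟩ := h.mem_TT.1 (hB hx)
    obtain ⟨m', r', hm', hr', rfl⟩ := h.mem_TT.1 (hB hy)
    rw [h.co_el hm, h.co_el hm'] at e
    refine h.mem_O14e.2 ⟨_, _, (hm.add hm').act (r⁻¹).1, r4_of_j6 hr hr' e, ?_⟩
    rw [map_mul, ← mul_assoc (θ _), ← h.act' _ (hm.add hm'), h.add, _root_.mul_inv_rev, h.inv,
      map_inv]
    simp only [mul_assoc]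

theorem card_L2 (hB : B ≤ O14 θ ψ) (P P' : Finset V4) (P'' : Finset V6)
    (h1 : ∀ m r, Al m → R4 r → θ m * ψ r ∈ B → c4 r.1 ∈ P)
    (h2 : ∀ m, Al m → θ m ∈ B → c4 m ∈ P') (h3 : ∀ m, W6 m → θ m ∈ B → j6 m ∈ P'') :
    Nat.card B ≤ P''.card * P'.card * P.card := by
  refine (card_le B (AA θ) (fun x => c4 (co θ ψ x).2.1) P (fun x hx => ?_)
    fun x hx y hy e => ?_).trans (Nat.mul_le_mul_right _ ?_)
  · obtain ⟨m, r, hm, hr, rfl⟩ := h.mem_O14e.1 (hB hx)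
    rw [h.co_el hm]
    exact h1 m r hm hr hx
  · obtain ⟨m, r, hm, hr, rfl⟩ := h.mem_O14e.1 (hB hx)
    obtain ⟨m', r', hm', hr', rfl⟩ := h.mem_O14e.1 (hB hy)
    rw [h.co_el hm, h.co_el hm'] at e
    obtain rfl := r4_ext hr hr' e
    have := mem_normalizer_conj' ((h.nrm (ψ r)).2 ⟨0, r, al_zero, by rw [h.zero, one_mul]⟩)
      (mul_mem (inv_mem (h.θ_mem hm)) (h.θ_mem hm'))
    simpa [mul_assoc] using this
  refine (card_le _ (Z6 θ) (fun x => c4 (co θ ψ x).1) P' (fun x hx => ?_)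
    fun x hx y hy e => ?_).trans (Nat.mul_le_mul_right _ ?_)
  · obtain ⟨m, hm, rfl⟩ := h.mem_AA.1 hx.2
    rw [h.co_θ hm]
    exact h2 m hm hx.1
  · obtain ⟨m, hm, rfl⟩ := h.mem_AA.1 hx.2
    obtain ⟨m', hm', rfl⟩ := h.mem_AA.1 hy.2
    rw [h.co_θ hm, h.co_θ hm'] at e
    rw [h.inv, ← h.add]
    exact h.mem_Z6e.2 ⟨_, w6_of (hm.add hm') (by rw [c4_add, e, v4_add]), rfl⟩
  refine (card_le _ ⊥ (fun x => j6 (co θ ψ x).1) P'' (fun x hx => ?_)
    fun x hx y hy e => ?_).trans (by simp)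
  · obtain ⟨m, hm, rfl⟩ := h.mem_Z6e.1 hx.2
    rw [h.co_θ hm.1]
    exact h3 m hm hx.1.1
  · obtain ⟨m, hm, rfl⟩ := h.mem_Z6e.1 hx.2
    obtain ⟨m', hm', rfl⟩ := h.mem_Z6e.1 hy.2
    rw [h.co_θ hm.1, h.co_θ hm'.1] at e
    rw [al_ext hm.1 hm'.1 e (by rw [W6.c4 hm, W6.c4 hm']), inv_mul_cancel]
    exact one_mem _

theorem θ_ele {m m' : Mt} (hm : Al m) (hm' : Al m') {g : L5} (e : θ m = θ m' * ψ g) :
    m = m' ∧ 1 = g := h.el_inj hm hm' (by rw [map_one, mul_one, e])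

theorem A2_le_O14e : A2 θ ψ ≤ O14 θ ψ := fun x hx => by
  obtain ⟨m, r, a1, a2, -, rfl⟩ := h.mem_A2e.1 hx
  exact h.mem_O14e.2 ⟨m, r, a1, a2, rfl⟩

theorem card_AA : Nat.card (AA θ) = 2 ^ 10 := by
  refine le_antisymm ?_ ?_
  · have := h.card_L2 (B := AA θ) le_sup_left {0} Finset.univ Finset.univ (fun m r a1 a2 a3 => by
      rw [h.ψ_mem ((mul_mem_cancel_left (h.θ_mem a1)).1 a3)]; exact Finset.mem_singleton.2 rfl)
      (fun _ _ _ => Finset.mem_univ _) fun _ _ _ => Finset.mem_univ _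
    rw [n6, n4, Finset.card_singleton] at this
    omega
  · have := Nat.card_le_card_of_injective
      (fun p : V6 × V4 => (⟨θ (am p.1 p.2), h.θ_mem (al_am _ _)⟩ : AA θ)) fun p p' e => by
        have e1 := h.inj' (al_am _ _) (al_am _ _) (congrArg Subtype.val e)
        exact Prod.ext (by simpa only [j6_am] using congrArg j6 e1)
          (by simpa only [c4_am] using congrArg c4 e1)
    rwa [card_V] at this

theorem card_A1 : Nat.card (A1 θ ψ) = 2 ^ 10 := by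
  refine le_antisymm ?_ ?_
  · have := h.card_L2 (B := A1 θ ψ) le_sup_right Finset.univ {0} Finset.univ
      (fun _ _ _ _ _ => Finset.mem_univ _) (fun m a1 a2 => by
        obtain ⟨m', r, b1, b2, b3⟩ := h.mem_A1.1 a2
        rw [(h.θ_ele a1 b1.1 b3).1, W6.c4 b1]; exact Finset.mem_singleton.2 rfl)
      fun _ _ _ => Finset.mem_univ _
    rw [n6, n4, Finset.card_singleton] at this
    omega
  · have := Nat.card_le_card_of_injective
      (fun p : V6 × V4 => (⟨θ (am p.1 0) * ψ (ql p.2),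
        h.mem_A1.2 ⟨_, _, w6_of (al_am _ _) (c4_am _ _), r4_ql _, rfl⟩⟩ : A1 θ ψ)) fun p p' e => by
        obtain ⟨e1, e2⟩ := h.el_inj (al_am _ _) (al_am _ _) (congrArg Subtype.val e)
        exact Prod.ext (by simpa only [j6_am] using congrArg j6 e1)
          (by simpa only [c4_ql] using congrArg (fun g : L5 => c4 g.1) e2)
    rwa [card_V] at this

theorem card_A2 : Nat.card (A2 θ ψ) = 2 ^ 10 := by
  refine le_antisymm ?_ ?_
  · have := h.card_L2 h.A2_le_O14e Finset.univ {0} Finset.univ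
      (fun _ _ _ _ _ => Finset.mem_univ _) (fun m a1 a2 => by
        obtain ⟨m', r, b1, b2, b3, b4⟩ := h.mem_A2e.1 a2
        obtain ⟨rfl, rfl⟩ := h.θ_ele a1 b1 b4
        rw [b3]; exact Finset.mem_singleton.2 rfl)
      fun _ _ _ => Finset.mem_univ _
    rw [n6, n4, Finset.card_singleton] at this
    omega
  · have := Nat.card_le_card_of_injective
      (fun p : V6 × V4 => (⟨θ (am p.1 p.2) * ψ (ql p.2),
        h.mem_A2e.2 ⟨_, _, al_am _ _, r4_ql _, (c4_am _ _).trans (c4_ql _).symm, rfl⟩⟩ : A2 θ ψ)) fun p p' e => by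
        obtain ⟨e1, e2⟩ := h.el_inj (al_am _ _) (al_am _ _) (congrArg Subtype.val e)
        exact Prod.ext (by simpa only [j6_am] using congrArg j6 e1)
          (by simpa only [c4_am] using congrArg c4 e1)
    rwa [card_V] at this

theorem CA : Cs (AA θ) = AA θ := by
  refine le_antisymm (fun x hx => ?_) fun x hx => mem_centralizer_iff.2 fun y hy => ?_
  · obtain ⟨m, g, hm, rfl⟩ := (h.nrm x).1 (centralizer_le_normalizer _ hx)
    have : g = 1 := faithful fun i j => by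
      have e := mem_centralizer_iff.1 hx _ (h.θ_mem (al_wm i j))
      rw [← mul_assoc, h.comm, mul_assoc, mul_assoc, mul_right_inj, h.act' g (al_wm i j),
        mul_left_inj] at e
      exact h.inj' ((al_wm i j).act _) (al_wm i j) e.symm
    rw [this, map_one, mul_one]
    exact h.θ_mem hm
  · obtain ⟨m, -, rfl⟩ := h.mem_AA.1 hx
    obtain ⟨m', -, rfl⟩ := h.mem_AA.1 hy
    exact h.comm _ _

theorem mem_A2 {x : G} : x ∈ A2 θ ψ ↔
    ∃ m r, Al m ∧ R4 r ∧ (∀ i : Fin 5, i.val < 4 → m i 4 = r.1 i 4) ∧ x = θ m * ψ r := by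
  rw [h.mem_A2e]
  refine exists₂_congr fun m r => and_congr_right fun _ => and_congr_right fun _ =>
    and_congr_left fun _ => ⟨fun e i hi => ?_, fun e => ?_⟩
  · simp only [c4, Prod.mk.injEq] at e
    fin_cases i <;> simp_all
  · simp only [c4, e 0 (by decide), e 1 (by decide), e 2 (by decide), e 3 (by decide)]

theorem e10_comm (sq : ∀ b ∈ B, b * b = 1) {m m' : Mt} {g g' : L5} (hm : Al m) (hm' : Al m')
    (k : θ m * ψ g ∈ B) (k' : θ m' * ψ g' ∈ B) :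
    m + g.1 * m' * g.1ᵀ = m' + g'.1 * m * g'.1ᵀ ∧ g * g' = g' * g := by
  have e := sq _ (mul_mem k k')
  have e1 : θ m * ψ g * (θ m' * ψ g') = θ m' * ψ g' * (θ m * ψ g) := by
    rw [← inv_eq_of_mul_eq_one_right e, _root_.mul_inv_rev, inv_eq_of_mul_eq_one_right (sq _ k),
      inv_eq_of_mul_eq_one_right (sq _ k')]
  rw [h.el_mul _ _ hm', h.el_mul _ _ hm] at e1
  exact h.el_inj (hm.add (hm'.act _)) (hm'.add (hm.act _)) e1

theorem e10_fix (sq : ∀ b ∈ B, b * b = 1) {m m' : Mt} {g : L5} (hm : Al m) (hm' : Al m')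
    (k : θ m * ψ g ∈ B) (k' : θ m' ∈ B) : g.1 * m' * g.1ᵀ = m' := by
  have e := (h.e10_comm sq hm hm' k (g' := 1) (by rwa [map_one, mul_one])).1
  have e2 : (1 : L5).1 * m * (1 : L5).1ᵀ = m := by
    change (1 : Mt) * m * (1 : Mt)ᵀ = m
    simp
  rwa [e2, add_comm m', add_right_inj] at e

theorem e10_wd (sq : ∀ b ∈ B, b * b = 1) {m m' : Mt} {r r' : L5} (hm : Al m) (hm' : Al m')
    (hr : R4 r) (hr' : R4 r') (k : θ m * ψ r ∈ B) (k' : θ m' * ψ r' ∈ B) :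
    wd (c4 r.1) (c4 m') = wd (c4 r'.1) (c4 m) := by
  have e := congrArg j6 (h.e10_comm sq hm hm' k k').1
  have a : ∀ a b : Mt, j6 (a + b) = j6 a + j6 b := fun _ _ => rfl
  rw [a, a, (r4_act hr hm').2, (r4_act hr' hm).2, ← add_assoc, ← add_assoc, add_comm (j6 m')] at e
  exact add_left_cancel e

theorem e10_sq (sq : ∀ b ∈ B, b * b = 1) {m : Mt} {g : L5} (hm : Al m) (k : θ m * ψ g ∈ B) :
    m + g.1 * m * g.1ᵀ = 0 ∧ g * g = 1 := by
  have e := sq _ k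
  rw [h.el_mul _ _ hm] at e
  exact h.el_inj (hm.add (hm.act _)) al_zero (e.trans (by rw [h.zero, map_one, mul_one]))

/-- The part inside `O`: three cases according to the rank of the image. -/
theorem e10_O (sq : ∀ b ∈ B, b * b = 1) (F : Finset V4) (P : Finset V6)
    (h1 : ∀ m r, Al m → R4 r → θ m * ψ r ∈ B → c4 r.1 ∈ F) (h2 : ∀ m, Al m → θ m ∈ B → c4 m ∈ F)
    (h3 : ∀ m, W6 m → θ m ∈ B → j6 m ∈ P) :
    Nat.card ↥(B ⊓ O14 θ ψ) ≤ P.card * max F.card 4 := by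
  have w : ∀ m r, Al m → R4 r → θ m * ψ r ∈ B → ∀ m', Al m' → θ m' ∈ B →
      wd (c4 r.1) (c4 m') = 0 := fun m r a1 a2 a3 m' a4 a5 => by
    have := congrArg j6 (h.e10_fix sq a1 a4 a3 a5)
    rwa [(r4_act a2 a4).2, add_eq_left] at this
  by_cases e : ∃ m r, Al m ∧ R4 r ∧ θ m * ψ r ∈ B ∧ c4 r.1 ≠ 0
  · obtain ⟨m₀, r₀, a1, a2, a3, a4⟩ := e
    by_cases e' : ∀ m r, Al m → R4 r → θ m * ψ r ∈ B → c4 r.1 = 0 ∨ c4 r.1 = c4 r₀.1
    · refine (h.card_L2 inf_le_right {0, c4 r₀.1} (Finset.univ.filter fun v => wd (c4 r₀.1) v = 0)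
        P (fun m r b1 b2 b3 => by simpa using e' m r b1 b2 b3.1)
        (fun m b1 b2 => by simpa using w _ _ a1 a2 a3 m b1 b2.1)
        fun m b1 b2 => h3 m b1 b2.1).trans ?_
      rw [mul_assoc]
      exact Nat.mul_le_mul_left _ ((Nat.mul_le_mul (nW _ a4) Finset.card_le_two).trans
        (le_max_right _ _))
    · push Not at e'
      obtain ⟨m₁, r₁, b1, b2, b3, b4, b5⟩ := e'
      refine (h.card_L2 inf_le_right F {0} P (fun m r c1 c2 c3 => h1 m r c1 c2 c3.1)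
        (fun m c1 c2 => ?_) fun m c1 c2 => h3 m c1 c2.1).trans ?_
      · rcases wd0 (c4 r₀.1) (c4 m) with d | d | d | d
        · exact absurd (w _ _ a1 a2 a3 m c1 c2.1) d
        · exact absurd d a4
        · exact Finset.mem_singleton.2 d
        · rcases wd0 (c4 r₁.1) (c4 m) with d' | d' | d' | d'
          · exact absurd (w _ _ b1 b2 b3 m c1 c2.1) d'
          · exact absurd d' b4
          · exact Finset.mem_singleton.2 d'
          · exact absurd (d'.symm.trans d) b5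
      · rw [Finset.card_singleton, mul_one]
        exact Nat.mul_le_mul_left _ (le_max_left _ _)
  · push Not at e
    refine (h.card_L2 inf_le_right {0} F P
      (fun m r c1 c2 c3 => Finset.mem_singleton.2 (e m r c1 c2 c3.1)) (fun m c1 c2 => h2 m c1 c2.1)
      fun m c1 c2 => h3 m c1 c2.1).trans ?_
    rw [Finset.card_singleton, mul_one]
    exact Nat.mul_le_mul_left _ (le_max_left _ _)

theorem e10_le (hB : B ≤ TT θ ψ) (sq : ∀ b ∈ B, b * b = 1) (hc : 2 ^ 10 ≤ Nat.card B) :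
    B ≤ O14 θ ψ := by
  by_contra e
  obtain ⟨x, hx, e⟩ := SetLike.not_le_iff_exists.1 e
  obtain ⟨m₀, g₀, a1, a2, rfl⟩ := h.mem_TT.1 (hB hx)
  have a4 : j6 g₀.1 ≠ 0 := fun k => e (h.mem_O14e.2 ⟨m₀, g₀, a1, r4_of a2 k, rfl⟩)
  have fr : ∀ m g, Al m → Up g → θ m * ψ g ∈ B → ∀ m' r, Al m' → R4 r → θ m' * ψ r ∈ B →
      fH (j6 g.1) (c4 r.1) := fun m g b1 b2 b3 m' r b4 b5 b6 =>
    comm_H b2 b5 (h.e10_comm sq b1 b4 b3 b6).2
  have fa : ∀ m g, Al m → Up g → θ m * ψ g ∈ B → ∀ m', Al m' → θ m' ∈ B →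
      fH (j6 g.1) (c4 m') := fun m g b1 b2 b3 m' b4 b5 => fix_H b2 b4 (h.e10_fix sq b1 b4 b3 b5)
  have fz : ∀ m g, Al m → Up g → θ m * ψ g ∈ B → ∀ m', W6 m' → θ m' ∈ B →
      fZ (j6 g.1) (j6 m') := fun m g b1 b2 b3 m' b4 b5 => fix_Z b2 b4 (h.e10_fix sq b1 b4.1 b3 b5)
  have fi : ∀ m g, Al m → Up g → θ m * ψ g ∈ B → iv (j6 g.1) := fun m g b1 b2 b3 =>
    iv_of b2 (h.e10_sq sq b1 b3).2
  have o1 := fun P => h.e10_O sq (Finset.univ.filter (fH (j6 g₀.1))) P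
    (fun m r b1 b2 b3 => by simpa using fr _ _ a1 a2 hx m r b1 b2 b3)
    (fun m b1 b2 => by simpa using fa _ _ a1 a2 hx m b1 b2)
  have n1 := nH _ a4
  by_cases e1 : ∀ m g, Al m → Up g → θ m * ψ g ∈ B → j6 g.1 = 0 ∨ j6 g.1 = j6 g₀.1
  · have c1 := h.card_L1 hB {0, j6 g₀.1} fun m g b1 b2 b3 => by simpa using e1 m g b1 b2 b3
    have c2 := o1 (Finset.univ.filter (fZ (j6 g₀.1)))
      fun m b1 b2 => by simpa using fz _ _ a1 a2 hx m b1 b2
    have c3 := Nat.mul_le_mul (c2.trans (Nat.mul_le_mul (nZ _ a4)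
      (max_le n1 (by norm_num : 4 ≤ 8)))) (Finset.card_le_two (a := 0) (b := j6 g₀.1))
    omega
  push Not at e1
  obtain ⟨m₁, g₁, b1, b2, b3, b4, b5⟩ := e1
  have n2 : (Finset.univ.filter fun w => fZ (j6 g₀.1) w ∧ fZ (j6 g₁.1) w).card ≤ 8 := by
    rcases nZ2 (j6 g₀.1) with d | d | d
    · exact absurd d a4
    · exact absurd (fi _ _ a1 a2 hx) d
    · rcases d (j6 g₁.1) with d | d | d | d
      exacts [absurd d b4, absurd (fi _ _ b1 b2 b3) d, absurd d b5, d]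
  have hz : ∀ m, W6 m → θ m ∈ B →
      j6 m ∈ Finset.univ.filter fun w => fZ (j6 g₀.1) w ∧ fZ (j6 g₁.1) w := fun m c1 c2 => by
    simpa using ⟨fz _ _ a1 a2 hx m c1 c2, fz _ _ b1 b2 b3 m c1 c2⟩
  have c1 := h.card_L1 hB (Finset.univ.filter iv) fun m g b1 b2 b3 => by
    simpa using fi m g b1 b2 b3
  have c2 := o1 _ hz
  by_cases n3 : (Finset.univ.filter (fH (j6 g₀.1))).card ≤ 4
  · have c3 := Nat.mul_le_mul (c2.trans (Nat.mul_le_mul n2 (max_le n3 le_rfl))) nI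
    omega
  by_cases e2 : ∀ m g, Al m → Up g → θ m * ψ g ∈ B → ∀ v, fH (j6 g₀.1) v → fH (j6 g.1) v
  · have c3 := h.card_L1 hB (Finset.univ.filter fun y => ∀ v, fH (j6 g₀.1) v → fH y v)
      fun m g d1 d2 d3 => Finset.mem_filter.2 ⟨Finset.mem_univ _, e2 m g d1 d2 d3⟩
    have c4 := Nat.mul_le_mul (c2.trans (Nat.mul_le_mul n2 (max_le n1 (by norm_num : 4 ≤ 8))))
      ((nH1 _ a4).resolve_left n3)
    omega
  · push Not at e2
    obtain ⟨m₂, g₂, d1, d2, d3, v, d4, d5⟩ := e2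
    have n4 := (((nH2 _).resolve_left a4).resolve_left n3 (j6 g₂.1)).resolve_left
      fun k => d5 (k v d4)
    have c3 := h.e10_O sq (Finset.univ.filter fun v => fH (j6 g₀.1) v ∧ fH (j6 g₂.1) v) _
      (fun m r f1 f2 f3 => by
        simpa using ⟨fr _ _ a1 a2 hx m r f1 f2 f3, fr _ _ d1 d2 d3 m r f1 f2 f3⟩)
      (fun m f1 f2 => by simpa using ⟨fa _ _ a1 a2 hx m f1 f2, fa _ _ d1 d2 d3 m f1 f2⟩) hz
    have c4 := Nat.mul_le_mul (c3.trans (Nat.mul_le_mul n2 (max_le n4 le_rfl))) nI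
    omega

theorem e10 (hB : B ≤ TT θ ψ) (sq : ∀ b ∈ B, b * b = 1) (hc : 2 ^ 10 ≤ Nat.card B) :
    B = AA θ ∨ B = A1 θ ψ ∨ B = A2 θ ψ := by
  have hO := h.e10_le hB sq hc
  have r0 : ∀ r, R4 r → c4 r.1 = 0 → r = 1 := fun r k e => r4_ext k r4_one e
  by_cases e : ∀ m r, Al m → R4 r → θ m * ψ r ∈ B → c4 r.1 = 0
  · refine Or.inl (Subgroup.eq_of_le_of_card_ge (fun x hx => ?_) (by rw [h.card_AA]; exact hc))
    obtain ⟨m, r, a1, a2, rfl⟩ := h.mem_O14e.1 (hO hx)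
    rw [r0 r a2 (e m r a1 a2 hx), map_one, mul_one]
    exact h.θ_mem a1
  push Not at e
  obtain ⟨m₀, r₀, a1, a2, a3, a4⟩ := e
  have w : ∀ m r, Al m → R4 r → θ m * ψ r ∈ B → ∀ m', Al m' → θ m' ∈ B →
      wd (c4 r.1) (c4 m') = 0 := fun m r a1 a2 a3 m' a4 a5 => by
    have := congrArg j6 (h.e10_fix sq a1 a4 a3 a5)
    rwa [(r4_act a2 a4).2, add_eq_left] at this
  have v0 : ∀ m, Al m → θ m ∈ B → c4 m = 0 := by
    by_cases e' : ∀ m r, Al m → R4 r → θ m * ψ r ∈ B → c4 r.1 = 0 ∨ c4 r.1 = c4 r₀.1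
    · have c1 := h.card_L2 hO {0, c4 r₀.1} (Finset.univ.filter fun v => wd (c4 r₀.1) v = 0)
        Finset.univ (fun m r b1 b2 b3 => by simpa using e' m r b1 b2 b3)
        (fun m b1 b2 => by simpa using w _ _ a1 a2 a3 m b1 b2) fun _ _ _ => Finset.mem_univ _
      rw [n6, mul_assoc] at c1
      have c2 := Nat.mul_le_mul (nW _ a4) (Finset.card_le_two (a := 0) (b := c4 r₀.1))
      omega
    · push Not at e'
      obtain ⟨m₁, r₁, b1, b2, b3, b4, b5⟩ := e'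
      intro m c1 c2
      rcases wd0 (c4 r₀.1) (c4 m) with d | d | d | d
      · exact absurd (w _ _ a1 a2 a3 m c1 c2) d
      · exact absurd d a4
      · exact d
      · rcases wd0 (c4 r₁.1) (c4 m) with d' | d' | d' | d'
        · exact absurd (w _ _ b1 b2 b3 m c1 c2) d'
        · exact absurd d' b4
        · exact d'
        · exact absurd (d'.symm.trans d) b5
  have ty : ∀ m r, Al m → R4 r → θ m * ψ r ∈ B → c4 m = 0 ∨ c4 m = c4 r.1 :=
    fun m r b1 b2 b3 => by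
      have k := congrArg j6 (h.e10_sq sq b1 b3).1
      have a : ∀ a b : Mt, j6 (a + b) = j6 a + j6 b := fun _ _ => rfl
      have z : ∀ w : V6, w + w = 0 := by decide +kernel
      rw [a, (r4_act b2 b1).2, ← add_assoc, z, zero_add] at k
      rcases wd0 (c4 r.1) (c4 m) with d | d | d | d
      · exact absurd k d
      · refine Or.inl (v0 m b1 ?_)
        rwa [r0 r b2 d, map_one, mul_one] at b3
      · exact Or.inl d
      · exact Or.inr d
  by_cases e1 : ∀ m r, Al m → R4 r → θ m * ψ r ∈ B → c4 m = 0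
  · refine Or.inr (Or.inl (Subgroup.eq_of_le_of_card_ge (fun x hx => ?_)
      (by rw [h.card_A1]; exact hc)))
    obtain ⟨m, r, b1, b2, rfl⟩ := h.mem_O14e.1 (hO hx)
    exact h.mem_A1.2 ⟨m, r, w6_of b1 (e1 m r b1 b2 hx), b2, rfl⟩
  push Not at e1
  obtain ⟨m₁, r₁, b1, b2, b3, b4⟩ := e1
  have b5 := (ty _ _ b1 b2 b3).resolve_left b4
  refine Or.inr (Or.inr (Subgroup.eq_of_le_of_card_ge (fun x hx => ?_)
    (by rw [h.card_A2]; exact hc)))
  obtain ⟨m, r, c1, c2, rfl⟩ := h.mem_O14e.1 (hO hx)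
  refine h.mem_A2e.2 ⟨m, r, c1, c2, ?_, rfl⟩
  rcases ty _ _ c1 c2 hx with d | d
  · have k := h.e10_wd sq b1 c1 b2 c2 b3 hx
    have z : ∀ a : V4, wd a 0 = 0 := by decide +kernel
    rw [d, z] at k
    rcases wd0 (c4 r.1) (c4 m₁) with d' | d' | d' | d'
    · exact absurd k.symm d'
    · rw [d, d']
    · exact absurd d' b4
    · obtain rfl : r₁ = r := r4_ext b2 c2 (b5.symm.trans d')
      have k1 := mul_mem b3 hx
      rw [h.el_mul _ _ c1, (h.e10_sq sq b1 b3).2, map_one, mul_one] at k1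
      have k2 := v0 _ (b1.add (c1.act _)) k1
      rw [c4_add, (r4_act b2 c1).1, d, add_zero] at k2
      exact absurd k2 b4
  · exact d

end Fr

end Cfsg.Lib.R10
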