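import Cfsg.Agent.R10.GD

/-! Coordinates on `Q / ⟨z⟩` and the action of `C(z)`. -/

set_option autoImplicit false
set_option linter.unusedSectionVars false
set_option linter.unusedVariables false

namespace Cfsg.Lib.R10.GN

open Subgroup Cfsg.Lib.Trans Cfsg.Lib.Gold Matrix

universe u

variable {G : Type u} [Group G] [Finite G] {θ : Mt → G} {ψ : L5 →* G} {S : Subgroup G}
  {α : C1 (zz θ) →* Equiv.Perm V12}

namespace GA

/-- The cocycle of the extraspecial group. -/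
def cc (u v : V12) : K2 :=
  u.1.2.2 * v.2.1 + u.1.2.1.2.2.1 * v.2.2.1.1 + u.1.2.1.2.2.2 * v.2.2.1.2.1 +
    (v.1.1 * u.2.2.2 + v.1.2.1.1 * u.2.2.1.2.2.1 + v.1.2.1.2.1 * u.2.2.1.2.2.2)

/-- The part in `A` of the element of `Q` with coordinates `c`, `v`. -/
def mC (c : K2) (v : V12) : Mt :=
  !![0, c, v.1.1, v.1.2.1.1, v.1.2.1.2.1;
     c, 0, v.2.1, v.2.2.1.1, v.2.2.1.2.1;
     v.1.1, v.2.1, 0, 0, 0;
     v.1.2.1.1, v.2.2.1.1, 0, 0, 0;
     v.1.2.1.2.1, v.2.2.1.2.1, 0, 0, 0]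

/-- The element of `Q` with coordinates `c`, `v`. -/
def el (θ : Mt → G) (ψ : L5 →* G) (c : K2) (v : V12) : G := θ (mC c v) * ψ (gR v)

theorem cc_eq_1 : type_of% @cc.eq_1 := @cc.eq_1
theorem mC_eq_1 : type_of% @mC.eq_1 := @mC.eq_1
theorem el_eq_1 : type_of% @el.eq_1 := @el.eq_1

theorem cc_bf (u v : V12) : cc u v + cc v u = bf u v := by
  simp only [cc, bf, b6, bw]; ring

theorem cc_zero (u : V12) : cc u 0 = 0 := by simp [cc]

theorem u7 (c : K2) (v : V12) : U7 (mC c v) := by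
  refine Al.u7 ⟨?_, fun i => ?_⟩ rfl rfl rfl
  · ext i j
    fin_cases i <;> fin_cases j <;> rfl
  · fin_cases i <;> rfl

theorem rr (v : V12) : RR (gR v) := fun i j e => by
  fin_cases i <;> fin_cases j <;> first | rfl | exact (e (by decide)).elim

theorem mC1 (v : V12) : mU v + wm 0 1 = mC 1 v := by
  ext i j
  fin_cases i <;> fin_cases j <;> first | exact add_zero _ | exact zero_add _

theorem gR_mul (u v : V12) : gR u * gR v = gR (u + v) := by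
  apply Subtype.ext
  change mR u * mR v = mR (u + v)
  ext i j
  rw [mul_apply, Fin.sum_univ_five]
  fin_cases i <;> fin_cases j <;> simp [mR, add_comm]

theorem mmul (c d : K2) (u v : V12) :
    mC c u + (gR u).1 * mC d v * (gR u).1ᵀ = mC (c + d + cc u v) (u + v) := by
  obtain ⟨a1, a2, a3, a4, a5, a6, a7, a8, a9, a10⟩ := (rr u).up.act_ent (u7 d v).1
  refine Al.ext ((u7 c u).1.add ((u7 d v).1.act _)) (u7 _ _).1 fun i j hij => ?_
  rw [Matrix.add_apply]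
  fin_cases i <;> fin_cases j <;> simp only [Fin.reduceFinMk, Fin.reduceLT] at hij ⊢ <;>
    simp only [*] <;> simp [gR, mC, mR, cc]
  ring

theorem mul (h : Fr θ ψ) (c d : K2) (u v : V12) :
    el θ ψ c u * el θ ψ d v = el θ ψ (c + d + cc u v) (u + v) := by
  rw [el, el, h.el_mul _ _ (u7 d v).1, mmul, gR_mul, el]

theorem inj (h : Fr θ ψ) {c d : K2} {u v : V12} (e : el θ ψ c u = el θ ψ d v) : c = d ∧ u = v := by
  obtain ⟨h1, h2⟩ := h.el_inj (u7 c u).1 (u7 d v).1 e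
  have a := fun i j => congrFun (congrFun h1 i) j
  have b := fun i j => congrFun (congrFun (congrArg Subtype.val h2) i) j
  refine ⟨a 0 1, ?_⟩
  ext
  exacts [a 0 2, a 0 3, a 0 4, b 0 3, b 0 4, b 0 2, a 1 2, a 1 3, a 1 4, b 1 3, b 1 4, b 1 2]

theorem qe_el (v : V12) : qe θ ψ v = el θ ψ 0 v := rfl

theorem gR0 : gR 0 = 1 := by decide +kernel

theorem z_el : zz θ = el θ ψ 1 0 := by
  rw [el, gR0, show mC 1 0 = wm 0 1 by decide +kernel, map_one, mul_one, zz, ww]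

theorem one_el (h : Fr θ ψ) : el θ ψ 0 0 = 1 := by
  rw [el, gR0, show mC 0 0 = 0 by decide +kernel, map_one, mul_one, h.zero]

theorem mul0 (h : Fr θ ψ) (c d : K2) (v : V12) : el θ ψ c v * el θ ψ d 0 = el θ ψ (c + d) v := by
  rw [mul h, cc_zero, add_zero, add_zero]

theorem rel (h : Fr θ ψ) {x : G} {v : V12} :
    (x = qe θ ψ v ∨ x = qe θ ψ v * zz θ) ↔ ∃ c, x = el θ ψ c v := by
  rw [z_el (ψ := ψ), qe_el, mul0 h, zero_add]
  refine ⟨fun e => e.elim (fun e => ⟨_, e⟩) fun e => ⟨_, e⟩, ?_⟩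
  rintro ⟨c, rfl⟩
  by_cases e : c = 0
  · exact .inl (by rw [e])
  · exact .inr (by rw [CA.z2' c e])

theorem mem (h : Fr θ ψ) (c : K2) (v : V12) : el θ ψ c v ∈ QQ θ ψ :=
  h.mem_QQ.2 ⟨_, _, u7 c v, rr v, rfl⟩

theorem of_mem (h : Fr θ ψ) {q : G} (hq : q ∈ QQ θ ψ) : ∃ c v, q = el θ ψ c v := by
  obtain ⟨m, g, hm, hg, rfl⟩ := h.mem_QQ.1 hq
  obtain ⟨a1, a2, a3⟩ := hm.ent
  obtain ⟨b1, b2, b3, b4⟩ := hg.ent
  refine ⟨m 0 1, ((m 0 2, (m 0 3, m 0 4, g.1 0 3, g.1 0 4), g.1 0 2),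
    (m 1 2, (m 1 3, m 1 4, g.1 1 3, g.1 1 4), g.1 1 2)), ?_⟩
  rw [el]
  congr 2
  · refine hm.1.ext (u7 _ _).1 fun i j hij => ?_
    fin_cases i <;> fin_cases j <;> first | rfl | assumption | exact (not_lt.2 (by decide) hij).elim
  · refine hg.up.ext (rr _).up fun i j hij => ?_
    fin_cases i <;> fin_cases j <;> first | rfl | assumption | exact (not_lt.2 (by decide) hij).elim

theorem comm (h : Fr θ ψ) (c d : K2) (u v : V12) :
    el θ ψ c u * el θ ψ d v = el θ ψ d v * el θ ψ c u ↔ bf u v = 0 := by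
  rw [mul h, mul h, add_comm v u, add_comm d c, ← cc_bf]
  refine ⟨fun e => by rw [add_left_cancel (inj h e).1, CA.z2], fun e => ?_⟩
  rw [show cc u v = cc v u by rw [← add_zero (cc u v), ← CA.z2 (cc v u), ← add_assoc, e, zero_add]]

theorem conj (h : Fr θ ψ) {g : G} (hg : g ∈ C1 (zz θ)) {a : K2} {v v' : V12}
    (e : g * qe θ ψ v * g⁻¹ = el θ ψ a v') (c : K2) :
    g * el θ ψ c v * g⁻¹ = el θ ψ (a + c) v' := by
  have k : g * el θ ψ c 0 * g⁻¹ = el θ ψ c 0 := by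
    by_cases e : c = 0
    · rw [e, one_el h, mul_one, mul_inv_cancel]
    · rw [CA.z2' c e, ← z_el, mem_centralizer_iff.1 hg _ rfl |>.symm, mul_inv_cancel_right]
  rw [← mul0 h, ← e, ← k, ← zero_add c, ← mul0 h 0 c v, zero_add, qe_el]; group

theorem conjQ (h : Fr θ ψ) (c : K2) (w v : V12) :
    el θ ψ c w * qe θ ψ v * (el θ ψ c w)⁻¹ = el θ ψ (bf w v) v := by
  rw [mul_inv_eq_iff_eq_mul, qe_el, mul h, mul h, add_comm v w, ← cc_bf]
  congr 1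
  linear_combination (-1 : K2) * CA.z2 (cc v w)

end GA

open GA

theorem qe_mem (h : Fr θ ψ) (v : V12) : qe θ ψ v ∈ QQ θ ψ := qe_el (θ := θ) (ψ := ψ) v ▸ mem h 0 v

theorem mem_qe (h : Fr θ ψ) {q : G} (hq : q ∈ QQ θ ψ) :
    ∃ v, q = qe θ ψ v ∨ q = qe θ ψ v * zz θ := by
  obtain ⟨c, v, e⟩ := of_mem h hq
  exact ⟨v, (rel h).2 ⟨c, e⟩⟩

theorem qe_inj (h : Fr θ ψ) {u v : V12} (e : qe θ ψ u = qe θ ψ v ∨ qe θ ψ u = qe θ ψ v * zz θ) :
    u = v := by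
  obtain ⟨c, e⟩ := (rel h).1 e
  exact (inj h ((qe_el u).symm.trans e)).2

theorem qe_add (h : Fr θ ψ) (u v : V12) :
    qe θ ψ u * qe θ ψ v = qe θ ψ (u + v) ∨ qe θ ψ u * qe θ ψ v = qe θ ψ (u + v) * zz θ :=
  (rel h).2 ⟨_, by rw [qe_el, qe_el, mul h]⟩

theorem qe_comm (h : Fr θ ψ) (u v : V12) :
    qe θ ψ u * qe θ ψ v = qe θ ψ v * qe θ ψ u ↔ bf u v = 0 := by
  rw [qe_el, qe_el, comm h]

theorem qe_s0 (h : Fr θ ψ) : qe θ ψ s0 = ww θ 0 2 := by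
  rw [qe, show gR s0 = 1 by decide +kernel, show mU s0 = wm 0 2 by decide +kernel, map_one, mul_one,
    ww]

theorem qe_s1 (h : Fr θ ψ) : qe θ ψ s1 = ww θ 1 2 := by
  rw [qe, show gR s1 = 1 by decide +kernel, show mU s1 = wm 1 2 by decide +kernel, map_one, mul_one,
    ww]

theorem QQ_le (h : Fr θ ψ) : QQ θ ψ ≤ C1 (zz θ) := fun q hq => by
  obtain ⟨c, v, rfl⟩ := of_mem h hq
  rw [mem_centralizer_singleton_iff, z_el (ψ := ψ), comm h]
  simp [bf, b6, bw]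

theorem exists_ind (h : Fr θ ψ) (hQ : LXQ θ ψ) : ∃ α, Ind θ ψ α := by
  have k : ∀ (g : C1 (zz θ)) v, ∃ v' c, g * qe θ ψ v * (g : G)⁻¹ = el θ ψ c v' := fun g v => by
    obtain ⟨c, v', e⟩ := of_mem h (mem_normalizer_conj (hQ.pre.norm g.2) (qe_mem h v))
    exact ⟨v', c, e⟩
  choose f c hf using k
  have k1 : ∀ v, f 1 v = v := fun v =>
    (inj h (d := 0) ((hf 1 v).symm.trans (by simpa using qe_el v))).2
  have k2 : ∀ g g' v, f (g * g') v = f g (f g' v) := fun g g' v =>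
    (inj h (d := c g (f g' v) + c g' v) ((hf (g * g') v).symm.trans (by
      rw [← conj h g.2 (hf g (f g' v)) (c g' v), ← hf, Subgroup.coe_mul]; group))).2
  let φ : C1 (zz θ) →* Function.End V12 :=
    { toFun := f
      map_one' := funext k1
      map_mul' := fun g g' => funext (k2 g g') }
  exact ⟨φ.toHomPerm, fun g v => (rel h).2 ⟨_, hf g v⟩⟩

theorem Ind.eq (h : Fr θ ψ) (hα : Ind θ ψ α) {g : C1 (zz θ)} {v v' : V12}
    (e : g * qe θ ψ v * (g : G)⁻¹ = qe θ ψ v' ∨ g * qe θ ψ v * (g : G)⁻¹ = qe θ ψ v' * zz θ) :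
    α g v = v' := by
  obtain ⟨a, h1⟩ := (rel h).1 (hα g v)
  obtain ⟨b, h2⟩ := (rel h).1 e
  exact (inj h (h1.symm.trans h2)).2

theorem Ind.add (h : Fr θ ψ) (hα : Ind θ ψ α) (g : C1 (zz θ)) (u v : V12) :
    α g (u + v) = α g u + α g v := by
  obtain ⟨a, h1⟩ := (rel h).1 (hα g u)
  obtain ⟨b, h2⟩ := (rel h).1 (hα g v)
  obtain ⟨c, h3⟩ := (rel h).1 (hα g (u + v))
  have h4 := conj h g.2 h3 (0 + 0 + cc u v)
  rw [← mul h, ← qe_el, ← qe_el, show (g : G) * (qe θ ψ u * qe θ ψ v) * (g : G)⁻¹ =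
    g * qe θ ψ u * (g : G)⁻¹ * (g * qe θ ψ v * (g : G)⁻¹) by group, h1, h2, mul h] at h4
  exact (inj h h4).2.symm

theorem Ind.bf (h : Fr θ ψ) (hα : Ind θ ψ α) (g : C1 (zz θ)) (u v : V12) :
    bf (α g u) (α g v) = bf u v := by
  obtain ⟨a, h1⟩ := (rel h).1 (hα g u)
  obtain ⟨b, h2⟩ := (rel h).1 (hα g v)
  have k : ∀ x y : K2, (x = 0 ↔ y = 0) → x = y := by decide
  refine k _ _ ?_
  rw [← comm h a b, ← qe_comm h, ← h1, ← h2, conj_mul, conj_mul, mul_left_inj, mul_right_inj]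

theorem Ind.of_Q (h : Fr θ ψ) (hα : Ind θ ψ α) {g : C1 (zz θ)} (hg : (g : G) ∈ QQ θ ψ) :
    α g = 1 := by
  obtain ⟨c, w, e⟩ := of_mem h hg
  exact Equiv.ext fun v => hα.eq h ((rel h).2 ⟨_, by rw [e, conjQ h]; rfl⟩)

/-- the action of an element of `N(A)`, reduced to a matrix identity -/
theorem Ind.act (h : Fr θ ψ) (hα : Ind θ ψ α) {g : C1 (zz θ)} {m : Mt} {l : L5} (hm : Al m)
    (hg : (g : G) = θ m * ψ l) {v v' : V12} (e1 : l.1 * mR v = mR v' * l.1)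
    (e2 : m + l.1 * mU v * l.1ᵀ + mR v' * m * (mR v')ᵀ = mU v' ∨
      m + l.1 * mU v * l.1ᵀ + mR v' * m * (mR v')ᵀ = mU v' + wm 0 1) : α g v = v' := by
  obtain ⟨c, e3⟩ : ∃ c : K2, m + l.1 * mU v * l.1ᵀ + mR v' * m * (mR v')ᵀ = mC c v' :=
    e2.elim (fun e => ⟨0, e⟩) fun e => ⟨1, e.trans (mC1 _)⟩
  have a0 : Al (mU v) := (u7 0 v).1
  refine hα.eq h ((rel h).2 ⟨c, ?_⟩)
  rw [mul_inv_eq_iff_eq_mul, hg, qe, el, h.el_mul _ _ a0, h.el_mul _ _ hm, ← e3,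
    show l * gR v = gR v' * l from Subtype.ext e1, show (gR v').1 = mR v' from rfl,
    add_assoc (m + _), CA.madd, add_zero]

/-- adjusting by `Q` -/
theorem Ind.lift (h : Fr θ ψ) (hα : Ind θ ψ α) {g : C1 (zz θ)} (e0 : α g s0 = s0) :
    ∃ q : C1 (zz θ), (q : G) ∈ QQ θ ψ ∧ ((g * q : C1 (zz θ)) : G) ∈ C1 (ww θ 0 2) ∧
      (α g s1 = s1 → ((g * q : C1 (zz θ)) : G) ∈ Cs (B3 θ)) := by
  obtain ⟨a, h1⟩ := (rel h).1 (hα g s0)
  obtain ⟨b, h2⟩ := (rel h).1 (hα g s1)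
  have k : ∀ (c : K2) (v w : V12), g * qe θ ψ v * (g : G)⁻¹ = el θ ψ c v → GN.bf w v = c →
      g * el θ ψ 0 w * qe θ ψ v = qe θ ψ v * (g * el θ ψ 0 w) := fun c v w e1 e2 => by
    have := conj h g.2 e1 c
    rw [CA.z2, ← qe_el, ← e2, ← conjQ h 0] at this
    exact mul_inv_eq_iff_eq_mul.1 (Eq.trans (by group) this)
  rw [e0] at h1
  have k0 := k a s0 ((0, 0, b), (0, 0, a)) h1 (by simp [GN.bf, b6, bw, s0])
  rw [qe_s0 h] at k0
  refine ⟨⟨_, QQ_le h (mem h 0 ((0, 0, b), (0, 0, a)))⟩, mem h _ _,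
    mem_centralizer_singleton_iff.2 k0, fun e1 => ?_⟩
  rw [e1] at h2
  have k1 := k b s1 ((0, 0, b), (0, 0, a)) h2 (by simp [GN.bf, b6, bw, s1])
  rw [qe_s1 h] at k1
  rw [B3, Cs, centralizer_closure, mem_centralizer_iff]
  rintro _ (rfl | rfl | rfl)
  exacts [mem_centralizer_iff.1 (Subtype.prop _) _ rfl, k0.symm, k1.symm]

end Cfsg.Lib.R10.GN
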