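import Cfsg.Agent.R10.GA

/-! Explicit elements of `C(z) ∩ N(A)` acting on `Q / ⟨z⟩`. -/

set_option autoImplicit false
set_option linter.unusedVariables false
set_option linter.unusedSectionVars false

namespace Cfsg.Lib.R10.GN

open Subgroup Cfsg.Lib.Trans Cfsg.Lib.Gold Matrix

universe u

variable {G : Type u} [Group G] [Finite G] {θ : Mt → G} {ψ : L5 →* G} {S : Subgroup G}
  {α : C1 (zz θ) →* Equiv.Perm V12}

namespace GB

/-- The standard basis of `S6`. -/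
def b6s : List S6 := [(1, 0, 0), (0, (1, 0, 0, 0), 0), (0, (0, 1, 0, 0), 0), (0, (0, 0, 1, 0), 0),
  (0, (0, 0, 0, 1), 0), (0, 0, 1)]

theorem k2 : ∀ c : K2, c = 0 ∨ c = 1 := by decide

theorem ind6 {P : S6 → Prop} (h0 : P 0) (ha : ∀ u v, P u → P v → P (u + v)) (hb : ∀ u ∈ b6s, P u)
    (u : S6) : P u := by
  have k : ∀ (c : K2), ∀ u ∈ b6s, P (c • u) := fun c u hu => by
    rcases k2 c with rfl | rfl
    · rwa [zero_smul]
    · rw [one_smul]; exact hb u hu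
  obtain ⟨a, ⟨b, c, d, e⟩, f⟩ := u
  have := ha _ _ (ha _ _ (ha _ _ (ha _ _ (ha _ _ (k a (1, 0, 0) (by decide))
    (k b (0, (1, 0, 0, 0), 0) (by decide))) (k c (0, (0, 1, 0, 0), 0) (by decide)))
    (k d (0, (0, 0, 1, 0), 0) (by decide))) (k e (0, (0, 0, 0, 1), 0) (by decide)))
    (k f (0, 0, 1) (by decide))
  simpa using this

/-- The matrix conditions of `Ind.act`. -/
def Ok (m : Mt) (l : L5) (v v' : V12) : Prop := l.1 * mR v = mR v' * l.1 ∧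
  (m + l.1 * mU v * l.1ᵀ + mR v' * m * (mR v')ᵀ = mU v' ∨
    m + l.1 * mU v * l.1ᵀ + mR v' * m * (mR v')ᵀ = mU v' + wm 0 1)

instance (m : Mt) (l : L5) (v v' : V12) : Decidable (Ok m l v v') :=
  inferInstanceAs (Decidable (_ ∧ _))

theorem key (h : Fr θ ψ) (hα : Ind θ ψ α) {g : C1 (zz θ)} {m : Mt} {l : L5} (hm : Al m)
    (hg : (g : G) = θ m * ψ l) {f : V12 → V12} (hf : ∀ u v, f (u + v) = f u + f v)
    (e : ∀ u ∈ b6s, Ok m l (u, 0) (f (u, 0)) ∧ Ok m l (0, u) (f (0, u))) (v : V12) :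
    α g v = f v := by
  have a0 : α g 0 = 0 := by simpa using Ind.add h hα g 0 0
  have f0 : f 0 = 0 := by simpa using hf 0 0
  have ad : ∀ u v, α g u = f u → α g v = f v → α g (u + v) = f (u + v) := fun u v k k' => by
    rw [Ind.add h hα, hf, k, k']
  have h1 := ind6 (P := fun u => α g (u, 0) = f (u, 0)) (a0.trans f0.symm)
    (fun u v k k' => by simpa using ad _ _ k k')
    (fun u hu => Ind.act h hα hm hg (e u hu).1.1 (e u hu).1.2) v.1
  have h2 := ind6 (P := fun u => α g (0, u) = f (0, u)) (a0.trans f0.symm)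
    (fun u v k k' => by simpa using ad _ _ k k')
    (fun u hu => Ind.act h hα hm hg (e u hu).2.1 (e u hu).2.2) v.2
  simpa using ad _ _ h1 h2

theorem mk (h : Fr θ ψ) {m : Mt} {l : L5} (hm : Al m) (hl : l.1 * wm 0 1 * l.1ᵀ = wm 0 1) :
    ∃ g ∈ (Ns (AA θ)).subgroupOf (C1 (zz θ)), (g : G) = θ m * ψ l := by
  have e1 : Commute (θ m) (θ (wm 0 1)) := by rw [commute_iff_eq, ← h.add, ← h.add, add_comm]
  have e2 : Commute (ψ l) (θ (wm 0 1)) :=
    mul_inv_eq_iff_eq_mul.1 (by rw [h.act l _ (al_wm 0 1), hl])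
  exact ⟨⟨_, mem_centralizer_singleton_iff.2 (e1.mul_left e2)⟩, mem_subgroupOf.2 ((h.nrm _).2 ⟨m, l, hm, rfl⟩), rfl⟩

theorem ep6_add (w : W4) (u v : S6) : ep6 w (u + v) = ep6 w u + ep6 w v := by
  ext <;> simp [ep6, bw] <;> ring

theorem ep_ad (w : W4) (u v : V12) : ep w (u + v) = ep w u + ep w v :=
  Prod.ext (ep6_add w _ _) (ep6_add w _ _)

theorem ta_ad (u v : V12) : ta (u + v) = ta u + ta v :=
  Prod.ext (add_add_add_comm _ _ _ _) rfl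

theorem a34_ad (u v : V12) : a34 (u + v) = a34 u + a34 v := by
  ext <;> simp [a34, a4] <;> ring

theorem ep6_add' : ∀ w w' : W4, ∀ u ∈ b6s, ep6 (w + w') u = ep6 w (ep6 w' u) := by decide +kernel

theorem ep_zero (v : V12) : ep 0 v = v := by
  ext <;> simp [ep, ep6, bw, qw]

/-- `l` fixes `e 0 ∧ e 1` and maps `e 2` to `u`. -/
def Ou (u : S6) (l : L5) : Prop :=
  l.1 * wm 0 1 * l.1ᵀ = wm 0 1 ∧ Ok 0 l s0 (u, 0) ∧ Ok 0 l s1 (0, u)

instance (u : S6) (l : L5) : Decidable (Ou u l) := inferInstanceAs (Decidable (_ ∧ _))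

theorem us {u : S6} (h1 : U3 u) (h2 : u ≠ 0) : ∃ l, Ou u l := by
  obtain ⟨a, ⟨b, c, d⟩, f⟩ := u
  obtain ⟨rfl, rfl⟩ : d = 0 ∧ f = 0 := h1
  rcases k2 a with rfl | rfl <;> rcases k2 b with rfl | rfl <;> rcases k2 c with rfl | rfl
  · exact absurd rfl h2
  · exact ⟨tv 2 4 * tv 4 2, by decide +kernel⟩
  · exact ⟨tv 2 3 * tv 3 2, by decide +kernel⟩
  · exact ⟨tv 4 3 * tv 2 3 * tv 3 2, by decide +kernel⟩
  · exact ⟨1, by decide +kernel⟩
  · exact ⟨tv 4 2, by decide +kernel⟩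
  · exact ⟨tv 3 2, by decide +kernel⟩
  · exact ⟨tv 3 2 * tv 4 2, by decide +kernel⟩

end GB

open GB

theorem Ind.ww23 (h : Fr θ ψ) (hα : Ind θ ψ α) {g : C1 (zz θ)} (hg : (g : G) = ww θ 2 3) (v : V12) :
    α g v = ep (1, 0, 0, 0) v :=
  key h hα (m := wm 2 3) (l := 1) (al_wm 2 3) (by rw [map_one, mul_one]; exact hg) (ep_ad _)
    (by decide +kernel) v

theorem Ind.ww24 (h : Fr θ ψ) (hα : Ind θ ψ α) {g : C1 (zz θ)} (hg : (g : G) = ww θ 2 4) (v : V12) :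
    α g v = ep (0, 1, 0, 0) v :=
  key h hα (m := wm 2 4) (l := 1) (al_wm 2 4) (by rw [map_one, mul_one]; exact hg) (ep_ad _)
    (by decide +kernel) v

theorem Ind.tt23 (h : Fr θ ψ) (hα : Ind θ ψ α) {g : C1 (zz θ)} (hg : (g : G) = tt ψ 2 3) (v : V12) :
    α g v = ep (0, 0, 1, 0) v :=
  key h hα (m := 0) (l := tv 2 3) al_zero (by rw [h.zero, one_mul]; exact hg) (ep_ad _)
    (by decide +kernel) v

theorem Ind.tt24 (h : Fr θ ψ) (hα : Ind θ ψ α) {g : C1 (zz θ)} (hg : (g : G) = tt ψ 2 4) (v : V12) :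
    α g v = ep (0, 0, 0, 1) v :=
  key h hα (m := 0) (l := tv 2 4) al_zero (by rw [h.zero, one_mul]; exact hg) (ep_ad _)
    (by decide +kernel) v

theorem Ind.tt01 (h : Fr θ ψ) (hα : Ind θ ψ α) {g : C1 (zz θ)} (hg : (g : G) = tt ψ 0 1) (v : V12) :
    α g v = ta v :=
  key h hα (m := 0) (l := tv 0 1) al_zero (by rw [h.zero, one_mul]; exact hg) ta_ad
    (by decide +kernel) v

theorem ep_add (w w' : W4) (v : V12) : ep (w + w') v = ep w (ep w' v) := by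
  have z : ∀ w, ep6 w 0 = 0 := fun w => by simpa using ep6_add w 0 0
  have k := ind6 (P := fun u => ep6 (w + w') u = ep6 w (ep6 w' u)) (by simp only [z])
    (fun u v k k' => by simp only [ep6_add, k, k']) (ep6_add' w w')
  exact Prod.ext (k _) (k _)

theorem Ind.eM (h : Fr θ ψ) (hα : Ind θ ψ α) (w : W4) :
    ∃ m ∈ (Ns (AA θ)).subgroupOf (C1 (zz θ)), ∀ v, α m v = ep w v := by
  let P : W4 → Prop := fun w => ∃ m ∈ (Ns (AA θ)).subgroupOf (C1 (zz θ)), ∀ v, α m v = ep w v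
  have ad : ∀ {w w'}, P w → P w' → P (w + w') := fun ⟨m, a, b⟩ ⟨m', a', b'⟩ =>
    ⟨m * m', mul_mem a a', fun v => by rw [map_mul, Equiv.Perm.mul_apply, b', b, ep_add]⟩
  have sm : ∀ (c : K2) {w}, P w → P (c • w) := fun c w k => by
    rcases k2 c with rfl | rfl
    · exact ⟨1, one_mem _, fun v => by rw [zero_smul, ep_zero, map_one, Equiv.Perm.one_apply]⟩
    · rwa [one_smul]
  obtain ⟨g1, a1, b1⟩ := mk h (l := 1) (al_wm 2 3) (by decide +kernel)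
  obtain ⟨g2, a2, b2⟩ := mk h (l := 1) (al_wm 2 4) (by decide +kernel)
  obtain ⟨g3, a3, b3⟩ := mk h (l := tv 2 3) al_zero (by decide +kernel)
  obtain ⟨g4, a4, b4⟩ := mk h (l := tv 2 4) al_zero (by decide +kernel)
  rw [map_one, mul_one] at b1 b2
  rw [h.zero, one_mul] at b3 b4
  obtain ⟨a, b, c, d⟩ := w
  have := ad (ad (ad (sm a ⟨g1, a1, Ind.ww23 h hα b1⟩) (sm b ⟨g2, a2, Ind.ww24 h hα b2⟩))
    (sm c ⟨g3, a3, Ind.tt23 h hα b3⟩)) (sm d ⟨g4, a4, Ind.tt24 h hα b4⟩)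
  change P _
  simpa using this

theorem Ind.tM (h : Fr θ ψ) (hα : Ind θ ψ α) :
    ∃ m ∈ (Ns (AA θ)).subgroupOf (C1 (zz θ)), ∀ v, α m v = ta v := by
  obtain ⟨g, a, b⟩ := mk h (l := tv 0 1) al_zero (by decide +kernel)
  exact ⟨g, a, key h hα al_zero b ta_ad (by decide +kernel)⟩

theorem Ind.sM (h : Fr θ ψ) (hα : Ind θ ψ α) :
    ∃ m ∈ (Ns (AA θ)).subgroupOf (C1 (zz θ)), ∀ v, α m v = sw v := by
  obtain ⟨g, a, b⟩ := mk h (l := tv 0 1 * tv 1 0 * tv 0 1) al_zero (by decide +kernel)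
  exact ⟨g, a, key h hα al_zero b (fun _ _ => rfl) (by decide +kernel)⟩

theorem Ind.aM (h : Fr θ ψ) (hα : Ind θ ψ α) :
    ∃ m ∈ (Ns (AA θ)).subgroupOf (C1 (zz θ)), ∀ v, α m v = a34 v := by
  obtain ⟨g, a, b⟩ := mk h (l := 1) (al_wm 3 4) (by decide +kernel)
  exact ⟨g, a, key h hα (al_wm 3 4) b a34_ad (by decide +kernel)⟩

theorem Ind.uM (h : Fr θ ψ) (hα : Ind θ ψ α) (u : S6) (h1 : U3 u) (h2 : u ≠ 0) :
    ∃ m ∈ (Ns (AA θ)).subgroupOf (C1 (zz θ)), α m s0 = (u, 0) ∧ α m s1 = (0, u) := by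
  obtain ⟨l, k1, k2, k3⟩ := us h1 h2
  obtain ⟨g, a, b⟩ := mk h al_zero k1
  exact ⟨g, a, Ind.act h hα al_zero b k2.1 k2.2, Ind.act h hα al_zero b k3.1 k3.2⟩

end Cfsg.Lib.R10.GN
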