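import Cfsg.Agent.R10.GF

/-! Five finite checks in the linear model. -/

set_option autoImplicit false
set_option maxRecDepth 100000
set_option synthInstance.maxSize 4096
set_option synthInstance.maxHeartbeats 400000

namespace Cfsg.Lib.R10.GN

namespace GF1

def AL : List W4 :=
  [(0, 0, 0, 0), (0, 0, 0, 1), (0, 0, 1, 0), (0, 0, 1, 1), (0, 1, 0, 0), (0, 1, 0, 1), (0, 1, 1, 0),
   (0, 1, 1, 1), (1, 0, 0, 0), (1, 0, 0, 1), (1, 0, 1, 0), (1, 0, 1, 1), (1, 1, 0, 0), (1, 1, 0, 1),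
   (1, 1, 1, 0), (1, 1, 1, 1)]

theorem mem_AL (u : W4) : u ∈ AL := by
  obtain ⟨a, b, c, d⟩ := u
  revert a b c d
  decide +kernel

@[reducible] def dA (p : W4 → Prop) [DecidablePred p] : Decidable (∀ u, p u) :=
  decidable_of_iff (∀ u ∈ AL, p u) ⟨fun h u => h u (mem_AL u), fun h u _ => h u⟩

@[reducible] def dE (p : W4 → Prop) [DecidablePred p] : Decidable (∃ u, p u) :=
  decidable_of_iff (∃ u ∈ AL, p u) ⟨fun ⟨u, _, h⟩ => ⟨u, h⟩, fun ⟨u, h⟩ => ⟨u, mem_AL u, h⟩⟩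

end GF1

attribute [local instance 2000] GF1.dA GF1.dE

theorem f_mem : ∀ a, qw a = 0 → ∀ b, qw b = 0 → bw a b = 0 → ∀ c, qw c = 0 → bw a c = 1 →
    bw b c = 0 → ∀ d, qw d = 0 → bw a d = 0 → bw b d = 1 → bw c d = 0 → (a, b, c, d) ∈ O4L := by
  decide +kernel

theorem f0a : ∀ a b v : W4, (∀ w, Pe w (a, b) → bw v w = 0) → v ∈ [0, a, b, a + b] := by
  decide +kernel

theorem f0b : ∀ a b : W4, ∀ c ∈ [0, a, b, a + b], ∀ d ∈ [0, a, b, a + b], (a, b) ≠ 0 → (c, d) ≠ 0 →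
    (a, b) ≠ (c, d) → (∀ w, Pe w (c, d) → Pe w (a, b)) → (∀ w, Pe w ((a, b) + (c, d)) → Pe w (a, b)) →
    (c, d) = r2 (a, b) ∨ (c, d) = r2 (r2 (a, b)) := by
  decide +kernel

theorem f3 : ∀ a b : W4, (a, b) ≠ 0 → ∃ w, Pe w (a, b) ∧ w ≠ 0 ∧ ¬ Ov w (a, b) ∧ ∃ w', Pe w' (a, b) ∧
    w' ≠ 0 ∧ ¬ Ov w' (a, b) ∧ w + w' ≠ 0 ∧ ¬ Ov (w + w') (a, b) := by
  decide +kernel

theorem f4 : ∀ a b : W4, ∃ w, w ≠ 0 ∧ Pe w (a, b) := by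
  decide +kernel

end Cfsg.Lib.R10.GN
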