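import Cfsg.Agent.R10.GF

/-! The finite check on pairs of elements of `O₄⁺(2)`. -/

set_option autoImplicit false
set_option maxRecDepth 100000
set_option synthInstance.maxSize 4096
set_option synthInstance.maxHeartbeats 400000

namespace Cfsg.Lib.R10.GN

namespace GF2

def en (u : W4) : ℕ := u.1.val + 2 * u.2.1.val + 4 * u.2.2.1.val + 8 * u.2.2.2.val

def cd (g : M4) : ℕ := en g.1 + 16 * en g.2.1 + 256 * en g.2.2.1 + 4096 * en g.2.2.2

def ln (c u : ℕ) : ℕ := Nat.xor (Nat.xor (Nat.xor (Nat.mul (Nat.mod u 2) (Nat.mod c 16))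
  (Nat.mul (Nat.mod (Nat.div u 2) 2) (Nat.mod (Nat.div c 16) 16)))
  (Nat.mul (Nat.mod (Nat.div u 4) 2) (Nat.mod (Nat.div c 256) 16)))
  (Nat.mul (Nat.div u 8) (Nat.div c 4096))

def bn (u v : ℕ) : ℕ := Nat.mod (Nat.shiftRight 47758934893924062158176435002117040092568497630997252033787331798189963476992 (Nat.add (Nat.mul 16 u) v)) 2

def R16 : List ℕ := [0, 1, 2, 3, 4, 5, 6, 7, 8, 9, 10, 11, 12, 13, 14, 15]

def ON : List ℕ := [4680, 38472, 5064, 40904, 16920, 49944, 18072, 53144, 8580, 27012, 9156, 28612, 33060, 49956, 35172, 53092, 12684, 63884, 12876, 63052, 16956, 33084, 18172, 35324, 6210, 15426, 6498, 16226, 18450, 26898, 19506, 28466, 38982, 64582, 37158, 62246, 18582, 8598, 19702, 9206, 9345, 15489, 33825, 38433, 9873, 16273, 35889, 40753, 25737, 64649, 33897, 4713, 25113, 62233, 36089, 5113, 6339, 9411, 50211, 63011, 51219, 63763, 9971, 6643, 39119, 25807, 50287, 12911, 51359, 12703, 25151, 37183]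

def e2 (p q a b : ℕ) : Bool := Nat.beq p a && Nat.beq q b

def gd (a b c : ℕ) : Bool := e2 (ln c a) (ln c b) a b && !Nat.beq c 33825 &&
  R16.all fun x => R16.all fun y => !Nat.beq (bn x b) (bn y a) || !Nat.beq (bn x (Nat.xor a b)) (bn y b) ||
    e2 (Nat.xor (ln c x) x) (Nat.xor (ln c y) y) 0 0 || e2 (Nat.xor (ln c x) x) (Nat.xor (ln c y) y) a b ||
    e2 (Nat.xor (ln c x) x) (Nat.xor (ln c y) y) b (Nat.xor a b) ||
    e2 (Nat.xor (ln c x) x) (Nat.xor (ln c y) y) (Nat.xor a b) (Nat.xor b (Nat.xor a b))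

def l0 (a b : ℕ) : Bool := Nat.blt a 4 && Nat.blt b 4

def ck (a b : ℕ) : Bool := l0 a b || ON.all fun c => !gd a b c ||
  l0 (ln c (ln 38433 a)) (ln c (ln 38433 b)) || ON.all fun d => Nat.beq c d ||
    l0 (ln d (ln 38433 a)) (ln d (ln 38433 b)) ||
    l0 (ln c (ln d (ln 38433 a))) (ln c (ln d (ln 38433 b))) || !gd a b d

theorem en_eq_1' : type_of% @en.eq_1 := @en.eq_1
theorem cd_eq_1' : type_of% @cd.eq_1 := @cd.eq_1
theorem ln_eq_1' : type_of% @ln.eq_1 := @ln.eq_1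
theorem bn_eq_1' : type_of% @bn.eq_1 := @bn.eq_1
theorem R16_eq_1' : type_of% @R16.eq_1 := @R16.eq_1
theorem ON_eq_1' : type_of% @ON.eq_1 := @ON.eq_1
theorem e2_eq_1' : type_of% @e2.eq_1 := @e2.eq_1
theorem gd_eq_1' : type_of% @gd.eq_1 := @gd.eq_1
theorem l0_eq_1' : type_of% @l0.eq_1 := @l0.eq_1
theorem ck_eq_1' : type_of% @ck.eq_1 := @ck.eq_1

theorem main : (R16.all fun a => R16.all fun b => ck a b) = true := by decide +kernel

theorem en_mem : ∀ u, en u ∈ R16 := by decide +kernel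
theorem en_surj : ∀ x ∈ R16, ∃ u, en u = x := by decide +kernel
theorem en_lt : ∀ u, en u < 16 := by decide +kernel
theorem en_inj : ∀ u v, en u = en v → u = v := by decide +kernel
theorem en_add : ∀ u v, en (u + v) = Nat.xor (en u) (en v) := by decide +kernel
theorem en_sm : ∀ (u v : W4), en (u.1 • v) = Nat.mul (Nat.mod (en u) 2) (en v) ∧
    en (u.2.1 • v) = Nat.mul (Nat.mod (Nat.div (en u) 2) 2) (en v) ∧
    en (u.2.2.1 • v) = Nat.mul (Nat.mod (Nat.div (en u) 4) 2) (en v) ∧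
    en (u.2.2.2 • v) = Nat.mul (Nat.div (en u) 8) (en v) := by decide +kernel
theorem en_bw : ∀ u v, bn (en u) (en v) = (bw u v).val := by decide +kernel
theorem en_a4 : ∀ u, en (a4 u) = ln 38433 (en u) := by decide +kernel
theorem en_l0 : ∀ u v, l0 (en u) (en v) = true → L0 (u, v) := by decide +kernel
theorem on_eq : O4L.map cd = ON := by decide +kernel
theorem k2 : ∀ a b : K2, a.val = b.val → a + b = 0 := by decide

theorem cd_pr (g : M4) : Nat.mod (cd g) 16 = en g.1 ∧ Nat.mod (Nat.div (cd g) 16) 16 = en g.2.1 ∧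
    Nat.mod (Nat.div (cd g) 256) 16 = en g.2.2.1 ∧ Nat.div (cd g) 4096 = en g.2.2.2 := by
  have h1 := en_lt g.1
  have h2 := en_lt g.2.1
  have h3 := en_lt g.2.2.1
  have h4 := en_lt g.2.2.2
  change cd g % 16 = _ ∧ cd g / 16 % 16 = _ ∧ cd g / 256 % 16 = _ ∧ cd g / 4096 = _
  unfold cd
  omega

theorem cd_inj {g h : M4} (e : cd g = cd h) : g = h := by
  obtain ⟨a1, a2, a3, a4⟩ := cd_pr g
  obtain ⟨b1, b2, b3, b4⟩ := cd_pr h
  rw [e] at a1 a2 a3 a4
  exact Prod.ext (en_inj _ _ (a1.symm.trans b1)) (Prod.ext (en_inj _ _ (a2.symm.trans b2))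
    (Prod.ext (en_inj _ _ (a3.symm.trans b3)) (en_inj _ _ (a4.symm.trans b4))))

theorem en_lin (g : M4) (u : W4) : ln (cd g) (en u) = en (lin g u) := by
  obtain ⟨a1, a2, a3, a4⟩ := cd_pr g
  rw [ln, a1, a2, a3, a4, lin, en_add, en_add, en_add, (en_sm u _).1, (en_sm u _).2.1,
    (en_sm u _).2.2.1, (en_sm u _).2.2.2]

theorem e2_of {p q a b : W4} (e : (p, q) = (a, b)) : e2 (en p) (en q) (en a) (en b) = true := by
  cases e; simp [e2]

theorem gd_of {a b : W4} {g : M4} (h : Gd (a, b) g) : gd (en a) (en b) (cd g) = true := by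
  obtain ⟨h1, h2, h3⟩ := h
  simp only [gd, Bool.and_eq_true, List.all_eq_true, en_lin]
  refine ⟨⟨e2_of h2, ?_⟩, fun x hx y hy => ?_⟩
  · rw [Bool.not_eq_true', ← Bool.not_eq_true, Nat.beq_eq]
    exact fun e => h1 (cd_inj (e.trans (by decide)))
  · obtain ⟨x, rfl⟩ := en_surj x hx
    obtain ⟨y, rfl⟩ := en_surj y hy
    simp only [← en_add, en_lin, en_bw, Bool.or_eq_true, Bool.not_eq_true', ← Bool.not_eq_true,
      Nat.beq_eq]
    by_cases k : (bw x b).val = (bw y a).val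
    · by_cases k' : (bw x (a + b)).val = (bw y b).val
      · rcases h3 x y (k2 _ _ k) (k2 _ _ k') with e | e | e | e
        · exact .inl (.inl (.inl (.inr (e2_of (a := 0) (b := 0) e))))
        · exact .inl (.inl (.inr (e2_of e)))
        · exact .inl (.inr (e2_of e))
        · exact .inr (e2_of e)
      · exact .inl (.inl (.inl (.inl (.inr k'))))
    · exact .inl (.inl (.inl (.inl (.inl k))))

end GF2

open GF2 in
theorem f1 : ∀ a b : W4, (a, b) ≠ 0 → ∀ g ∈ O4L, Gd (a, b) g → ∀ g' ∈ O4L, Gd (a, b) g' → g ≠ g' →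
    L0 (a, b) ∨ L0 (l2 g (a2 (a, b))) ∨ L0 (l2 g' (a2 (a, b))) ∨ L0 (l2 g (l2 g' (a2 (a, b)))) := by
  intro a b _ g hg h1 g' hg' h2 ne
  have h := List.all_eq_true.1 (List.all_eq_true.1 main _ (en_mem a)) _ (en_mem b)
  rw [ck, Bool.or_eq_true, List.all_eq_true] at h
  refine h.imp (en_l0 _ _) fun h => ?_
  have h := h _ (on_eq ▸ List.mem_map_of_mem hg)
  rw [gd_of h1, Bool.not_true, Bool.false_or, Bool.or_eq_true, List.all_eq_true, ← en_a4, ← en_a4,
    en_lin, en_lin] at h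
  refine h.imp (en_l0 _ _) fun h => ?_
  have h := h _ (on_eq ▸ List.mem_map_of_mem hg')
  rw [gd_of h2, Bool.not_true, Bool.or_false, Bool.or_eq_true, Bool.or_eq_true, en_lin, en_lin, en_lin,
    en_lin, Nat.beq_eq] at h
  rcases h with (h | h) | h
  exacts [absurd (cd_inj h) ne, .inl (en_l0 _ _ h), .inr (en_l0 _ _ h)]

end Cfsg.Lib.R10.GN
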