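import Cfsg.Agent.R10.GA
import Cfsg.Agent.R10.GB

/-! `C(A ∩ Q) = A` and the kernel of the action on `p^⊥ / p`. -/

set_option autoImplicit false
set_option linter.unusedVariables false
set_option linter.unusedSectionVars false

namespace Cfsg.Lib.R10.GN

open Subgroup Cfsg.Lib.Trans Cfsg.Lib.Gold Matrix

universe u

variable {G : Type u} [Group G] [Finite G] {θ : Mt → G} {ψ : L5 →* G} {S : Subgroup G}
  {α : C1 (zz θ) →* Equiv.Perm V12}

namespace GK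

theorem mem_C1 {a g : G} : g ∈ C1 a ↔ g * a = a * g := mem_centralizer_singleton_iff

theorem mem_Cs {U : Subgroup G} {g : G} : g ∈ Cs U ↔ ∀ u ∈ U, u * g = g * u := mem_centralizer_iff

theorem al_mU (v : V12) : Al (mU v) :=
  ⟨by ext i j; fin_cases i <;> fin_cases j <;> rfl, fun i => by fin_cases i <;> rfl⟩

theorem mR_one {v : V12} (hv : InU v) : mR v = 1 := by
  obtain ⟨⟨a, ⟨b, c, d, e⟩, f⟩, ⟨a', ⟨b', c', d', e'⟩, f'⟩⟩ := v
  obtain ⟨⟨h1, h2⟩, h3, h4⟩ := hv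
  simp only [Prod.mk_eq_zero] at h1 h2 h3 h4
  obtain ⟨rfl, rfl⟩ := h1
  obtain ⟨rfl, rfl⟩ := h3
  subst h2 h4
  ext i j; fin_cases i <;> fin_cases j <;> rfl

theorem inU_of {v : V12} (hv : mR v = 1) : InU v := by
  have e := fun i j => congrFun (congrFun hv i) j
  exact ⟨⟨Prod.ext (e 0 3) (e 0 4), e 0 2⟩, Prod.ext (e 1 3) (e 1 4), e 1 2⟩

theorem qe_U {v : V12} (hv : InU v) : qe θ ψ v = θ (mU v) := by
  have : gR v = 1 := Subtype.ext (mR_one hv)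
  rw [qe, this, map_one, mul_one]

theorem z_A (h : Fr θ ψ) : zz θ ∈ AA θ := h.θ_mem (al_wm 0 1)

theorem z_Q (h : Fr θ ψ) : zz θ ∈ QQ θ ψ := h.θ_mem_QQ (u7_wm 0 1 (by decide))

theorem z_U (h : Fr θ ψ) : zz θ ∈ QQ θ ψ ⊓ AA θ := ⟨z_Q h, z_A h⟩

theorem qe_memU (h : Fr θ ψ) {v : V12} (hv : InU v) : qe θ ψ v ∈ QQ θ ψ ⊓ AA θ :=
  ⟨qe_mem h v, by rw [qe_U hv]; exact h.θ_mem (al_mU v)⟩

theorem memU (h : Fr θ ψ) {x : G} (hx : x ∈ QQ θ ψ ⊓ AA θ) :
    ∃ v, InU v ∧ (x = qe θ ψ v ∨ x = qe θ ψ v * zz θ) := by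
  obtain ⟨v, hv⟩ := mem_qe h hx.1
  refine ⟨v, inU_of ?_, hv⟩
  have h1 : qe θ ψ v ∈ AA θ := by
    rcases hv with e | e
    · exact e ▸ hx.2
    · exact (mul_mem_cancel_right (z_A h)).1 (e ▸ hx.2)
  exact congrArg Subtype.val (h.ψ_mem ((mul_mem_cancel_left (h.θ_mem (al_mU v))).1 h1))

theorem cz (g : C1 (zz θ)) : (g : G) * zz θ * (g : G)⁻¹ = zz θ := by
  rw [mem_C1.1 g.2, mul_inv_cancel_right]

theorem bf_add (u v w : V12) : bf (u + v) w = bf u w + bf v w := by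
  simp only [bf, b6, bw, Prod.fst_add, Prod.snd_add]; ring

theorem vadd (v : V12) : v + v = 0 := by
  ext <;> exact CA.z2 _

theorem inU_perp {w : V12} (k : ∀ u, InU u → bf w u = 0) : InU w := by
  have a1 := k ((1, 0, 0), 0) (by decide)
  have a2 := k (0, (1, 0, 0)) (by decide)
  have a3 := k ((0, (1, 0, 0, 0), 0), 0) (by decide)
  have a4 := k (0, (0, (1, 0, 0, 0), 0)) (by decide)
  have a5 := k ((0, (0, 1, 0, 0), 0), 0) (by decide)
  have a6 := k (0, (0, (0, 1, 0, 0), 0)) (by decide)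
  simp [bf, b6, bw] at a1 a2 a3 a4 a5 a6
  exact ⟨⟨Prod.ext a4 a6, a2⟩, Prod.ext a3 a5, a1⟩

theorem two (h : Fr θ ψ) (hQ : LXQ θ ψ) (hα : Ind θ ψ α) :
    IsPGroup 2 (Cs (QQ θ ψ ⊓ AA θ)) := by
  intro c
  let d : C1 (zz θ) := ⟨c, mem_C1.2 (mem_Cs.1 c.2 _ (z_U h)).symm⟩
  have h1 : ∀ v, InU v → α d v = v := fun v hv =>
    Ind.eq h hα (Or.inl (mul_inv_eq_of_eq_mul (mem_Cs.1 c.2 _ (qe_memU h hv)).symm))
  have h2 : ∀ v, α (d * d) v = v := fun v => by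
    have h3 : InU (α d v + v) := inU_perp fun u hu => by
      rw [bf_add]
      conv_lhs => rw [← h1 u hu, Ind.bf h hα, h1 u hu]
      exact CA.z2 _
    have h4 := h1 _ h3
    rw [Ind.add h hα] at h4
    rw [map_mul, Equiv.Perm.mul_apply]
    calc α d (α d v) = α d (α d v) + α d v + α d v := by rw [add_assoc, vadd, add_zero]
      _ = v := by rw [h4, add_right_comm, vadd, zero_add]
  obtain ⟨e, he⟩ : ∃ e : C1 (zz θ), e = d * d := ⟨_, rfl⟩
  rw [← he] at h2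
  have zz2 : zz θ * zz θ = 1 := h.sq _
  have h5 : ∀ v, (e : G) * e * qe θ ψ v * ((e : G) * e)⁻¹ = qe θ ψ v := fun v => by
    have e1 : (e : G) * e * qe θ ψ v * ((e : G) * e)⁻¹ = e * (e * qe θ ψ v * (e : G)⁻¹) * (e : G)⁻¹ := by
      group
    have e2 := hα e v
    rw [h2] at e2
    rcases e2 with e2 | e2
    · rw [e1, e2, e2]
    · have e3 : (e : G) * (qe θ ψ v * zz θ) * (e : G)⁻¹ =
          e * qe θ ψ v * (e : G)⁻¹ * (e * zz θ * (e : G)⁻¹) := by group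
      rw [e1, e2, e3, e2, cz, mul_assoc, zz2, mul_one]
  have h6 : (e : G) * e ∈ zpowers (zz θ) := by
    refine hQ.pre.cent (mem_Cs.2 fun q hq => ?_)
    have e4 : zz θ * ((e : G) * e) = (e : G) * e * zz θ := (mem_C1.1 (mul_mem e.2 e.2)).symm
    obtain ⟨v, rfl | rfl⟩ := mem_qe h hq
    · exact (mul_inv_eq_iff_eq_mul.1 (h5 v)).symm
    · rw [mul_assoc, e4, ← mul_assoc, ← mul_inv_eq_iff_eq_mul.1 (h5 v), mul_assoc]
  obtain ⟨k, hk⟩ := mem_zpowers_iff.1 h6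
  refine ⟨3, Subtype.ext ?_⟩
  have h7 : ((e : G) * e) ^ 2 = 1 := by
    rw [← hk, ← zpow_natCast, ← _root_.zpow_mul, mul_comm, _root_.zpow_mul, zpow_natCast, sq, zz2,
      _root_.one_zpow]
  rw [he] at h7
  change (c : G) ^ 2 ^ 3 = 1
  rw [← h7]
  change (c : G) ^ 8 = ((c : G) * c * (c * c)) ^ 2
  simp only [pow_succ, pow_zero, one_mul, mul_assoc]

theorem off {g : L5} {i j : Fin 5} (hij : i ≠ j) (k : g.1 * wm i j * g.1ᵀ = wm i j) {a : Fin 5}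
    (h1 : a ≠ i) (h2 : a ≠ j) : g.1 a i = 0 := by
  have e1 : g.1ᵀ * (g⁻¹).1ᵀ = 1 := by
    rw [← transpose_mul, ← cmul, inv_mul_cancel]; exact transpose_one
  have e3 : g.1 * wm i j = wm i j * (g⁻¹).1ᵀ := by
    conv_rhs => rw [← k, Matrix.mul_assoc, e1, Matrix.mul_one]
  have e4 := congrFun (congrFun e3 a) j
  rw [mul_apply, mul_apply, Finset.sum_eq_single i, Finset.sum_eq_zero] at e4
  · simpa [wm_ent, hij] using e4
  · intro c _
    simp [wm_ent, h1, h2]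
  · intro c _ hc
    simp [wm_ent, hc, hij.symm]
  · simp

theorem wm_symm : ∀ i j, wm i j = wm j i := by decide +kernel

theorem faith {g : L5} (k : ∀ i j : Fin 5, i.val < 2 → g.1 * wm i j * g.1ᵀ = wm i j) : g = 1 := by
  have e2 : ∀ a i, a ≠ i → g.1 a i = 0 := fun a i hai => by
    obtain ⟨j, h1, h2, h3⟩ : ∃ j, i ≠ j ∧ a ≠ j ∧ (i.val < 2 ∨ j.val < 2) := by revert a i; decide
    refine off h1 ?_ hai h2
    rcases h3 with h3 | h3
    · exact k i j h3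
    · rw [wm_symm]; exact k j i h3
  ext a b
  by_cases e : a = b
  · subst e
    have e3 : (g * g⁻¹).1 a a = 1 := by rw [mul_inv_cancel]; exact one_apply_eq a
    rw [cmul, mul_apply, Finset.sum_eq_single a] at e3
    · exact (CA.z2' _ (left_ne_zero_of_mul_eq_one e3)).trans (one_apply_eq a).symm
    · intro c _ hc
      rw [e2 a c hc.symm, zero_mul]
    · simp
  · exact (e2 a b e).trans (one_apply_ne e).symm

theorem fix (h : Fr θ ψ) {m n : Mt} {l : L5} (hn : Al n)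
    (e : θ n * (θ m * ψ l) = θ m * ψ l * θ n) : l.1 * n * l.1ᵀ = n := by
  refine h.inj' (hn.act _) hn ?_
  rw [mul_assoc, h.act' l hn, ← mul_assoc, ← mul_assoc, h.comm n] at e
  exact (mul_left_cancel (mul_right_cancel e)).symm

theorem cent (h : Fr θ ψ) (hQ : LXQ θ ψ) (hα : Ind θ ψ α) : Cs (QQ θ ψ ⊓ AA θ) = AA θ := by
  have hle : AA θ ≤ Cs (QQ θ ψ ⊓ AA θ) := fun a ha => mem_Cs.2 fun u hu => by
    obtain ⟨m, -, rfl⟩ := h.mem_AA.1 ha
    obtain ⟨n, -, rfl⟩ := h.mem_AA.1 hu.2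
    exact h.comm _ _
  haveI : Fact (Nat.Prime 2) := ⟨Nat.prime_two⟩
  haveI := (two h hQ hα).isNilpotent
  have h1 := normalizerCondition_iff_only_full_group_self_normalizing.1
    (Group.normalizerCondition_of_isNilpotent (G := Cs (QQ θ ψ ⊓ AA θ)))
    ((AA θ).subgroupOf (Cs (QQ θ ψ ⊓ AA θ))) (by
      refine le_antisymm (fun c hc => ?_) le_normalizer
      rw [← subgroupOf_normalizer_eq hle, mem_subgroupOf] at hc
      obtain ⟨m, l, hm, e⟩ := (h.nrm _).1 hc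
      have : l = 1 := faith fun i j hi => fix h (m := m) (al_wm i j) (by
        rw [← e]
        exact mem_Cs.1 c.2 _ ⟨h.θ_mem_QQ (u7_wm i j hi), h.θ_mem (al_wm i j)⟩)
      rw [mem_subgroupOf, e, this, map_one, mul_one]
      exact h.θ_mem hm)
  exact le_antisymm (subgroupOf_eq_top.1 h1) hle

theorem key (h : Fr θ ψ) (hα : Ind θ ψ α) {g : C1 (zz θ)} {m : Mt} {l : L5} (hm : Al m)
    (hg : (g : G) = θ m * ψ l) (v : V12) : ∃ n, Al n ∧ (n = m ∨ n = wm 0 1 + m) ∧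
      m + l.1 * mU v * l.1ᵀ = mU (α g v) + mR (α g v) * n * (mR (α g v))ᵀ := by
  have k : ∀ n, Al n → θ m * ψ l * qe θ ψ v = qe θ ψ (α g v) * (θ n * ψ l) →
      m + l.1 * mU v * l.1ᵀ = mU (α g v) + mR (α g v) * n * (mR (α g v))ᵀ := fun n hn e => by
    rw [qe, qe, h.el_mul _ _ (al_mU v), h.el_mul _ _ hn] at e
    exact (h.el_inj (hm.add ((al_mU v).act _)) ((al_mU _).add (hn.act _)) e).1
  rcases hα g v with e | e
  · exact ⟨m, hm, Or.inl rfl, k m hm (by rw [← hg]; exact mul_inv_eq_iff_eq_mul.1 e)⟩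
  · refine ⟨_, (al_wm 0 1).add hm, Or.inr rfl, k _ ((al_wm 0 1).add hm) ?_⟩
    rw [h.add, mul_assoc (θ (wm 0 1)), ← hg, ← mul_assoc]
    exact mul_inv_eq_iff_eq_mul.1 e

theorem wm_zero (a b : Fin 5) (hb : 2 ≤ b.val) : wm 0 1 a b = 0 := by
  fin_cases a <;> fin_cases b <;> first | rfl | simp at hb

theorem ent04 (v : V12) {n : Mt} (hn : Al n) : (mR v * n * (mR v)ᵀ) 0 4 =
    n 0 4 + v.1.2.2 * n 2 4 + v.1.2.1.2.2.1 * n 3 4 := by
  simp only [mul_apply, transpose_apply, Fin.sum_univ_five]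
  simp [mR, hn.2 4]

theorem keyU (h : Fr θ ψ) (hα : Ind θ ψ α) {g : C1 (zz θ)} {m : Mt} {l : L5} (hm : Al m)
    (hg : (g : G) = θ m * ψ l) {v : V12} (hv : InU (α g v)) (a b : Fin 5) (hb : 2 ≤ b.val) :
    (l.1 * mU v * l.1ᵀ) a b = mU (α g v) a b := by
  obtain ⟨n, -, h1, h2⟩ := key h hα hm hg v
  rw [mR_one hv, Matrix.one_mul, transpose_one, Matrix.mul_one] at h2
  have h3 := congrFun (congrFun h2 a) b
  have h4 : n a b = m a b := by
    rcases h1 with rfl | rfl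
    · rfl
    · have : wm 0 1 a b = 0 := wm_zero a b hb
      rw [Matrix.add_apply, this, zero_add]
  rw [Matrix.add_apply, Matrix.add_apply, h4, add_comm] at h3
  exact add_right_cancel h3

theorem ep_zero (v : V12) : ep 0 v = v := by
  simp [ep, ep6, bw, qw]

theorem pp_iff {v : V12} : PP v ↔ bf v s0 = 0 ∧ bf v s1 = 0 := by
  simp [PP, bf, b6, bw, s0, s1, and_comm]

/-- The elements acting as Siegel transformations. -/
def HE (α : C1 (zz θ) →* Equiv.Perm V12) : Subgroup (C1 (zz θ)) :=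
  CA.mkSub (fun x => ∃ w, ∀ v, α x v = ep w v) ⟨0, fun v => by rw [map_one, ep_zero]; rfl⟩
    (by
      rintro x y ⟨w, hw⟩ ⟨w', hw'⟩
      exact ⟨w + w', fun v => by rw [map_mul, Equiv.Perm.mul_apply, hw', hw, ep_add]⟩)

theorem HE_eq_1 : type_of% @HE.eq_1 := @HE.eq_1

theorem HE_Q (h : Fr θ ψ) (hα : Ind θ ψ α) {x : G} (hx : x ∈ QQ θ ψ) :
    x ∈ (HE α).map (C1 (zz θ)).subtype :=
  ⟨⟨x, QQ_le h hx⟩, ⟨0, fun v => by rw [Ind.of_Q h hα hx, ep_zero]; rfl⟩, rfl⟩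

theorem w_C (h : Fr θ ψ) (i j : Fin 5) : ww θ i j ∈ C1 (zz θ) := mem_C1.2 (h.comm _ _)

theorem t_C (h : Fr θ ψ) {i j : Fin 5} (e : (tv i j).1 * wm 0 1 * (tv i j).1ᵀ = wm 0 1) :
    tt ψ i j ∈ C1 (zz θ) := mem_C1.2 (by rw [tt, zz, ww, h.act' _ (al_wm 0 1), e])

end GK

open GK

theorem Ind.normU (h : Fr θ ψ) (hQ : LXQ θ ψ) (hα : Ind θ ψ α) (g : C1 (zz θ))
    (e : ∀ v, InU v → InU (α g v)) : (g : G) ∈ Ns (AA θ) := by
  rw [← cent h hQ hα]
  refine normalizer_le_normalizer_centralizer _ (mem_normalizer_fintype fun x hx => ?_)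
  obtain ⟨v, hv, hx⟩ := memU h hx
  have h1 : (g : G) * qe θ ψ v * (g : G)⁻¹ ∈ QQ θ ψ ⊓ AA θ := by
    rcases hα g v with k | k <;> rw [k]
    exacts [qe_memU h (e v hv), mul_mem (qe_memU h (e v hv)) (z_U h)]
  rcases hx with rfl | rfl
  · exact h1
  · have e3 : (g : G) * (qe θ ψ v * zz θ) * (g : G)⁻¹ =
        g * qe θ ψ v * (g : G)⁻¹ * (g * zz θ * (g : G)⁻¹) := by group
    rw [e3, cz]
    exact mul_mem h1 (z_U h)

theorem Ind.ker (h : Fr θ ψ) (hQ : LXQ θ ψ) (hα : Ind θ ψ α) (g : C1 (zz θ)) (e0 : α g s0 = s0)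
    (e1 : α g s1 = s1) (e : ∀ v, PP v → pw (α g v) = pw v) : ∃ w, ∀ v, α g v = ep w v := by
  have hP : ∀ v, PP v → PP (α g v) := fun v hv => by
    rw [pp_iff] at hv ⊢
    rw [← Ind.bf h hα g, ← Ind.bf h hα g v s1, e0, e1] at hv
    exact hv
  have hU : ∀ v, InU v → InU (α g v) := fun v hv => by
    have h1 : PP v := ⟨hv.1.2, hv.2.2⟩
    have h2 := e v h1
    have h3 := hP v h1
    exact ⟨⟨(congrArg (fun x => x.1.2.2) h2).trans hv.1.1, h3.1⟩,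
      (congrArg (fun x => x.2.2.2) h2).trans hv.2.1, h3.2⟩
  obtain ⟨m, l, hm, hg⟩ := (h.nrm _).1 (Ind.normU h hQ hα g hU)
  have k0 : l.1 * wm 0 1 * l.1ᵀ = wm 0 1 :=
    fix h (m := m) (al_wm 0 1) (by rw [← hg]; exact (mem_C1.1 g.2).symm)
  have k1 : l.1 * wm 1 0 * l.1ᵀ = wm 1 0 := by rw [wm_symm]; exact k0
  have a20 : l.1 2 0 = 0 := off (by decide) k0 (by decide) (by decide)
  have a30 : l.1 3 0 = 0 := off (by decide) k0 (by decide) (by decide)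
  have a40 : l.1 4 0 = 0 := off (by decide) k0 (by decide) (by decide)
  have a21 : l.1 2 1 = 0 := off (by decide) k1 (by decide) (by decide)
  have a31 : l.1 3 1 = 0 := off (by decide) k1 (by decide) (by decide)
  have a41 : l.1 4 1 = 0 := off (by decide) k1 (by decide) (by decide)
  have K := fun v hv => keyU h hα hm hg (hU v hv)
  have p3 := e ((0, (1, 0, 0, 0), 0), 0) (by decide)
  have p4 := e ((0, (0, 1, 0, 0), 0), 0) (by decide)
  have b1 := K s0 (by decide) 0 2 (by decide)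
  have b2 := K s0 (by decide) 1 2 (by decide)
  have b3 := K s0 (by decide) 0 3 (by decide)
  have b4 := K s0 (by decide) 0 4 (by decide)
  have b5 := K s1 (by decide) 1 2 (by decide)
  have b6 := K s1 (by decide) 0 2 (by decide)
  have b7 := (K ((0, (1, 0, 0, 0), 0), 0) (by decide) 0 3 (by decide)).trans
    (congrArg (fun x => x.1.1) p3)
  have b8 := (K ((0, (1, 0, 0, 0), 0), 0) (by decide) 0 4 (by decide)).trans
    (congrArg (fun x => x.1.2.1) p3)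
  have b9 := (K ((0, (0, 1, 0, 0), 0), 0) (by decide) 0 4 (by decide)).trans
    (congrArg (fun x => x.1.2.1) p4)
  have b10 := (K ((0, (0, 1, 0, 0), 0), 0) (by decide) 0 3 (by decide)).trans
    (congrArg (fun x => x.1.1) p4)
  rw [e0] at b1 b2 b3 b4
  rw [e1] at b5 b6
  simp [mU, s0, s1, pw, mul_apply, Fin.sum_univ_five, a20, a30, a40, a21, a31, a41]
    at b1 b2 b3 b4 b5 b6 b7 b8 b9 b10
  obtain ⟨a00, a22⟩ := b1
  simp [a00, a22] at b2 b3 b4 b5 b6 b7 b8 b9 b10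
  have hl : Up l := fun i j hij => by
    fin_cases i <;> fin_cases j <;> first | exact absurd hij (by decide) | assumption
  have c34 : m 3 4 = 0 := by
    obtain ⟨n, hn, h1, h2⟩ := key h hα hm hg ((0, (0, 0, 1, 0), 0), 0)
    have p := e ((0, (0, 0, 1, 0), 0), 0) (by decide)
    have q := (hP ((0, (0, 0, 1, 0), 0), 0) (by decide)).1
    have p1 := congrArg (fun x => x.1.2.1) p
    have p2 := congrArg (fun x => x.1.2.2.1) p
    have h3 := congrFun (congrFun h2 0) 4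
    have h4 : n 0 4 = m 0 4 ∧ n 3 4 = m 3 4 := by
      rcases h1 with rfl | rfl
      · exact ⟨rfl, rfl⟩
      · exact ⟨zero_add _, zero_add _⟩
    simp only [pw] at p1 p2
    have h5 : mU ((0, (0, 0, 1, 0), 0), 0) = 0 := by decide +kernel
    rw [h5, Matrix.mul_zero, Matrix.zero_mul, add_zero, Matrix.add_apply, ent04 _ hn, q, p2, h4.1,
      h4.2] at h3
    simpa [mU, p1] using h3
  have hH : (g : G) ∈ (HE α).map (C1 (zz θ)).subtype := by
    rw [hg]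
    refine mul_mem (h.θ_mem_of hm fun i j hij h1 => ?_) (Fr.ψ_mem_of hl fun i j hij h1 => ?_)
    · obtain hi | ⟨rfl, rfl⟩ | ⟨rfl, rfl⟩ | ⟨rfl, rfl⟩ :
          i.val < 2 ∨ (i = 2 ∧ j = 3) ∨ (i = 2 ∧ j = 4) ∨ (i = 3 ∧ j = 4) := by
        clear h1; revert i j; decide
      · exact HE_Q h hα (h.θ_mem_QQ (u7_wm i j hi))
      · exact ⟨⟨_, w_C h 2 3⟩, ⟨_, Ind.ww23 h hα rfl⟩, rfl⟩
      · exact ⟨⟨_, w_C h 2 4⟩, ⟨_, Ind.ww24 h hα rfl⟩, rfl⟩
      · exact absurd c34 h1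
    · obtain ⟨hi, hj⟩ | ⟨rfl, rfl⟩ | ⟨rfl, rfl⟩ | ⟨rfl, rfl⟩ | ⟨rfl, rfl⟩ :
          (i.val < 2 ∧ 2 ≤ j.val) ∨ (i = 2 ∧ j = 3) ∨ (i = 2 ∧ j = 4) ∨ (i = 3 ∧ j = 4) ∨
            (i = 0 ∧ j = 1) := by
        clear h1; revert i j; decide
      · exact HE_Q h hα (Fr.ψ_mem_QQ (rr_tv i j hi hj))
      · exact ⟨⟨_, t_C h (by decide +kernel)⟩, ⟨_, Ind.tt23 h hα rfl⟩, rfl⟩
      · exact ⟨⟨_, t_C h (by decide +kernel)⟩, ⟨_, Ind.tt24 h hα rfl⟩, rfl⟩
      · exact absurd b10 h1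
      · exact absurd b6 h1
  obtain ⟨x, hx, e⟩ := hH
  obtain rfl : x = g := Subtype.ext e
  exact hx

end Cfsg.Lib.R10.GN
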