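import Cfsg.Agent.R10.GF

/-! The stabiliser of `e 0 ⊗ e 2` in the linear model. -/

set_option autoImplicit false
set_option maxRecDepth 100000
set_option synthInstance.maxSize 4096
set_option synthInstance.maxHeartbeats 400000

namespace Cfsg.Lib.R10.GN

universe u

variable {Γ : Type u} [Group Γ] {α : Γ →* Equiv.Perm V12} {M H : Subgroup Γ}

theorem k2 (a : K2) : a = 0 ∨ a = 1 := by revert a; decide

theorem w4_add (u : W4) : u + u = 0 := by
  obtain ⟨a, b, c, d⟩ := u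
  simp [CharTwo.add_self_eq_zero]

theorem s6_add (u : S6) : u + u = 0 := by
  obtain ⟨a, b, c⟩ := u
  simp [CharTwo.add_self_eq_zero, w4_add]

theorem v_add (u : V12) : u + u = 0 := by
  obtain ⟨a, b⟩ := u
  simp [s6_add]

theorem ep6_lin (w : W4) (u v : S6) : ep6 w (u + v) = ep6 w u + ep6 w v := by
  obtain ⟨a, b, f⟩ := u
  obtain ⟨a', b', f'⟩ := v
  simp only [ep6, bw, Prod.mk_add_mk, Prod.mk.injEq, add_smul, Prod.fst_add, Prod.snd_add]
  refine ⟨by ring, by abel, trivial⟩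

theorem ep6_ep6 (w w' : W4) (u : S6) : ep6 w (ep6 w' u) = ep6 (w + w') u := by
  obtain ⟨a, ⟨b, c, d, e⟩, f⟩ := u
  obtain ⟨x, y, z, t⟩ := w
  obtain ⟨x', y', z', t'⟩ := w'
  simp only [ep6, bw, qw, Prod.mk_add_mk, Prod.mk.injEq, Prod.smul_mk, smul_eq_mul]
  refine ⟨by ring, ⟨by ring, by ring, by ring, by ring⟩, trivial⟩

theorem ep6_zero (u : S6) : ep6 0 u = u := by
  obtain ⟨a, ⟨b, c, d, e⟩, f⟩ := u
  simp [ep6, bw, qw]

theorem ep_ep (w w' : W4) (v : V12) : ep w (ep w' v) = ep (w + w') v := by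
  simp only [ep, ep6_ep6]

theorem ep_zero (v : V12) : ep 0 v = v := by simp only [ep, ep6_zero]

theorem ep_inv (w : W4) (v : V12) : ep w (ep w v) = v := by rw [ep_ep, w4_add, ep_zero]

theorem ep_lin (w : W4) (u v : V12) : ep w (u + v) = ep w u + ep w v := by
  simp only [ep, Prod.fst_add, Prod.snd_add, ep6_lin, Prod.mk_add_mk]

theorem ep_ta (w : W4) (v : V12) : ep w (ta v) = ta (ep w v) := by simp only [ep, ta, ep6_lin]

theorem ep_sw (w : W4) (v : V12) : ep w (sw v) = sw (ep w v) := rfl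

theorem ep_rh (w : W4) (v : V12) : ep w (rh v) = rh (ep w v) := by simp only [ep, rh, ep6_lin]

theorem ta_ta (v : V12) : ta (ta v) = v := by simp only [ta, add_assoc, s6_add, add_zero]

theorem rh_eq (v : V12) : rh v = sw (ta v) := by simp only [rh, sw, ta]

theorem rh3 (v : V12) : rh (rh (rh v)) = v := by
  obtain ⟨a, b⟩ := v
  simp only [rh, Prod.mk.injEq]
  constructor
  · rw [add_comm a b, ← add_assoc, s6_add, zero_add]
  · rw [add_comm b (a + b), add_assoc a b b, s6_add, add_zero, add_comm a b, add_assoc, s6_add, add_zero]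

theorem rh_sum (v : V12) : rh (rh v) + rh v = v := by
  obtain ⟨a, b⟩ := v
  simp only [rh, Prod.mk_add_mk, Prod.mk.injEq]
  constructor
  · rw [add_assoc, s6_add, add_zero]
  · rw [add_assoc, s6_add, add_zero]

/-- Not free. -/
def NF (r : V12 → V12) : Prop := ∃ v, r v = v ∧ ∀ u, r u + u ≠ v

theorem NF_eq_1 : type_of% @NF.eq_1 := @NF.eq_1

theorem nf_aux : ∀ a b c d : K2, ∃ x y z t : K2, bw (x, y, z, t) (a, b, c, d) = 0 ∧
    ((x, y, z, t) : W4) ≠ 0 ∧ ((x, y, z, t) : W4) ≠ (a, b, c, d) := by decide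

theorem nf_ep (w : W4) : NF (ep w) := by
  obtain ⟨a, b, c, d⟩ := w
  obtain ⟨x, y, z, t, h1, h2, h3⟩ := nf_aux a b c d
  refine ⟨((0, (x, y, z, t), 0), 0), ?_, fun u e => ?_⟩
  · simp only [ep, ep6, h1]
    simp [bw]
  · have e' := congrArg (fun v : V12 => v.1.2.1) e
    simp only [ep, ep6, Prod.fst_add, Prod.snd_add] at e'
    rw [add_right_comm, w4_add, zero_add] at e'
    rcases k2 u.1.2.2 with h | h <;> rw [h] at e'
    · rw [zero_smul] at e'; exact h2 e'.symm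
    · rw [one_smul] at e'; exact h3 e'.symm

theorem nf_ta (w : W4) : ¬ NF fun v => ta (ep w v) := by
  rintro ⟨⟨a, b⟩, h1, h2⟩
  refine h2 (0, ep6 w a) ?_
  simp only [ta, ep, Prod.mk.injEq] at h1
  have z : ep6 w 0 = 0 := by simp [ep6, bw]
  simp only [ta, ep, z, ep6_ep6, w4_add, ep6_zero, Prod.mk_add_mk, zero_add, add_zero, Prod.mk.injEq,
    true_and]
  have e := h1.1
  rw [h1.2] at e
  calc a + ep6 w a = ep6 w a + b + ep6 w a := by rw [e]
    _ = b := by rw [add_right_comm, s6_add, zero_add]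

theorem mul_ap (g h : Γ) (v : V12) : α (g * h) v = α g (α h v) := by
  rw [map_mul, Equiv.Perm.mul_apply]

theorem inv_ap (g : Γ) (v : V12) : α g⁻¹ (α g v) = v := by
  rw [← mul_ap, inv_mul_cancel, map_one, Equiv.Perm.one_apply]

theorem ap_inv (g : Γ) (v : V12) : α g (α g⁻¹ v) = v := by
  rw [← mul_ap, mul_inv_cancel, map_one, Equiv.Perm.one_apply]

theorem inv_fix {g : Γ} {v : V12} (e : α g v = v) : α g⁻¹ v = v := by
  conv_lhs => rw [← e]
  exact inv_ap g v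

theorem LM0.zero (L : LM0 α M) (g : Γ) : α g 0 = 0 := by
  have := L.add g 0 0
  rw [add_zero] at this
  exact left_eq_add.1 this

theorem LM0.ne (L : LM0 α M) (g : Γ) {v : V12} (h : v ≠ 0) : α g v ≠ 0 := fun e =>
  h ((α g).injective (e.trans (L.zero g).symm))

theorem LM0.nf (L : LM0 α M) {g : Γ} {r r' : V12 → V12} (h : ∀ v, α g (r v) = r' (α g v)) :
    NF r ↔ NF r' := by
  constructor
  · rintro ⟨v, h1, h2⟩
    refine ⟨α g v, by rw [← h, h1], fun u e => h2 (α g⁻¹ u) ((α g).injective ?_)⟩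
    rw [L.add, h, ap_inv, e]
  · rintro ⟨v, h1, h2⟩
    refine ⟨α g⁻¹ v, (α g).injective (by rw [h, ap_inv, h1]), fun u e => h2 (α g u) ?_⟩
    rw [← h, ← L.add, e, ap_inv]

theorem LM0.nE (L : LM0 α M) {g : Γ} (e : α g s0 = s0) (w : W4) :
    ∃ w', ∀ v, α g (ep w v) = ep w' (α g v) := by
  obtain ⟨w', h | h⟩ := L.rs g e w
  · exact ⟨w', h⟩
  · exact (nf_ta w' ((L.nf (r' := fun v => ta (ep w' v)) h).1 (nf_ep w))).elim

theorem LM0.nT (L : LM0 α M) {g : Γ} (e : α g s0 = s0) :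
    ∃ w', ∀ v, α g (ta v) = ta (ep w' (α g v)) := by
  obtain ⟨w', h | h⟩ := L.rt g e
  · refine (nf_ta 0 ((L.nf (g := g) (r := fun v => ta (ep 0 v)) (fun v => ?_)).2 (nf_ep w'))).elim
    rw [ep_zero]
    exact h v
  · exact ⟨w', h⟩

theorem fixE : ∀ a b c d e f : K2, ep6 (1, 0, 0, 0) (a, (b, c, d, e), f) = (a, (b, c, d, e), f) →
    ep6 (0, 1, 0, 0) (a, (b, c, d, e), f) = (a, (b, c, d, e), f) →
    ep6 (0, 0, 1, 0) (a, (b, c, d, e), f) = (a, (b, c, d, e), f) →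
    ep6 (0, 0, 0, 1) (a, (b, c, d, e), f) = (a, (b, c, d, e), f) →
    (((b, c, d, e), f) : W4 × K2) = 0 := by decide

theorem inP_iff (v : V12) : InP v ↔ ∀ w, ep w v = v := by
  obtain ⟨⟨a, ⟨b, c, d, e⟩, f⟩, ⟨a', ⟨b', c', d', e'⟩, f'⟩⟩ := v
  constructor
  · rintro ⟨h1, h2⟩ w
    simp only [Prod.mk_eq_zero] at h1 h2
    simp [ep, ep6, bw, h1, h2]
  · intro h
    have h1 := fun w => congrArg Prod.fst (h w)
    have h2 := fun w => congrArg Prod.snd (h w)
    exact ⟨fixE _ _ _ _ _ _ (h1 _) (h1 _) (h1 _) (h1 _), fixE _ _ _ _ _ _ (h2 _) (h2 _) (h2 _) (h2 _)⟩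

theorem inP_cases {v : V12} (h : InP v) : v = 0 ∨ v = s0 ∨ v = s1 ∨ v = s0 + s1 := by
  obtain ⟨⟨a, b⟩, ⟨c, d⟩⟩ := v
  obtain ⟨h1, h2⟩ := h
  simp only at h1 h2
  subst h1 h2
  revert a c
  decide

theorem inP0 : InP s0 := by decide
theorem inP1 : InP s1 := by decide
theorem inP2 : InP (s0 + s1) := by decide
theorem s0_ne : s0 ≠ 0 := by decide
theorem s1_ne : s1 ≠ 0 := by decide
theorem s2_ne : s0 + s1 ≠ 0 := by decide

theorem LM0.nP (L : LM0 α M) {g : Γ} (e : α g s0 = s0) {v : V12} (h : InP v) : InP (α g v) := by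
  rw [inP_iff] at h ⊢
  intro w
  obtain ⟨w', h'⟩ := L.nE (inv_fix e) w
  apply (α g⁻¹).injective
  rw [h', inv_ap, h]

theorem LM0.s1c (L : LM0 α M) {g : Γ} (e : α g s0 = s0) : α g s1 = s1 ∨ α g s1 = s0 + s1 := by
  rcases inP_cases (L.nP e inP1) with h | h | h | h
  · exact (L.ne g s1_ne h).elim
  · exact absurd ((α g).injective (h.trans e.symm)) (by decide)
  · exact Or.inl h
  · exact Or.inr h

theorem ep_ta' (a b : W4) (v : V12) :
    ep a (sw (ta (sw (ep b v)))) = sw (ta (sw (ep (a + b) v))) := by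
  rw [ep_sw, ep_ta, ep_sw, ep_ep]

theorem LM0.cen (L : LM0 α M) {g : Γ} (e0 : α g s0 = s0) (e1 : α g s1 = s1) (v : V12) :
    α g (rh v) = rh (α g v) := by
  obtain ⟨s, -, hs⟩ := L.sM
  obtain ⟨a, ha⟩ := L.nT e0
  obtain ⟨b, hb⟩ := L.nT (g := s * g * s) (by rw [mul_ap, mul_ap, hs, hs]; exact congrArg sw e1)
  have hb' : ∀ v, α g (sw (ta (sw v))) = sw (ta (sw (ep b (α g v)))) := fun v => by
    have := congrArg sw (hb (sw v))
    simp only [mul_ap, hs] at this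
    exact this
  have r2 : ∀ v, rh (rh v) = ta (sw v) := fun v => by
    simp only [rh, ta, sw, Prod.mk.injEq, add_comm v.1 v.2, true_and]
    rw [← add_assoc, s6_add, zero_add]
  have r1 : ∀ v, rh v = ta (sw (ta (sw v))) := fun v => by rw [← r2, ← r2, rh3]
  have k : ∀ v, α g (rh v) = rh (ep (a + b) (α g v)) := fun v => by
    rw [r1, ha, hb', ep_ta', r1]
  have z : ∀ v, ep (a + b) (α g v) = α g v := fun v => by
    have := k (rh (rh v))
    rw [rh3, k, k] at this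
    simp only [ep_rh, rh3, ep_inv] at this
    exact this.symm
  rw [k, z]

/-- `M` is transitive on the nonzero vectors of `p`, by maps commuting with `E`. -/
theorem LM0.trP (L : LM0 α M) {y : V12} (hy : InP y) (h0 : y ≠ 0) : ∃ m ∈ M, α m s0 = y := by
  obtain ⟨s, hm, hs⟩ := L.sM
  obtain ⟨t, ht, ht'⟩ := L.tM
  rcases inP_cases hy with h | h | h | h
  · exact (h0 h).elim
  · exact ⟨1, M.one_mem, by rw [map_one, h]; rfl⟩
  · exact ⟨s, hm, by rw [hs, h]; rfl⟩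
  · exact ⟨t * s, M.mul_mem ht hm, by rw [mul_ap, hs, ht', h]; decide⟩

theorem LM0.trP' (L : LM0 α M) {y : V12} (hy : InP y) (h0 : y ≠ 0) :
    ∃ m, α m s0 = y ∧ ∀ v, InP v → InP (α m⁻¹ v) := by
  obtain ⟨s, -, hs⟩ := L.sM
  obtain ⟨t, -, ht'⟩ := L.tM
  have hs' : ∀ v, α s⁻¹ v = sw v := fun v => (α s).injective (by rw [ap_inv, hs]; rfl)
  have ht'' : ∀ v, α t⁻¹ v = ta v := fun v => (α t).injective (by rw [ap_inv, ht', ta_ta])
  rcases inP_cases hy with h | h | h | h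
  · exact (h0 h).elim
  · exact ⟨1, by rw [map_one, h]; rfl, fun v hv => by rw [inv_one, map_one]; exact hv⟩
  · exact ⟨s, by rw [hs, h]; rfl, fun v hv => by rw [hs']; exact ⟨hv.2, hv.1⟩⟩
  · refine ⟨t * s, by rw [mul_ap, hs, ht', h]; decide, fun v hv => ?_⟩
    rw [mul_inv_rev, mul_ap, hs', ht'']
    rcases inP_cases hv with h | h | h | h <;> rw [h] <;> decide

theorem LM0.fix0 (L : LM0 α M) {b : Γ} (hb : NF (α b)) (e : α b s0 = s0) : α b s1 = s1 := by
  refine (L.s1c e).resolve_right fun h => ?_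
  obtain ⟨t, -, ht⟩ := L.tM
  have c := L.cen (g := t * b) (by rw [mul_ap, e, ht]; decide) (by rw [mul_ap, h, ht]; decide)
  simp only [mul_ap, ht] at c
  obtain ⟨v, h1, h2⟩ := hb
  refine h2 (rh v) ?_
  have c' := congrArg ta (c v)
  rw [ta_ta, h1] at c'
  rw [c']
  obtain ⟨x, y⟩ := v
  simp only [ta, rh, Prod.mk_add_mk, Prod.mk.injEq]
  constructor
  · rw [add_assoc x y y, s6_add, add_zero, add_right_comm, s6_add, zero_add]
  · rw [add_assoc x y y, s6_add, add_zero, ← add_assoc, s6_add, zero_add]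

theorem LM0.fix (L : LM0 α M) (g : Γ) (w : W4) {y y' : V12} (hy : InP y) (h0 : y ≠ 0) (hy' : InP y')
    (e : ep w (α g y) = α g y) : ep w (α g y') = α g y' := by
  obtain ⟨m, hm, hm'⟩ := L.trP' hy h0
  obtain ⟨x, -, hx⟩ := L.eM w
  have k : ∀ v, α (g * m) (α ((g * m)⁻¹ * x * (g * m)) v) = ep w (α (g * m) v) := fun v => by
    rw [mul_ap _ (g * m), mul_ap (g * m)⁻¹, ap_inv, hx]
  have e0 : α ((g * m)⁻¹ * x * (g * m)) s0 = s0 := (α (g * m)).injective (by rw [k, mul_ap, hm, e])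
  have e1 := L.fix0 ((L.nf k).2 (nf_ep w)) e0
  have e2 : ∀ v, InP v → α ((g * m)⁻¹ * x * (g * m)) v = v := fun v hv => by
    rcases inP_cases hv with h | h | h | h <;> rw [h]
    · exact L.zero _
    · exact e0
    · exact e1
    · rw [L.add, e0, e1]
  have := k (α m⁻¹ y')
  rw [e2 _ (hm' _ hy'), mul_ap, ap_inv] at this
  exact this.symm

section
variable (L : LM0 α M) (hM : M ≤ H) (hC : ∀ g, α g s0 = s0 → α g s1 = s1 → g ∈ H)
include L hM hC

theorem LM0.stab0 {g : Γ} (e : α g s0 = s0) : g ∈ H := by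
  rcases L.s1c e with h | h
  · exact hC g e h
  · obtain ⟨t, ht, ht'⟩ := L.tM
    exact (H.mul_mem_cancel_left (hM ht)).1
      (hC (t * g) (by rw [mul_ap, e, ht']; decide) (by rw [mul_ap, h, ht']; decide))

theorem LM0.stab {g : Γ} {y : V12} (hy : InP y) (h0 : y ≠ 0) (e : InP (α g y)) : g ∈ H := by
  obtain ⟨m, hm, hm'⟩ := L.trP hy h0
  obtain ⟨n, hn, hn'⟩ := L.trP e (L.ne g h0)
  have := L.stab0 hM hC (g := n⁻¹ * (g * m)) (by rw [mul_ap, mul_ap, hm', ← hn', inv_ap])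
  exact (H.mul_mem_cancel_right (hM hm)).1 ((H.mul_mem_cancel_left (H.inv_mem (hM hn))).1 this)

theorem LM0.stabU {g : Γ} (e : InU (α g s0)) : g ∈ H := by
  have key : ∀ u, U3 u → u ≠ 0 → (α g s0 = (u, 0) ∨ α g s0 = (0, u) ∨ α g s0 = (u, u)) → g ∈ H :=
    fun u h1 h2 h3 => by
    obtain ⟨m, hm, m0, m1⟩ := L.uM u h1 h2
    refine (H.mul_mem_cancel_left (H.inv_mem (hM hm))).1 (L.stab hM hC inP0 s0_ne ?_)
    rw [mul_ap]
    rcases h3 with h | h | h <;> rw [h]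
    · rw [← m0, inv_ap]; exact inP0
    · rw [← m1, inv_ap]; exact inP1
    · have : ((u, u) : V12) = α m (s0 + s1) := by rw [L.add, m0, m1]; simp
      rw [this, inv_ap]; exact inP2
  have n := L.ne g s0_ne
  rcases L.fus g e with h | h | h
  · exact key _ e.2 (fun z => n (Prod.ext h z)) (Or.inr (Or.inl (Prod.ext h rfl)))
  · exact key _ e.1 (fun z => n (Prod.ext z h)) (Or.inl (Prod.ext rfl h))
  · exact key _ e.1 (fun z => n (Prod.ext z (h.symm.trans z))) (Or.inr (Or.inr (Prod.ext rfl h.symm)))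

end

theorem ep_pp {w : W4} {v : V12} (h : PP v) : ep w v = v ↔ Pe w (pw v) := by
  obtain ⟨⟨a, b, c⟩, ⟨a', b', c'⟩⟩ := v
  obtain ⟨h1, h2⟩ := h
  simp only at h1 h2
  subst h1 h2
  simp [ep, ep6, Pe, pw]

theorem pp_of_ep {w : W4} (hw : w ≠ 0) {v : V12} (h : ep w v = v) : PP v := by
  have k : ∀ u : S6, ep6 w u = u → u.2.2 = 0 := fun u e => by
    have e' := congrArg (fun x : S6 => x.2.1) e
    simp only [ep6, add_eq_left] at e'
    refine (k2 u.2.2).resolve_right fun z => hw ?_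
    rwa [z, one_smul] at e'
  exact ⟨k _ (congrArg Prod.fst h), k _ (congrArg Prod.snd h)⟩

end Cfsg.Lib.R10.GN
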