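import Cfsg.Agent.R10.GF1
import Cfsg.Agent.R10.GL1

/-! The stabiliser of `s0` and `s1` acts on the section as `1 ⊗ γ`. -/

set_option autoImplicit false

namespace Cfsg.Lib.R10.GN

universe u

variable {Γ : Type u} [Group Γ] {α : Γ →* Equiv.Perm V12} {M H : Subgroup Γ}

namespace GL2

theorem smul (L : LM0 α M) (g : Γ) (c : K2) (v : V12) : α g (c • v) = c • α g v := by
  have h0 : α g 0 = 0 := left_eq_add.1 ((congrArg _ (add_zero _).symm).trans (L.add g 0 0))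
  rcases (by decide : ∀ c : K2, c = 0 ∨ c = 1) c with rfl | rfl
  · rw [zero_smul, zero_smul, h0]
  · rw [one_smul, one_smul]

theorem bf_pp {u v : V12} (hu : PP u) (hv : PP v) : GN.bf u v = b2 (pw u) (pw v) := by
  simp [GN.bf, b6, b2, pw, hu.1, hu.2, hv.1, hv.2]

theorem inv_fix {g : Γ} {s : V12} (e : α g s = s) : α g⁻¹ s = s := by
  rw [map_inv, Equiv.Perm.inv_eq_iff_eq, e]

end GL2

open GL2

theorem LM0.pp (L : LM0 α M) (g : Γ) (v : V12) :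
    PP (α g v) ↔ GN.bf v (α g⁻¹ s0) = 0 ∧ GN.bf v (α g⁻¹ s1) = 0 := by
  have k : ∀ s, GN.bf v (α g⁻¹ s) = GN.bf (α g v) s := fun s => by
    rw [← L.bf g, ← Equiv.Perm.mul_apply (α g) (α g⁻¹), ← map_mul, mul_inv_cancel, map_one,
      Equiv.Perm.one_apply]
  rw [k, k]
  simp [GN.bf, b6, bw, s0, s1, PP, and_comm]

theorem LM.gam (L : LM α M) {g : Γ} (e0 : α g s0 = s0) (e1 : α g s1 = s1) :
    ∃ γ ∈ O4L, ∀ v, PP v → PP (α g v) ∧ pw (α g v) = l2 γ (pw v) := by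
  have hp : ∀ v, PP v → PP (α g v) := fun v hv => by
    rw [L.toLM0.pp, inv_fix e0, inv_fix e1]
    simp [GN.bf, b6, bw, s0, s1, hv.1, hv.2]
  obtain ⟨w, hw⟩ := L.toLM0.nT e0
  obtain ⟨γ, hγ⟩ : ∃ γ : W4 → W4, ∀ u, γ u = (pw (α g ((0, u, 0), 0))).1 := ⟨_, fun _ => rfl⟩
  have h1 : ∀ u, pw (α g ((0, u, 0), 0)) = (γ u, 0) := fun u => by
    have k := hw ((0, u, 0), 0)
    have k1 := hp ((0, u, 0), 0) ⟨rfl, rfl⟩
    rw [show ta ((0, u, 0), 0) = ((0, u, 0), 0) by simp [ta]] at k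
    refine Prod.ext (hγ u).symm ?_
    simpa [ta, ep, ep6, k1.1, k1.2, pw] using congrArg (fun y : V12 => y.1.2.1) k
  have h2 : ∀ u, pw (α g (0, (0, u, 0))) = (0, γ u) := fun u => by
    have k := L.toLM0.cen e0 e1 ((0, u, 0), 0)
    rw [show rh ((0, u, 0), 0) = (0, (0, u, 0)) by simp [rh]] at k
    have k1 := Prod.ext_iff.1 (h1 u)
    simp only [pw] at k1
    simp [k, pw, rh, k1.1, k1.2]
  have h3 : ∀ a b, bw (γ a) (γ b) = bw a b := fun a b => by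
    have k := L.bf g ((0, a, 0), 0) (0, (0, b, 0))
    rw [bf_pp (hp _ ⟨rfl, rfl⟩) (hp _ ⟨rfl, rfl⟩), h1, h2, bf_pp ⟨rfl, rfl⟩ ⟨rfl, rfl⟩] at k
    simpa [b2, pw, bw] using k
  have h4 : ∀ u, qw u = 0 → qw (γ u) = 0 := fun u hu => hγ u ▸ L.orth g e0 e1 u hu
  have h5 : ∀ u, lin (γ (1, 0, 0, 0), γ (0, 1, 0, 0), γ (0, 0, 1, 0), γ (0, 0, 0, 1)) u = γ u :=
    fun u => by
      have k : (((0, u, 0), 0) : V12) = u.1 • (((0, (1, 0, 0, 0), 0), 0) : V12) +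
          u.2.1 • (((0, (0, 1, 0, 0), 0), 0) : V12) + u.2.2.1 • (((0, (0, 0, 1, 0), 0), 0) : V12) +
          u.2.2.2 • (((0, (0, 0, 0, 1), 0), 0) : V12) := by simp
      rw [hγ u, k, L.add, L.add, L.add, smul L.toLM0, smul L.toLM0, smul L.toLM0, smul L.toLM0]
      simp only [lin, hγ]
      rfl
  refine ⟨_, f_mem _ (h4 (1, 0, 0, 0) (by decide)) _ (h4 (0, 1, 0, 0) (by decide))
    ((h3 _ _).trans (by decide)) _ (h4 (0, 0, 1, 0) (by decide)) ((h3 _ _).trans (by decide))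
    ((h3 _ _).trans (by decide)) _ (h4 (0, 0, 0, 1) (by decide)) ((h3 _ _).trans (by decide))
    ((h3 _ _).trans (by decide)) ((h3 _ _).trans (by decide)), fun v hv => ⟨hp v hv, ?_⟩⟩
  have k : v = ((0, v.1.2.1, 0), 0) + (0, (0, v.2.2.1, 0)) + v.1.1 • s0 + v.2.1 • s1 := by
    obtain ⟨⟨a, b, c⟩, a', b', c'⟩ := v
    obtain ⟨rfl, rfl⟩ : c = 0 ∧ c' = 0 := hv
    simp [s0, s1]
  have k1 := Prod.ext_iff.1 (h1 v.1.2.1)
  have k2 := Prod.ext_iff.1 (h2 v.2.2.1)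
  simp only [pw] at k1 k2
  rw [l2, h5, h5]
  conv_lhs => rw [k, L.add, L.add, L.add, smul L.toLM0, smul L.toLM0, e0, e1]
  simp [pw, s0, s1, k1.1, k1.2, k2.1, k2.2]

end Cfsg.Lib.R10.GN
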