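import Cfsg.Agent.R10.GF1
import Cfsg.Agent.R10.GF2
import Cfsg.Agent.R10.GL2

/-! Generation of `C(z)` in the linear model. -/

set_option autoImplicit false
set_option maxRecDepth 100000
set_option synthInstance.maxSize 4096
set_option synthInstance.maxHeartbeats 400000

namespace Cfsg.Lib.R10.GN

universe u

variable {Γ : Type u} [Group Γ] {α : Γ →* Equiv.Perm V12} {M H : Subgroup Γ}

theorem bf_pp_g {u v : V12} (hu : PP u) (hv : PP v) : bf u v = b2 (pw u) (pw v) := by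
  simp [bf, b6, b2, pw, hu.1, hu.2, hv.1, hv.2]

theorem b2_add_g (x y z : W8) : b2 x (y + z) = b2 x y + b2 x z := by
  simp only [b2, bw, Prod.fst_add, Prod.snd_add]; ring

theorem pw_add_g (u v : V12) : pw (u + v) = pw u + pw v := rfl

theorem w8_add_g (y : W8) : y + y = 0 := Prod.ext (w4_add _) (w4_add _)

theorem r2_r2_g (y : W8) : r2 (r2 y) = y + r2 y := by
  obtain ⟨a, b⟩ := y
  simp only [r2, Prod.mk_add_mk]

theorem inP_pp_g {v : V12} (h : InP v) : PP v :=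
  ⟨congrArg Prod.snd h.1, congrArg Prod.snd h.2⟩

theorem inP_of_g {v : V12} (h : PP v) (e : pw v = 0) : InP v :=
  have e1 : v.1.2.1 = 0 := congrArg Prod.fst e
  have e2 : v.2.2.1 = 0 := congrArg Prod.snd e
  ⟨Prod.ext e1 h.1, Prod.ext e2 h.2⟩

theorem ep_sub_g {w : W4} {v : V12} (h : PP v) : InP (ep w v + v) := by
  obtain ⟨⟨a, b, c⟩, ⟨a', b', c'⟩⟩ := v
  obtain ⟨h1, h2⟩ := h
  simp only at h1 h2
  subst h1 h2
  simp [ep, ep6, InP, w4_add]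

theorem ov_ep_g (w : W4) (v : V12) : Ov w (pw (ep w v + v)) := by
  have k : ∀ u : S6, (ep6 w u + u).2.1 = 0 ∨ (ep6 w u + u).2.1 = w := fun u => by
    simp only [ep6, Prod.fst_add, Prod.snd_add]
    rw [add_right_comm, w4_add, zero_add]
    rcases k2 u.2.2 with h | h <;> simp [h]
  exact ⟨k _, k _⟩

theorem ex_bw_g : ∀ a b c d : K2, ((a, b, c, d) : W4) ≠ 0 → ∃ x y z t : K2,
    bw (x, y, z, t) (a, b, c, d) = 1 := by decide

theorem s0_ep_g {w : W4} (hw : w ≠ 0) : ∃ v, ep w v + v = s0 := by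
  obtain ⟨a, b, c, d⟩ := w
  obtain ⟨x, y, z, t, h⟩ := ex_bw_g a b c d hw
  refine ⟨((0, (x, y, z, t), 0), 0), ?_⟩
  simp only [ep, ep6, h]
  simp [bw, s0, CharTwo.add_self_eq_zero]

theorem l2_i4_g (y : W8) : l2 i4 y = y := by simp [l2, lin, i4]

theorem LM0.rank (L : LM0 α M) {g : Γ} {y y' : V12} (hy : InP y) (h0 : y ≠ 0) (hy' : InP y')
    (e : PP (α g y)) : PP (α g y') := by
  obtain ⟨w, hw, h⟩ := f4 (pw (α g y)).1 (pw (α g y)).2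
  exact pp_of_ep hw (L.fix g w hy h0 hy' ((ep_pp e).2 h))

theorem LM0.ppi (L : LM0 α M) {g : Γ} (e : ∀ y, InP y → PP (α g y)) {y : V12} (hy : InP y) :
    PP (α g⁻¹ y) := by
  rw [L.pp, inv_inv]
  have k : ∀ x, PP x → GN.bf y x = 0 := fun x hx => by
    rw [bf_pp_g (inP_pp_g hy) hx]
    have : pw y = 0 := by simp [pw, hy.1, hy.2]
    simp [this, b2, bw]
  exact ⟨k _ (e _ inP0), k _ (e _ inP1)⟩

/-- The elements `g⁻¹ ε(w) g`. -/
theorem LM.sieg (L : LM α M) {g : Γ} (e : ∀ y, InP y → PP (α g y)) {w : W4}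
    (hw : Pe w (pw (α g s0))) : ∃ b, α b s0 = s0 ∧ α b s1 = s1 ∧ ∀ v, α g (α b v) = ep w (α g v) := by
  obtain ⟨x, -, hx⟩ := L.eM w
  have k : ∀ v, α g (α (g⁻¹ * x * g) v) = ep w (α g v) := fun v => by
    rw [mul_ap, mul_ap, ap_inv, hx]
  have e0 := (ep_pp (e _ inP0)).2 hw
  exact ⟨_, (α g).injective (by rw [k, e0]),
    (α g).injective (by rw [k, L.toLM0.fix g w inP0 s0_ne inP1 e0]), k⟩

theorem LM.nid (L : LM α M) {g b : Γ} {w : W4} (hw : w ≠ 0) (ho : ¬ Ov w (pw (α g s0)))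
    (e0 : α b s0 = s0) (e1 : α b s1 = s1) (k : ∀ v, α g (α b v) = ep w (α g v))
    (h : ∀ v, PP v → pw (α b v) = pw v) : False := by
  obtain ⟨u, hu⟩ := L.ker b e0 e1 h
  have u0 : u ≠ 0 := by
    rintro rfl
    obtain ⟨v, hv⟩ := s0_ep_g hw
    have := k (α g⁻¹ v)
    rw [hu, ep_zero, ap_inv] at this
    rw [← this, v_add] at hv
    exact s0_ne hv.symm
  obtain ⟨v, hv⟩ := s0_ep_g u0
  refine ho ?_
  rw [← hv, L.add, ← hu, k]
  exact ov_ep_g w _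

theorem LM.gd (L : LM α M) {g b : Γ} {w : W4} {γ : M4} (e : ∀ y, InP y → PP (α g⁻¹ y))
    (hr : pw (α g⁻¹ s1) = r2 (pw (α g⁻¹ s0)) ∨ pw (α g⁻¹ s1) = r2 (r2 (pw (α g⁻¹ s0))))
    (hw : w ≠ 0) (ho : ¬ Ov w (pw (α g s0)))
    (e0 : α b s0 = s0) (e1 : α b s1 = s1) (k : ∀ v, α g (α b v) = ep w (α g v))
    (hγ : ∀ v, PP v → PP (α b v) ∧ pw (α b v) = l2 γ (pw v)) : Gd (pw (α g⁻¹ s0)) γ := by
  refine ⟨fun z => L.nid hw ho e0 e1 k fun v hv => by rw [(hγ v hv).2, z, l2_i4_g], ?_, fun x y h1 h2 => ?_⟩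
  · rw [← (hγ _ (e _ inP0)).2]
    congr 1
    apply (α g).injective
    rw [k, ap_inv, (inP_iff _).1 inP0]
  · let v : V12 := ((0, x, 0), (0, y, 0))
    have hv : PP v := ⟨rfl, rfl⟩
    have hp : PP (α g v) := by
      rw [L.toLM0.pp, bf_pp_g hv (e _ inP0), bf_pp_g hv (e _ inP1)]
      refine ⟨h1, ?_⟩
      rcases hr with h | h <;> rw [h]
      · exact h2
      · rw [r2_r2_g, b2_add_g]
        exact (congrArg₂ (· + ·) h1 h2).trans (add_zero 0)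
    have h3 : l2 γ (x, y) + (x, y) = pw (α g⁻¹ (ep w (α g v) + α g v)) := by
      rw [← k, ← L.add, inv_ap, pw_add_g, (hγ v hv).2]
      rfl
    rw [h3]
    rcases inP_cases (ep_sub_g (w := w) hp) with h | h | h | h <;> rw [h]
    · rw [L.toLM0.zero]; exact Or.inl rfl
    · exact Or.inr (Or.inl rfl)
    · exact Or.inr (Or.inr hr)
    · rw [L.add, pw_add_g]
      rcases hr with h | h <;> rw [h]
      · exact Or.inr (Or.inr (Or.inr (r2_r2_g _).symm))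
      · rw [r2_r2_g, ← add_assoc, w8_add_g, zero_add]
        exact Or.inr (Or.inr (Or.inl rfl))

theorem LM0.rot (L : LM0 α M) {g : Γ} (e : ∀ y, InP y → PP (α g y))
    (n : ∀ y, InP y → y ≠ 0 → pw (α g y) ≠ 0) :
    pw (α g s1) = r2 (pw (α g s0)) ∨ pw (α g s1) = r2 (r2 (pw (α g s0))) := by
  have k : ∀ y y', InP y → y ≠ 0 → InP y' → ∀ w, Pe w (pw (α g y)) → Pe w (pw (α g y')) :=
    fun y y' hy h0 hy' w h => (ep_pp (e _ hy')).1 (L.fix g w hy h0 hy' ((ep_pp (e _ hy)).2 h))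
  have k2 := n _ inP2 s2_ne
  rw [L.add, pw_add_g] at k2
  refine f0b _ _ _ (f0a _ _ _ fun w h => (k _ _ inP0 s0_ne inP1 w h).1) _
    (f0a _ _ _ fun w h => (k _ _ inP0 s0_ne inP1 w h).2) (n _ inP0 s0_ne) (n _ inP1 s1_ne)
    (fun z => k2 ?_) (k _ _ inP1 s1_ne inP0) fun w h => k _ _ inP2 s2_ne inP0 w ?_
  · rw [show pw (α g s0) = pw (α g s1) from z, w8_add_g]
  · rw [L.add]
    exact h

section
variable (L : LM α M) (hM : M ≤ H) (hC : ∀ g, α g s0 = s0 → α g s1 = s1 → g ∈ H)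
include L hM hC

theorem LM.pair {g : Γ} (e : ∀ y, InP y → PP (α g y)) : g ∈ H := by
  by_contra hg
  have e' := fun y hy => L.toLM0.ppi e (y := y) hy
  have n : pw (α g s0) ≠ 0 := fun z => hg (L.toLM0.stab hM hC inP0 s0_ne (inP_of_g (e _ inP0) z))
  have n' : ∀ y, InP y → y ≠ 0 → pw (α g⁻¹ y) ≠ 0 := fun y hy h0 z =>
    hg (H.inv_mem_iff.1 (L.toLM0.stab hM hC hy h0 (inP_of_g (e' _ hy) z)))
  have hr := L.toLM0.rot e' n'
  obtain ⟨w, p1, w0, o1, w', p2, w0', o2, w0'', o3⟩ := f3 _ _ n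
  obtain ⟨b, b0, b1, hb⟩ := L.sieg e p1
  obtain ⟨c, c0, c1, hc⟩ := L.sieg e p2
  obtain ⟨γ, m1, hγ⟩ := L.gam b0 b1
  obtain ⟨δ, m2, hδ⟩ := L.gam c0 c1
  have ne : γ ≠ δ := by
    rintro rfl
    refine L.nid (b := b * c) w0'' o3 (by rw [mul_ap, c0, b0]) (by rw [mul_ap, c1, b1])
      (fun v => by rw [mul_ap, hb, hc, ep_ep]) fun v hv => ?_
    have : α b (α b v) = v := (α g).injective (by rw [hb, hb, ep_inv])
    rw [mul_ap, (hγ _ (hδ v hv).1).2, (hδ v hv).2, ← (hγ v hv).2, ← (hγ _ (hγ v hv).1).2, this]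
  obtain ⟨a, ha, ha'⟩ := L.aM
  have fin : ∀ k ∈ H, PP (α k (α g⁻¹ s0)) → L0 (pw (α k (α g⁻¹ s0))) → False := fun k hk h1 h2 =>
    hg (H.inv_mem_iff.1 ((H.mul_mem_cancel_left hk).1 (L.toLM0.stabU hM hC (by
      rw [mul_ap]
      exact ⟨⟨h2.1, h1.1⟩, h2.2, h1.2⟩))))
  have pa : PP (α a (α g⁻¹ s0)) := by rw [ha']; exact e' _ inP0
  have pa' : pw (α a (α g⁻¹ s0)) = a2 (pw (α g⁻¹ s0)) := by rw [ha']; rfl
  rcases f1 _ _ (n' _ inP0 s0_ne) γ m1 (L.gd e' hr w0 o1 b0 b1 hb hγ) δ m2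
    (L.gd e' hr w0' o2 c0 c1 hc hδ) ne with h | h | h | h
  · refine fin 1 H.one_mem ?_ ?_ <;> rw [map_one]
    · exact e' _ inP0
    · exact h
  · refine fin (b * a) (H.mul_mem (hC b b0 b1) (hM ha)) ?_ ?_ <;> rw [mul_ap]
    · exact (hγ _ pa).1
    · rw [(hγ _ pa).2, pa']; exact h
  · refine fin (c * a) (H.mul_mem (hC c c0 c1) (hM ha)) ?_ ?_ <;> rw [mul_ap]
    · exact (hδ _ pa).1
    · rw [(hδ _ pa).2, pa']; exact h
  · refine fin (b * (c * a)) (H.mul_mem (hC b b0 b1) (H.mul_mem (hC c c0 c1) (hM ha))) ?_ ?_ <;>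
      rw [mul_ap, mul_ap]
    · exact (hγ _ (hδ _ pa).1).1
    · rw [(hγ _ (hδ _ pa).1).2, (hδ _ pa).2, pa']; exact h

omit L hM hC in
theorem ex_u_g : ∀ a b c a' b' c' : K2, ∃ x y z : K2, ((x, y, z) : K2 × K2 × K2) ≠ 0 ∧
    a * x + (b * y + c * z) = 0 ∧ a' * x + (b' * y + c' * z) = 0 := by decide

theorem LM.gen (g : Γ) : g ∈ H := by
  obtain ⟨x, y, z, h0, h1, h2⟩ := ex_u_g (α g s0).1.2.2 (α g s0).1.2.1.2.2.1 (α g s0).1.2.1.2.2.2
    (α g s0).2.2.2 (α g s0).2.2.1.2.2.1 (α g s0).2.2.1.2.2.2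
  obtain ⟨m, hm, m0, m1⟩ := L.uM (x, (y, z, 0, 0), 0) ⟨rfl, rfl⟩ (fun e => h0 (by
    simp only [Prod.mk_eq_zero] at e ⊢
    exact ⟨e.1, e.2.1.1, e.2.1.2.1⟩))
  refine (H.mul_mem_cancel_left (H.inv_mem (hM hm))).1 (L.pair hM hC fun v hv =>
    L.toLM0.rank inP0 s0_ne hv ?_)
  rw [mul_ap, L.toLM0.pp, inv_inv, m0, m1]
  constructor
  · simpa [GN.bf, b6, bw] using h2
  · simpa [GN.bf, b6, bw] using h1

end

end Cfsg.Lib.R10.GN
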