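import Cfsg.Agent.R10.CA

/-! Decomposable alternating matrices and commuting involutions of `L₅(2)`. -/

set_option autoImplicit false

namespace Cfsg.Lib.R10.Ho

open Matrix Module

abbrev V5 : Type := Fin 5 → ZMod 2

/-- The matrix of `v ∧ w`. -/
def wg (v w : V5) : Mt := vecMulVec v w + vecMulVec w v

theorem wg_ent (v w : V5) (i j : Fin 5) : wg v w i j = v i * w j + w i * v j := rfl

theorem vadd (v : V5) : v + v = 0 := funext fun _ => CA.z2 _

theorem al_wg (v w : V5) : Al (wg v w) :=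
  ⟨by ext i j; rw [transpose_apply, wg_ent, wg_ent]; ring,
    fun i => by rw [wg_ent, mul_comm]; exact CA.z2 _⟩

theorem act_wg (g : Mt) (v w : V5) : g * wg v w * gᵀ = wg (g *ᵥ v) (g *ᵥ w) := by
  simp only [wg, Matrix.mul_add, Matrix.add_mul, mul_vecMulVec, vecMulVec_mul, vecMul_transpose]

theorem wg_add (v w w' : V5) : wg v (w + w') = wg v w + wg v w' := by
  ext i j; simp only [wg_ent, Matrix.add_apply, Pi.add_apply]; ring

theorem wg_zero {v w : V5} (h : wg v w = 0) : v = 0 ∨ w = 0 ∨ v = w := by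
  by_cases hv : v = 0
  · exact .inl hv
  obtain ⟨i, hi⟩ := Function.ne_iff.1 hv
  have hi1 : v i = 1 := CA.z2' _ hi
  have k : ∀ j, w j = w i * v j := fun j => by
    have e : v i * w j + w i * v j = 0 := congrFun (congrFun h i) j
    rw [hi1, one_mul] at e
    rw [← add_zero (w j), ← CA.z2 (w i * v j), ← add_assoc, e, zero_add]
  by_cases hw : w i = 0
  · exact .inr (.inl (funext fun j => by rw [k j, hw, zero_mul]; rfl))
  · exact .inr (.inr (funext fun j => by rw [k j, CA.z2' _ hw, one_mul]))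

theorem wg_ne {v w : V5} (h : wg v w ≠ 0) : v ≠ 0 ∧ w ≠ 0 ∧ v ≠ w := by
  refine ⟨?_, ?_, ?_⟩ <;> rintro rfl <;> apply h <;> ext i j
  · simp [wg_ent]
  · simp [wg_ent]
  · rw [wg_ent]; exact CA.z2 _

theorem wm01 : wm 0 1 = wg (Pi.single 0 1) (Pi.single 1 1) := by decide +kernel

theorem pure {v w : V5} (h : wg v w ≠ 0) : ∃ g : L5, g.1 * wm 0 1 * g.1ᵀ = wg v w := by
  obtain ⟨hv, hw, hvw⟩ := wg_ne h
  have l2 : LinearIndependent (ZMod 2) ![v, w] := by
    refine LinearIndependent.pair_iff.2 fun s t e => ?_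
    by_cases hs : s = 0 <;> by_cases ht : t = 0
    · exact ⟨hs, ht⟩
    · rw [hs, CA.z2' _ ht, zero_smul, one_smul, zero_add] at e; exact absurd e hw
    · rw [ht, CA.z2' _ hs, zero_smul, one_smul, add_zero] at e; exact absurd e hv
    · rw [CA.z2' _ ht, CA.z2' _ hs, one_smul, one_smul] at e
      exact absurd (by rw [← add_zero v, ← vadd w, ← add_assoc, e, zero_add]) hvw
  have r : finrank (ZMod 2) V5 = 5 := by simp
  obtain ⟨a, l3⟩ := exists_linearIndependent_snoc_of_lt_finrank l2 (by omega)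
  obtain ⟨b, l4⟩ := exists_linearIndependent_snoc_of_lt_finrank l3 (by omega)
  obtain ⟨c, l5⟩ := exists_linearIndependent_snoc_of_lt_finrank l4 (by omega)
  let A : Mt := Matrix.of ![v, w, a, b, c]
  have lA : LinearIndependent (ZMod 2) A.row := by
    have e : A.row = Fin.snoc (α := fun _ => V5) (Fin.snoc (α := fun _ => V5)
        (Fin.snoc (α := fun _ => V5) ![v, w] a) b) c := by
      funext i; fin_cases i <;> rfl
    rw [e]; exact l5
  have u := (isUnit_iff_isUnit_det _).1 (linearIndependent_rows_iff_isUnit.1 lA)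
  refine ⟨⟨Aᵀ, by rw [det_transpose]; exact CA.z2' _ u.ne_zero⟩, ?_⟩
  change Aᵀ * wm 0 1 * Aᵀᵀ = _
  rw [wm01, act_wg, mulVec_single_one, mulVec_single_one]
  rfl

theorem half {M : Type*} [AddCommGroup M] [Module (ZMod 2) M] [Module.Finite (ZMod 2) M]
    (f : M →ₗ[ZMod 2] M) (h : ∀ x, f (f x) = 0) :
    finrank (ZMod 2) M ≤ 2 * finrank (ZMod 2) (LinearMap.ker f) := by
  have e := f.finrank_range_add_finrank_ker
  have l : LinearMap.range f ≤ LinearMap.ker f := by
    rintro _ ⟨x, rfl⟩; exact h x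
  have := Submodule.finrank_mono l
  omega

/-- The map `v ↦ g v + v`. -/
def nl (g : L5) : V5 →ₗ[ZMod 2] V5 := Matrix.toLin' g.1 + LinearMap.id

theorem nl_ap (g : L5) (v : V5) : nl g v = g.1 *ᵥ v + v := by simp [nl]

theorem nl_zero {g : L5} {v : V5} : nl g v = 0 ↔ g.1 *ᵥ v = v := by
  rw [nl_ap]
  exact ⟨fun e => by rw [← add_zero (g.1 *ᵥ v), ← vadd v, ← add_assoc, e, zero_add],
    fun e => by rw [e, vadd]⟩

theorem ap_eq (g : L5) (v : V5) : g.1 *ᵥ v = nl g v + v := by rw [nl_ap, add_assoc, vadd, add_zero]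

theorem nl_nl {g : L5} (g2 : g * g = 1) (v : V5) : nl g (nl g v) = 0 := by
  rw [nl_zero, nl_ap, mulVec_add, mulVec_mulVec, ← cmul, g2, add_comm]
  simp

theorem nl_comm {g g' : L5} (c : g * g' = g' * g) (v : V5) : nl g (nl g' v) = nl g' (nl g v) := by
  simp only [nl_ap, mulVec_add, mulVec_mulVec, ← cmul, c]
  abel

theorem rk3 {g : L5} (g2 : g * g = 1) : 3 ≤ finrank (ZMod 2) (LinearMap.ker (nl g)) := by
  have := half (nl g) (nl_nl g2)
  have r : finrank (ZMod 2) V5 = 5 := by simp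
  omega

/-- An involution fixes a four-group of decomposable matrices. -/
theorem fix3 {g : L5} (g2 : g * g = 1) : ∃ p q r : V5, g.1 *ᵥ p = p ∧ g.1 *ᵥ q = q ∧ g.1 *ᵥ r = r ∧
    wg p q ≠ 0 ∧ wg p r ≠ 0 ∧ wg p (q + r) ≠ 0 := by
  obtain ⟨f, hf⟩ := exists_linearIndependent_of_le_finrank (rk3 g2)
  have k : ∀ a b c : ZMod 2, a • (f 0).1 + b • (f 1).1 + c • (f 2).1 = 0 → a = 0 ∧ b = 0 ∧ c = 0 :=
    fun a b c e => by
      have := Fintype.linearIndependent_iff.1 hf ![a, b, c] (Subtype.ext (by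
        simpa [Fin.sum_univ_three] using e))
      exact ⟨this 0, this 1, this 2⟩
  have o : (1 : ZMod 2) ≠ 0 := by decide
  refine ⟨f 0, f 1, f 2, nl_zero.1 (f 0).2, nl_zero.1 (f 1).2, nl_zero.1 (f 2).2, fun e => ?_,
    fun e => ?_, fun e => ?_⟩ <;> rcases wg_zero e with e | e | e
  · exact o (k 1 0 0 (by simp [e])).1
  · exact o (k 0 1 0 (by simp [e])).2.1
  · exact o (k 1 1 0 (by simp [e, vadd])).1
  · exact o (k 1 0 0 (by simp [e])).1
  · exact o (k 0 0 1 (by simp [e])).2.2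
  · exact o (k 1 0 1 (by simp [e, vadd])).1
  · exact o (k 1 0 0 (by simp [e])).1
  · exact o (k 0 1 1 (by simpa using e)).2.1
  · exact o (k 1 1 1 (by rw [one_smul, one_smul, one_smul, add_assoc, e, vadd])).1

theorem fix2 {g g' : L5} (g2 : g * g = 1) (g2' : g' * g' = 1) (c : g * g' = g' * g) :
    ∃ a b : V5, a ≠ 0 ∧ b ≠ 0 ∧ a ≠ b ∧ nl g a = 0 ∧ nl g b = 0 ∧ nl g' a = 0 ∧ nl g' b = 0 := by
  let f : LinearMap.ker (nl g) →ₗ[ZMod 2] LinearMap.ker (nl g) :=
    (nl g').restrict fun x hx => by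
      rw [LinearMap.mem_ker] at hx ⊢
      rw [nl_comm c, hx, map_zero]
  have h1 := half f fun x => Subtype.ext (nl_nl g2' x.1)
  have h2 := rk3 g2
  obtain ⟨s, hs⟩ := exists_linearIndependent_of_le_finrank
    (show 2 ≤ finrank (ZMod 2) (LinearMap.ker f) by omega)
  refine ⟨(s 0).1.1, (s 1).1.1, fun e => hs.ne_zero 0 (Subtype.ext (Subtype.ext e)),
    fun e => hs.ne_zero 1 (Subtype.ext (Subtype.ext e)),
    fun e => absurd (hs.injective (Subtype.ext (Subtype.ext e))) (by decide),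
    (s 0).1.2, (s 1).1.2, congrArg Subtype.val (s 0).2, congrArg Subtype.val (s 1).2⟩

theorem eq_of_nl {g g' : L5} (e : ∀ v, nl g v = nl g' v) : g = g' := by
  refine Subtype.ext (Matrix.toLin'.injective (LinearMap.ext fun v => ?_))
  rw [toLin'_apply, toLin'_apply, ap_eq, ap_eq, e]

/-- Commuting involutions with no decomposable commutator on fixed decomposables agree. -/
theorem same {g g' : L5} (g2 : g * g = 1) (g2' : g' * g' = 1) (c : g * g' = g' * g)
    (k : ∀ v w v' w', g.1 * wg v w * g.1ᵀ = wg v w → g'.1 * wg v w * g'.1ᵀ + wg v w = wg v' w' →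
      wg v' w' = 0) : g' = 1 ∨ g' = g := by
  have k1 : ∀ a p, g.1 * wg a p * g.1ᵀ = wg a p → nl g' a = 0 → wg a (nl g' p) = 0 :=
    fun a p e ea => k a p _ _ e (by
      rw [act_wg, nl_zero.1 ea, ← wg_add, nl_ap])
  obtain ⟨a, b, a0, b0, ab, ga, gb, ga', gb'⟩ := fix2 g2 g2' c
  have k2 : ∀ p, nl g p = 0 → nl g' p = 0 := fun p e => by
    have e1 := wg_zero (k1 a p (by rw [act_wg, nl_zero.1 ga, nl_zero.1 e]) ga')
    have e2 := wg_zero (k1 b p (by rw [act_wg, nl_zero.1 gb, nl_zero.1 e]) gb')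
    rcases e1 with e1 | e1 | e1
    exacts [absurd e1 a0, e1, e2.elim (fun x => absurd x b0)
      fun x => x.elim id fun x => absurd (e1.trans x.symm) ab]
  have k3 : ∀ v, nl g' v = 0 ∨ nl g' v = nl g v := fun v => by
    have e := wg_zero (k1 (nl g v) v (by
      rw [act_wg, nl_zero.1 (nl_nl g2 v), ap_eq g v, wg_add]
      rw [show wg (nl g v) (nl g v) = 0 by ext i j; rw [wg_ent]; exact CA.z2 _, zero_add])
      (k2 _ (nl_nl g2 v)))
    rcases e with e | e | e
    exacts [.inl (k2 v e), .inl e, .inr e.symm]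
  by_cases h1 : ∀ v, nl g' v = 0
  · exact .inl (eq_of_nl fun v => by rw [h1, nl_zero.2 (by simp)])
  push Not at h1
  obtain ⟨v0, h0⟩ := h1
  have e0 := (k3 v0).resolve_left h0
  refine .inr (eq_of_nl fun v => (k3 v).elim (fun e => ?_) id)
  rcases k3 (v + v0) with x | x <;> rw [map_add, e, zero_add] at x
  · exact absurd x h0
  · rw [map_add, ← e0] at x
    rw [e]; exact (add_eq_right.1 x.symm).symm

end Cfsg.Lib.R10.Ho
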