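import Cfsg.Agent.R10.ModP

/-! The module generated by a weight vector of the second fundamental type is `Λ² V`. -/

set_option autoImplicit false

namespace Cfsg.Lib.R10

open Matrix Equiv

namespace ModE

theorem perms : ∀ w : Perm (Fin 5), (w 0).1 < 2 → (w 1).1 < 2 → ∃ a ∈ [1, swap (0 : Fin 5) 1],
    ∃ b ∈ [1, swap (2 : Fin 5) 3, swap 2 4], ∃ c ∈ [1, swap (3 : Fin 5) 4], w = a * b * c := by
  decide +kernel

theorem conj_wm : ∀ p q k l : Fin 5, p ≠ q → k < l → tm p q * wm k l * (tm p q)ᵀ = wm k l +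
    if (q = k ∨ q = l) ∧ p ≠ k ∧ p ≠ l then wm (swap p q k) (swap p q l) else 0 := by
  decide +kernel

/-- A permutation with prescribed values at `0` and `1`. -/
def W (k l : Fin 5) : Perm (Fin 5) := swap 0 k * swap 1 (swap 0 k l)

theorem W_eq_1' : type_of% @W.eq_1 := @W.eq_1

theorem W_ap : ∀ k l, k ≠ l → W k l 0 = k ∧ W k l 1 = l := by decide +kernel

theorem cross : ∀ p q : Fin 5, q.1 < 2 → 2 ≤ p.1 → ((swap 1 q * swap 2 p) 0).1 < 2 ∧
    ((swap 1 q * swap 2 p) 1).1 < 2 ∧ (swap 1 q * swap 2 p) 2 = p ∧ (swap 1 q * swap 2 p) 1 = q := by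
  decide +kernel

/-- The index set of the basis. -/
abbrev Ix : Type := {x : Fin 5 × Fin 5 // x.1 < x.2}

theorem Al.eq_sum {m : Mt} (h : Al m) : m = ∑ x : Ix, m x.1.1 x.1.2 • wm x.1.1 x.1.2 := by
  have h1 : ∀ i j, m j i = m i j := fun i j => congrFun (congrFun h.1 i) j
  ext i j
  rw [Matrix.sum_apply]
  rcases lt_trichotomy i j with k | rfl | k
  · rw [Finset.sum_eq_single ⟨(i, j), k⟩]
    · simp [wm, k.ne]
    · rintro ⟨⟨a, b⟩, hab⟩ - hn
      have : ¬ (i = a ∧ j = b ∨ i = b ∧ j = a) := by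
        rintro (⟨rfl, rfl⟩ | ⟨rfl, rfl⟩); exacts [hn rfl, lt_asymm k hab]
      simp [wm, this]
    · simp
  · rw [h.2, Finset.sum_eq_zero]
    rintro ⟨⟨a, b⟩, hab⟩ -
    have : ¬ (i = a ∧ i = b ∨ i = b ∧ i = a) := by
      rintro (⟨rfl, rfl⟩ | ⟨rfl, rfl⟩) <;> exact lt_irrefl _ hab
    simp [wm, this]
  · rw [Finset.sum_eq_single ⟨(j, i), k⟩]
    · simp [wm, k.ne, h1 i j]
    · rintro ⟨⟨a, b⟩, hab⟩ - hn
      have : ¬ (i = a ∧ j = b ∨ i = b ∧ j = a) := by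
        rintro (⟨rfl, rfl⟩ | ⟨rfl, rfl⟩); exacts [lt_asymm k hab, hn rfl]
      simp [wm, this]
    · simp

theorem Al.add {m m' : Mt} (h : Al m) (h' : Al m') : Al (m + m') :=
  ⟨by rw [transpose_add, h.1, h'.1], fun i => by rw [Matrix.add_apply, h.2, h'.2, add_zero]⟩

theorem al_zero : Al 0 := ⟨rfl, fun _ => rfl⟩

theorem al_smul (c : ZMod 2) {m : Mt} (h : Al m) : Al (c • m) :=
  ⟨by rw [transpose_smul, h.1], fun i => by rw [Matrix.smul_apply, h.2, smul_zero]⟩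

theorem al_sum {ι : Type*} (s : Finset ι) {f : ι → Mt} (h : ∀ i, Al (f i)) : Al (∑ i ∈ s, f i) :=
  Finset.sum_induction f Al (fun _ _ => Al.add) al_zero fun i _ => h i

variable {M : Type*} [AddCommGroup M] [DistribMulAction L5 M] {a : M}
  (h1 : ∀ p q : Fin 5, ¬ (q.1 < 2 ∧ 2 ≤ p.1) → tv p q • a = a)
  (h2 : tv 1 2 • tv 2 1 • a = a + tv 2 1 • a) (h0 : ∀ b : M, b + b = 0)
include h1

theorem fix_swap {p q : Fin 5} (h : p ≠ q) (k : p.1 < 2 ↔ q.1 < 2) : pm (swap p q) • a = a := by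
  rw [pm_swap h, mul_smul, mul_smul, h1 p q (by omega), h1 q p (by omega), h1 p q (by omega)]

theorem fix_pm {w : Perm (Fin 5)} (k0 : (w 0).1 < 2) (k1 : (w 1).1 < 2) : pm w • a = a := by
  obtain ⟨x, hx, y, hy, z, hz, rfl⟩ := perms w k0 k1
  have e : ∀ u ∈ [1, swap (0 : Fin 5) 1, swap 2 3, swap 2 4, swap 3 4], pm u • a = a := by
    simp only [List.forall_mem_cons, map_one, one_smul, List.not_mem_nil, false_imp_iff,
      implies_true, and_true, true_and]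
    refine ⟨?_, ?_, ?_, ?_⟩ <;> exact fix_swap h1 (by decide) (by decide)
  rw [map_mul, map_mul, mul_smul, mul_smul, e z (by grind), e y (by grind), e x (by grind)]

theorem pm_eq {w : Perm (Fin 5)} {k l : Fin 5} (h : k ≠ l)
    (e : w 0 = k ∧ w 1 = l ∨ w 0 = l ∧ w 1 = k) : pm w • a = pm (W k l) • a := by
  obtain ⟨e0, e1⟩ := W_ap k l h
  have e2 : (W k l)⁻¹ k = 0 := by rw [Perm.inv_eq_iff_eq, e0]
  have e3 : (W k l)⁻¹ l = 1 := by rw [Perm.inv_eq_iff_eq, e1]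
  rw [← mul_inv_cancel_left (W k l) w, map_mul, mul_smul, fix_pm h1] <;>
    rcases e with ⟨f0, f1⟩ | ⟨f0, f1⟩ <;> simp only [Perm.mul_apply, f0, f1, e2, e3] <;> decide

include h2 h0

theorem tv_cross {p q : Fin 5} (hq : q.1 < 2) (hp : 2 ≤ p.1) :
    tv p q • a = a + pm (swap p q) • a := by
  obtain ⟨k0, k1, k2, k3⟩ := cross p q hq hp
  have e : tv 2 1 • a = a + pm (swap 1 2) • a := by
    rw [pm_swap (by decide), mul_smul, mul_smul, h1 1 2 (by decide), h2, ← add_assoc, h0, zero_add]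
  generalize swap 1 q * swap 2 p = w at k0 k1 k2 k3
  have e1 := congrArg (pm w • ·) e
  simp only [smul_add] at e1
  rwa [← mul_smul, pm_tv, ← mul_smul, ← map_mul, mul_swap_eq_swap_mul, map_mul, mul_smul, mul_smul,
    fix_pm h1 k0 k1, k2, k3, swap_comm q p] at e1

theorem tv_W {p q k l : Fin 5} (h : p ≠ q) (hk : k ≠ l) : tv p q • pm (W k l) • a = pm (W k l) • a +
    if (q = k ∨ q = l) ∧ p ≠ k ∧ p ≠ l then pm (W (swap p q k) (swap p q l)) • a else 0 := by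
  obtain ⟨e0, e1⟩ := W_ap k l hk
  obtain ⟨p, rfl⟩ := (W k l).surjective p
  obtain ⟨q, rfl⟩ := (W k l).surjective q
  have e : ((W k l q = k ∨ W k l q = l) ∧ W k l p ≠ k ∧ W k l p ≠ l) ↔ q.1 < 2 ∧ 2 ≤ p.1 := by
    have f0 : ∀ x, W k l x = k ↔ x = 0 := fun x => by
      rw [← (W k l).injective.eq_iff (b := 0), e0]
    have f1 : ∀ x, W k l x = l ↔ x = 1 := fun x => by
      rw [← (W k l).injective.eq_iff (b := 1), e1]
    simp only [ne_eq, f0, f1, Fin.ext_iff, Fin.val_zero, Fin.val_one]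
    omega
  rw [← mul_smul, ← pm_tv, mul_smul]
  split_ifs with c
  · rw [tv_cross h1 h2 h0 (e.1 c).1 (e.1 c).2, smul_add, ← mul_smul, ← map_mul,
      mul_swap_eq_swap_mul, pm_eq h1 (w := _ * _) ((Equiv.swap (W k l p) (W k l q)).injective.ne hk)
        (.inl ⟨by rw [Perm.mul_apply, e0], by rw [Perm.mul_apply, e1]⟩)]
  · rw [h1 p q (mt e.2 c), add_zero]

end ModE

open ModE

theorem L5_ind {P : L5 → Prop} (h1 : P 1) (h : ∀ p q g, p ≠ q → P g → P (tv p q * g)) (g : L5) :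
    P g := by
  have e := gen (Subgroup.closure {g | ∃ p q, p ≠ q ∧ g = tv p q}) fun p q k =>
    Subgroup.subset_closure ⟨p, q, k, rfl⟩
  have hg : g ∈ Subgroup.closure {g | ∃ p q, p ≠ q ∧ g = tv p q} := e ▸ Subgroup.mem_top g
  induction hg using Subgroup.closure_induction_left with
  | one => exact h1
  | mul_left x hx y _ ih => obtain ⟨p, q, k, rfl⟩ := hx; exact h p q y k ih
  | inv_mul_cancel x hx y _ ih =>
    obtain ⟨p, q, k, rfl⟩ := hx
    rw [inv_eq_of_mul_eq_one_right (tv_sq p q)]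
    exact h p q y k ih

theorem al_conj {m : Mt} (h : Al m) (g : Mt) : Al (g * m * gᵀ) := by
  refine ⟨by rw [transpose_mul, transpose_mul, transpose_transpose, h.1, Matrix.mul_assoc],
    fun i => ?_⟩
  have h1 : ∀ i j, m j i = m i j := fun i j => congrFun (congrFun h.1 i) j
  have h2 : (2 : ZMod 2) = 0 := rfl
  simp only [mul_apply, transpose_apply, Fin.sum_univ_five, h.2, h1 0 1, h1 0 2, h1 0 3, h1 0 4,
    h1 1 2, h1 1 3, h1 1 4, h1 2 3, h1 2 4, h1 3 4]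
  linear_combination (g i 0 * m 0 1 * g i 1 + g i 0 * m 0 2 * g i 2 + g i 0 * m 0 3 * g i 3 +
    g i 0 * m 0 4 * g i 4 + g i 1 * m 1 2 * g i 2 + g i 1 * m 1 3 * g i 3 + g i 1 * m 1 4 * g i 4 +
    g i 2 * m 2 3 * g i 3 + g i 2 * m 2 4 * g i 4 + g i 3 * m 3 4 * g i 4) * h2

theorem modE {M : Type*} [AddCommGroup M] [DistribMulAction L5 M] (h0 : ∀ b : M, b + b = 0)
    (hc : Nat.card M = 2 ^ 10)
    (irr : ∀ W : AddSubgroup M, (∀ g : L5, ∀ w ∈ W, g • w ∈ W) → W = ⊥ ∨ W = ⊤) {a : M} (ha : a ≠ 0)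
    (h1 : ∀ p q : Fin 5, ¬ (q.1 < 2 ∧ 2 ≤ p.1) → tv p q • a = a)
    (h2 : tv 1 2 • tv 2 1 • a = a + tv 2 1 • a) :
    ∃ θ : Mt →+ M, (∀ b, ∃ m, Al m ∧ θ m = b) ∧ (∀ m, Al m → θ m = 0 → m = 0) ∧
      ∀ (g : L5) m, Al m → g • θ m = θ (g.1 * m * g.1ᵀ) := by
  let _ : Module (ZMod 2) M := AddCommGroup.zmodModule fun b => by rw [two_nsmul, h0]
  let η : (Ix → ZMod 2) →ₗ[ZMod 2] M := Fintype.linearCombination _ fun x => pm (W x.1.1 x.1.2) • a
  let ρ : Mt →ₗ[ZMod 2] Ix → ZMod 2 :=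
    { toFun m x := m x.1.1 x.1.2, map_add' _ _ := rfl, map_smul' _ _ := rfl }
  let θ := η ∘ₗ ρ
  have e1 : ∀ m, θ m = ∑ x : Ix, m x.1.1 x.1.2 • pm (W x.1.1 x.1.2) • a := fun m =>
    Fintype.linearCombination_apply (ZMod 2) (fun x : Ix => pm (W x.1.1 x.1.2) • a) (ρ m)
  have e2 : ∀ k l, k < l → θ (wm k l) = pm (W k l) • a := fun k l h => by
    rw [e1, Finset.sum_eq_single ⟨(k, l), h⟩]
    · simp [wm, h.ne]
    · rintro ⟨⟨i, j⟩, hij⟩ - hn
      have : ¬ (i = k ∧ j = l ∨ i = l ∧ j = k) := by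
        rintro (⟨rfl, rfl⟩ | ⟨rfl, rfl⟩); exacts [hn rfl, lt_asymm h hij]
      simp [wm, this]
    · simp
  have e3 : ∀ k l, k ≠ l → θ (wm k l) = pm (W k l) • a := fun k l h => by
    rcases h.lt_or_gt with h' | h'
    · exact e2 k l h'
    · rw [show wm k l = wm l k by revert k l; decide +kernel, e2 l k h',
        pm_eq h1 h (.inr (W_ap l k h.symm))]
  have e4 : ∀ (g : L5) (c : ZMod 2) (b : M), g • c • b = c • g • b := fun g c b =>
    ZMod.map_smul (DistribSMul.toAddMonoidHom M g) c b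
  have e5 : ∀ (g : L5) m, Al m → g • θ m = θ (g.1 * m * g.1ᵀ) := fun g => by
    induction g using L5_ind with
    | h1 => simp
    | h p q g hpq ih =>
      intro m hm
      rw [mul_smul, ih m hm, L5_mul, transpose_mul, show (tv p q).1 * g.1 * m * (g.1ᵀ * (tv p q).1ᵀ) =
        tm p q * (g.1 * m * g.1ᵀ) * (tm p q)ᵀ by simp only [Matrix.mul_assoc, tv_val]]
      have hn := al_conj hm g.1
      generalize g.1 * m * g.1ᵀ = n at hn
      conv_rhs => rw [Al.eq_sum hn]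
      rw [e1, Finset.smul_sum, Finset.mul_sum, Finset.sum_mul, map_sum]
      refine Finset.sum_congr rfl fun x _ => ?_
      rw [Matrix.mul_smul, Matrix.smul_mul, map_smul, e4, conj_wm _ _ _ _ hpq x.2, map_add,
        tv_W h1 h2 h0 hpq x.2.ne, e2 _ _ x.2]
      split_ifs
      · rw [e3 _ _ ((Equiv.swap p q).injective.ne x.2.ne)]
      · rw [map_zero]
  have e6 : ∀ b, ∃ m, Al m ∧ θ m = b := fun b => by
    let V : AddSubgroup M :=
      { carrier := {b | ∃ m, Al m ∧ θ m = b}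
        zero_mem' := ⟨0, al_zero, map_zero _⟩
        add_mem' := by
          rintro _ _ ⟨m, hm, rfl⟩ ⟨m', hm', rfl⟩
          exact ⟨_, Al.add hm hm', map_add _ _ _⟩
        neg_mem' := by
          rintro _ ⟨m, hm, rfl⟩
          exact ⟨m, hm, eq_neg_of_add_eq_zero_left (h0 _)⟩ }
    have h3 : a ∈ V := ⟨_, al_wm 0 1, by
      rw [e2 0 1 (by decide), fix_pm h1 (by decide) (by decide)]⟩
    have h4 := (irr V (by
      rintro g _ ⟨m, hm, rfl⟩
      exact ⟨_, al_conj hm g.1, (e5 g m hm).symm⟩)).resolve_left fun e => ha (by simpa [e] using h3)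
    exact (h4 ▸ AddSubgroup.mem_top b : b ∈ V)
  have e7 : Function.Injective η := ((Nat.bijective_iff_surjective_and_card η).2 ⟨fun b =>
    (e6 b).elim fun m hm => ⟨_, hm.2⟩, by
      rw [hc, Nat.card_fun, Nat.card_zmod, Nat.card_eq_fintype_card]; rfl⟩).1
  refine ⟨θ.toAddMonoidHom, e6, fun m hm e => ?_, e5⟩
  rw [Al.eq_sum hm]
  exact Finset.sum_eq_zero fun x _ => by
    rw [show m x.1.1 x.1.2 = 0 from congrFun (e7 (e.trans (map_zero η).symm)) x, zero_smul]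

end Cfsg.Lib.R10
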