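import Cfsg.Agent.R10.ModA
import Cfsg.Agent.R10.ModE

/-! The normaliser of `A` acts on `A` as on alternating matrices. -/

set_option autoImplicit false

namespace Cfsg.Lib.R10

open Matrix Subgroup Cfsg.Lib.Gold

theorem modL {M : Type*} [AddCommGroup M] [Finite M] [DistribMulAction L5 M]
    (h0 : ∀ b : M, b + b = 0) (hc : Nat.card M = 2 ^ 10)
    (irr : ∀ W : AddSubgroup M, (∀ g : L5, ∀ w ∈ W, g • w ∈ W) → W = ⊥ ∨ W = ⊤) :
    ∃ (σ : L5 ≃* L5) (θ : Mt →+ M), (∀ b, ∃ m, Al m ∧ θ m = b) ∧ (∀ m, Al m → θ m = 0 → m = 0) ∧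
      ∀ (g : L5) m, Al m → g • θ m = θ ((σ g).1 * m * (σ g).1ᵀ) := by
  rcases weight h0 hc irr with ⟨a, ha, h1, h2⟩ | ⟨a, ha, h1, h2⟩
  · exact ⟨.refl _, modE h0 hc irr ha h1 h2⟩
  · obtain ⟨θ, e1, e2, e3⟩ := @modE M _ (DistribMulAction.compHom M tau.toMonoidHom) h0 hc
      (fun W hW => irr W fun g w hw => by
        obtain ⟨g, rfl⟩ := tau.surjective g
        exact hW g w hw) a ha
      (fun p q h => show tau (tv p q) • a = a by rw [tau_tv, h1 p q h])
      (show tau (tv 1 2) • tau (tv 2 1) • a = a + tau (tv 2 1) • a by rw [tau_tv, tau_tv, h2])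
    refine ⟨tau.symm, θ, e1, e2, fun g m hm => ?_⟩
    rw [← e3 _ m hm]
    change _ = tau (tau.symm g) • θ m
    rw [MulEquiv.apply_symm_apply]

theorem modid {G : Type*} [Group G] [Finite G] (A : Subgroup G) (hA : IsElementaryAbelian 2 A)
    (hcard : Nat.card A = 2 ^ 10)
    (hL : Nonempty (normalizer (A : Set G) ⧸ A.subgroupOf (normalizer (A : Set G)) ≃*
      SpecialLinearGroup (Fin 5) (ZMod 2)))
    (hirr : ∀ W : Subgroup G, W ≤ A → normalizer (A : Set G) ≤ normalizer (W : Set G) →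
      W = ⊥ ∨ W = A) :
    ∃ (φ : Ns A →* L5) (θ : Mt → G), Function.Surjective φ ∧ φ.ker = A.subgroupOf (Ns A) ∧
      (∀ m m', θ (m + m') = θ m * θ m') ∧ (∀ a, a ∈ A ↔ ∃ m, Al m ∧ θ m = a) ∧
      (∀ m, Al m → θ m = 1 → m = 0) ∧
      ∀ (n : Ns A) m, Al m → n * θ m * (n : G)⁻¹ = θ ((φ n).1 * m * (φ n).1ᵀ) := by
  obtain ⟨e⟩ := hL
  let φ : Ns A →* L5 := e.toMonoidHom.comp (QuotientGroup.mk' _)
  have hs : Function.Surjective φ := e.surjective.comp (QuotientGroup.mk'_surjective _)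
  have hk : φ.ker = A.subgroupOf (Ns A) := by
    rw [← MonoidHom.comap_ker, (MonoidHom.ker_eq_bot_iff _).2 e.injective, MonoidHom.comap_bot,
      QuotientGroup.ker_mk']
  have := hA.1
  let _ : CommGroup A := IsMulCommutative.instCommGroup
  let ρ : L5 →* MulAut A := φ.liftOfSurjective hs ⟨A.normalizerMonoidHom, fun n hn => by
    rw [hk] at hn
    ext a
    exact mul_inv_eq_iff_eq_mul.2 (congrArg Subtype.val (mul_comm (⟨n, hn⟩ : A) a))⟩
  have hρ : ∀ n (a : A), (ρ (φ n) a : G) = n * a * (n : G)⁻¹ := fun n a => by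
    rw [MonoidHom.liftOfRightInverse_comp_apply]; rfl
  let _ : DistribMulAction L5 (Additive A) :=
    { smul g a := .ofMul (ρ g a.toMul)
      one_smul a := congrArg (fun f : MulAut A => Additive.ofMul (f a.toMul)) (map_one ρ)
      mul_smul g h a := congrArg (fun f : MulAut A => Additive.ofMul (f a.toMul)) (map_mul ρ g h)
      smul_zero g := congrArg Additive.ofMul (map_one (ρ g))
      smul_add g a b := congrArg Additive.ofMul (map_mul (ρ g) a.toMul b.toMul) }
  obtain ⟨σ, θ, e1, e2, e3⟩ := modL (M := Additive A)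
    (fun b => Subtype.ext ((sq _).symm.trans (hA.2 _ b.toMul.2))) hcard fun W hW => by
      refine (hirr ((AddSubgroup.toSubgroup' W).map A.subtype) (map_subtype_le _) fun n hn =>
        mem_normalizer_fintype ?_).imp (fun h => ?_) fun h => ?_
      · rintro _ ⟨a, ha, rfl⟩
        exact ⟨_, hW (φ ⟨n, hn⟩) a ha, hρ ⟨n, hn⟩ a⟩
      · exact AddSubgroup.toSubgroup'.injective ((map_eq_bot_iff_of_injective _
          A.subtype_injective).1 h)
      · refine eq_top_iff.2 fun a _ => ?_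
        obtain ⟨b, hb, hb'⟩ := h.ge a.toMul.2
        rwa [show a = b from Subtype.ext hb'.symm]
  refine ⟨σ.toMonoidHom.comp φ, fun m => (θ m).toMul, σ.surjective.comp hs, ?_, fun m m' => ?_,
    fun a => ⟨fun ha => ?_, ?_⟩, fun m hm h => e2 m hm (Subtype.ext h), fun n m hm => ?_⟩
  · rw [← MonoidHom.comap_ker, (MonoidHom.ker_eq_bot_iff _).2 σ.injective, MonoidHom.comap_bot, hk]
  · exact congrArg (fun x : Additive A => (x.toMul : G)) (map_add θ m m')
  · obtain ⟨m, h1, h2⟩ := e1 (.ofMul ⟨a, ha⟩)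
    exact ⟨m, h1, congrArg (fun x : Additive A => (x.toMul : G)) h2⟩
  · rintro ⟨m, -, rfl⟩
    exact (θ m).toMul.2
  · exact (hρ n _).symm.trans (congrArg (fun x : Additive A => (x.toMul : G)) (e3 (φ n) m hm))

end Cfsg.Lib.R10
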