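import Cfsg.Agent.R10.ModC

/-! # Irreducible modules of order `2¹⁰` for `SL₅(2)`: the type of the weight vector -/

set_option autoImplicit false

namespace Cfsg.Lib.R10

namespace MD

open Equiv Subgroup MulAction

variable {A : Type*} [AddCommGroup A] [DistribMulAction L5 A] {a : A}

/-- `σ` preserves the initial segment of the node `j`. -/
def Pre (j : Fin 4) (σ : Perm (Fin 5)) : Prop := ∀ t, t.1 ≤ j.1 ↔ (σ t).1 ≤ j.1

instance (j : Fin 4) (σ : Perm (Fin 5)) : Decidable (Pre j σ) :=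
  inferInstanceAs (Decidable (∀ _, _))

/-- A potential on permutations. -/
def pot (σ : Perm (Fin 5)) : ℕ := 4 * (σ 0).1 + 3 * (σ 1).1 + 2 * (σ 2).1 + (σ 3).1

theorem desc : ∀ σ : Perm (Fin 5), σ = 1 ∨ ∃ j : Fin 4, σ j.succ < σ j.castSucc ∧
    pot (σ * swap j.castSucc j.succ) < pot σ ∧ ¬ Pre j σ ∧
      ∀ i, i ≠ j → (Pre i σ ↔ Pre i (σ * swap j.castSucc j.succ)) := by decide +kernel

theorem Wt.pm_s (ha : Wt a) (j : Fin 4) : pm (swap j.castSucc j.succ) • a =
    tv j.castSucc j.succ • tv j.succ j.castSucc • a := by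
  rw [pm_swap _ _ Fin.castSucc_lt_succ.ne, mul_smul, mul_smul, ha.up _ _ Fin.castSucc_lt_succ]

theorem Wt.main (ha : Wt a) {l : A →+ ZMod 2} (hl : ∀ p q : Fin 5, q < p → ∀ m, l (tv p q • m) = l m)
    (σ : Perm (Fin 5)) :
    ((∀ j : Fin 4, tv j.succ j.castSucc • a ≠ a → Pre j σ) → pm σ • a = a) ∧
      (¬ (∀ j : Fin 4, tv j.succ j.castSucc • a ≠ a → Pre j σ) → l (pm σ • a) = 0) := by
  induction h : pot σ using Nat.strong_induction_on generalizing σ with
  | _ n ih =>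
  rcases desc σ with rfl | ⟨j, h1, h2, h3, h4⟩
  · exact ⟨fun _ => by rw [map_one, one_smul], fun h => absurd (fun _ _ _ => Iff.rfl) h⟩
  have e : pm σ • a = pm (σ * swap j.castSucc j.succ) • pm (swap j.castSucc j.succ) • a := by
    rw [pm_pm, mul_swap_mul_self]
  rw [ha.pm_s] at e
  by_cases h5 : tv j.succ j.castSucc • a = a
  · rw [h5, ha.up _ _ Fin.castSucc_lt_succ] at e
    have h6 : (∀ i : Fin 4, tv i.succ i.castSucc • a ≠ a → Pre i σ) ↔
        ∀ i : Fin 4, tv i.succ i.castSucc • a ≠ a → Pre i (σ * swap j.castSucc j.succ) :=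
      forall₂_congr fun i hi => h4 i fun e => hi (e ▸ h5)
    rw [e, h6]
    exact ih _ (h ▸ h2) _ rfl
  refine ⟨fun h => absurd (h j h5) h3, fun _ => ?_⟩
  rw [e, (ha.eig j).resolve_left h5, smul_add, pm_tv_smul, map_add, hl _ _ (by simpa using h1)]
  exact CharTwo.add_self_eq_zero _

/-- Affine permutations of five points. -/
def aff (s : Fin 5 × Fin 3) : Perm (Fin 5) :=
  finRotate 5 ^ s.1.1 * (swap 1 2 * swap 2 4 * swap 4 3) ^ s.2.1

theorem aff_pre : ∀ s t, s ≠ t → ∀ i k, i ≠ k →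
    ¬ (Pre i ((aff s)⁻¹ * aff t) ∧ Pre k ((aff s)⁻¹ * aff t)) := by decide +kernel

theorem Wt.one [Finite A] (ha : Wt a) (hc : Nat.card A = 2 ^ 10) {l : A →+ ZMod 2} (l1 : l a = 1)
    (hl : ∀ p q : Fin 5, q < p → ∀ m, l (tv p q • m) = l m) {i k : Fin 4}
    (hi : tv i.succ i.castSucc • a ≠ a) (hk : tv k.succ k.castSucc • a ≠ a) : i = k := by
  by_contra hik
  let Φ : A →+ (Fin 5 × Fin 3 → ZMod 2) :=
    AddMonoidHom.pi fun s => l.comp (DistribMulAction.toAddMonoidHom A (pm (aff s)⁻¹))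
  have h1 : ∀ t, Φ (pm (aff t) • a) = Pi.single t 1 := fun t => funext fun s => by
    change l (pm _ • pm _ • a) = _
    rw [pm_pm]
    by_cases e : s = t
    · rw [e, inv_mul_cancel, map_one, one_smul, l1, Pi.single_eq_same]
    · rw [Pi.single_eq_of_ne e]
      exact (ha.main hl _).2 fun h => aff_pre s t e i k hik ⟨h i hi, h k hk⟩
  have h2 : Function.Surjective Φ := fun f => by
    rw [← Finset.univ_sum_single f]
    refine Φ.range.sum_mem fun t _ => ?_
    obtain e | e : f t = 0 ∨ f t = 1 := by generalize f t = z; revert z; decide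
    · rw [e, Pi.single_zero]; exact zero_mem _
    · exact ⟨_, e ▸ h1 t⟩
  have := Nat.card_le_card_of_surjective _ h2
  rw [hc, Nat.card_fun] at this
  simp at this

theorem root : ∀ (i : Fin 4) (p q : Fin 5), q < p → ∃ (u : Perm (Fin 5)) (j : Fin 4),
    u j.succ = p ∧ u j.castSucc = q ∧ Pre i u ∧ (j = i → q.1 ≤ i.1 ∧ i.1 < p.1) := by
  decide +kernel

theorem low {i : Fin 4} (hp : ∀ σ, Pre i σ → pm σ • a = a) {p q : Fin 5} (h : q < p) :
    ∃ (u : Perm (Fin 5)) (j : Fin 4), tv p q • a = pm u • tv j.succ j.castSucc • a ∧ pm u • a = a ∧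
      (j = i → q.1 ≤ i.1 ∧ i.1 < p.1) := by
  obtain ⟨u, j, rfl, rfl, h1, h3⟩ := root i p q h
  exact ⟨u, j, by rw [pm_tv_smul, hp u h1], hp u h1, h3⟩

theorem Wt.fix (ha : Wt a) {i : Fin 4} (hp : ∀ σ, Pre i σ → pm σ • a = a)
    (hi : ∀ j : Fin 4, j ≠ i → tv j.succ j.castSucc • a = a) (p q : Fin 5)
    (h : ¬ (q.1 ≤ i.1 ∧ i.1 < p.1)) : tv p q • a = a := by
  rcases lt_trichotomy p q with e | rfl | e
  · exact ha.up p q e
  · rw [tv_self, one_smul]
  · obtain ⟨u, j, h1, h2, h3⟩ := low hp e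
    rw [h1, hi j fun e => h (h3 e), h2]

theorem Wt.small [Finite A] (ha : Wt a) (h2 : ∀ a : A, a + a = 0) (hc : Nat.card A = 2 ^ 10)
    (irr : ∀ W : AddSubgroup A, (∀ g : L5, ∀ w ∈ W, g • w ∈ W) → W = ⊥ ∨ W = ⊤) {i : Fin 4}
    (hp : ∀ σ, Pre i σ → pm σ • a = a) {e : Fin 5} (he : ∀ σ, σ e = e → Pre i σ) : False := by
  classical
  let S : Finset A := Finset.univ.image fun k => pm (swap e k) • a
  let W : AddSubgroup A := AddSubgroup.closure S
  have h1 : ∀ σ, pm σ • a ∈ W := fun σ => AddSubgroup.subset_closure (by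
    refine Finset.mem_coe.2 (Finset.mem_image.2 ⟨σ e, Finset.mem_univ _, ?_⟩)
    conv_lhs => rw [← hp (swap e (σ e) * σ) (he _ (by simp)), pm_pm, swap_mul_self_mul])
  have h3 : ∀ σ p q, tv p q • pm σ • a ∈ W := fun σ p q => by
    obtain ⟨p, rfl⟩ := σ.surjective p
    obtain ⟨q, rfl⟩ := σ.surjective q
    rw [← pm_tv_smul]
    rcases lt_trichotomy p q with e | rfl | e
    · rw [ha.up p q e]; exact h1 σ
    · rw [tv_self, one_smul]; exact h1 σ
    obtain ⟨u, j, h3, -, -⟩ := low hp e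
    rw [h3, pm_pm]
    rcases ha.eig j with e | e
    · rw [e]; exact h1 _
    · have : tv j.succ j.castSucc • a = pm (swap j.castSucc j.succ) • a - a := by
        rw [ha.pm_s, e, add_sub_cancel_left]
      rw [this, smul_sub, pm_pm]
      exact sub_mem (h1 _) (h1 _)
  have h4 : ∀ p q, ∀ w ∈ W, tv p q • w ∈ W := fun p q =>
    (AddSubgroup.closure_le (W.comap (DistribMulAction.toAddMonoidHom A (tv p q)))).2 fun w hw => by
      obtain ⟨k, -, rfl⟩ := Finset.mem_image.1 (Finset.mem_coe.1 hw)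
      exact h3 _ p q
  rcases irr W (inv_all W (fun _ => h4 _ _) fun p q _ => h4 p q) with h | h
  · exact ha.ne (by simpa [h] using h1 1)
  have h5 := (AddGroup.rank_le h).trans (Finset.card_image_le.trans (Finset.card_fin 5).le)
  have h6 := card_dvd_exponent_nsmul_rank' A (n := 2) fun g => by rw [two_nsmul, h2]
  have h7 := Nat.le_of_dvd (by positivity) (h6.trans (pow_dvd_pow 2 h5))
  omega

end MD

open MD Equiv in
theorem weight {A : Type*} [AddCommGroup A] [Finite A] [DistribMulAction L5 A]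
    (h2 : ∀ a : A, a + a = 0) (hc : Nat.card A = 2 ^ 10)
    (irr : ∀ W : AddSubgroup A, (∀ g : L5, ∀ w ∈ W, g • w ∈ W) → W = ⊥ ∨ W = ⊤) :
    (∃ a : A, a ≠ 0 ∧ (∀ p q : Fin 5, ¬ (q.1 < 2 ∧ 2 ≤ p.1) → tv p q • a = a) ∧
      tv 1 2 • tv 2 1 • a = a + tv 2 1 • a) ∨
    (∃ a : A, a ≠ 0 ∧ (∀ p q : Fin 5, ¬ (q.1 < 2 ∧ 2 ≤ p.1) → tv q p • a = a) ∧
      tv 2 1 • tv 1 2 • a = a + tv 1 2 • a) := by
  have : Nontrivial A := Finite.one_lt_card_iff_nontrivial.1 (by rw [hc]; norm_num)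
  obtain ⟨b, hb⟩ := exists_ne (0 : A)
  obtain ⟨a, ha⟩ := exists_wt h2 hb
  obtain ⟨l, l1, hl⟩ := exists_fn h2 irr ha
  obtain ⟨i, h0, hi⟩ : ∃ i : Fin 4, (i = 0 ∨ tv i.succ i.castSucc • a ≠ a) ∧
      ∀ j : Fin 4, j ≠ i → tv j.succ j.castSucc • a = a := by
    by_cases h : ∃ i : Fin 4, tv i.succ i.castSucc • a ≠ a
    · obtain ⟨i, h⟩ := h
      exact ⟨i, Or.inr h, fun j hj => by_contra fun e => hj (ha.one hc l1 hl e h)⟩
    · push Not at h
      exact ⟨0, Or.inl rfl, fun j _ => h j⟩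
  have hp : ∀ σ, Pre i σ → pm σ • a = a := fun σ h => (ha.main hl σ).1 fun j hj => by
    rwa [show j = i from by_contra fun e => hj (hi j e)]
  have hf := ha.fix hp hi
  obtain rfl | rfl | rfl | rfl : i = 0 ∨ i = 1 ∨ i = 2 ∨ i = 3 := by omega
  · exact (ha.small h2 hc irr hp (e := 0) (by decide +kernel)).elim
  · exact Or.inl ⟨a, ha.ne, fun p q h => hf p q (by omega),
      (ha.eig 1).resolve_left (h0.resolve_left (by decide))⟩
  · refine Or.inr ⟨pm Fin.revPerm • a, (smul_ne_zero_iff_ne _).2 ha.ne, fun p q h => ?_, ?_⟩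
    · have := pm_tv_smul Fin.revPerm q.rev p.rev a
      rw [hf _ _ (by simp only [Fin.val_rev]; omega)] at this
      simpa using this.symm
    · have e : tv 2 3 • tv 3 2 • a = a + tv 3 2 • a :=
        (ha.eig 2).resolve_left (h0.resolve_left (by decide))
      have := congrArg (pm Fin.revPerm • ·) e
      simp only [smul_add, pm_tv_smul] at this
      exact this
  · exact (ha.small h2 hc irr hp (e := 4) (by decide +kernel)).elim

end Cfsg.Lib.R10
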