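import Cfsg.Agent.R10.ModD

/-! # Modules for `SL₅(2)` in characteristic two: root subgroups and Hecke operators -/

set_option autoImplicit false

namespace Cfsg.Lib.R10.MD

open Equiv Subgroup

/-- The subgroup generated by a set of root elements. -/
def KK (Φ : Fin 5 → Fin 5 → Prop) : Subgroup L5 := closure {g | ∃ r s, Φ r s ∧ g = tv r s}

theorem tv_mem {Φ : Fin 5 → Fin 5 → Prop} {r s : Fin 5} (h : Φ r s) : tv r s ∈ KK Φ :=
  subset_closure ⟨r, s, h, rfl⟩

theorem KK_le {Φ : Fin 5 → Fin 5 → Prop} {H : Subgroup L5} (h : ∀ r s, Φ r s → tv r s ∈ H) :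
    KK Φ ≤ H := (closure_le _).2 (by rintro _ ⟨r, s, h', rfl⟩; exact h r s h')

theorem cj_mem {Φ : Fin 5 → Fin 5 → Prop} {p q : Fin 5} (hpq : p ≠ q)
    (hΦ : ∀ r s, Φ r s → r ≠ s ∧ ¬ (r = q ∧ s = p) ∧ (s = p → Φ r q) ∧ (r = q → Φ p s)) :
    ∀ k ∈ KK Φ, tv p q * k * tv p q ∈ KK Φ := by
  have : KK Φ ≤ (KK Φ).comap (MulAut.conj (tv p q)).toMonoidHom := KK_le fun r s h => by
    change tv p q * tv r s * (tv p q)⁻¹ ∈ KK Φ
    obtain ⟨h1, h2, h3, h4⟩ := hΦ r s h
    rw [tv_inv]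
    by_cases e : s = p
    · subst e
      rw [(tv_st r s q h1 hpq fun e => h2 ⟨e, rfl⟩).2]
      exact mul_mem (tv_mem h) (tv_mem (h3 rfl))
    by_cases e' : r = q
    · subst e'
      rw [(tv_st p r s hpq h1 (Ne.symm e)).1]
      exact mul_mem (tv_mem h) (tv_mem (h4 rfl))
    rw [tv_comm p q r s (Ne.symm e') (Ne.symm e), mul_assoc, tv_sq, mul_one]
    exact tv_mem h
  intro k hk
  have h := mem_comap.1 (this hk)
  rwa [MulEquiv.coe_toMonoidHom, MulAut.conj_apply, tv_inv] at h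

theorem two_U : IsPGroup 2 (KK fun r s => r < s) := by
  have key : ∀ n : ℕ, IsPGroup 2 (KK fun r s => r < s ∧ 5 * (4 + r.1 - s.1) + r.1 < n) := by
    intro n
    induction n with
    | zero => exact IsPGroup.of_bot.to_le (KK_le fun r s h => absurd h.2 (by omega))
    | succ n ih =>
      by_cases h : ∃ p q : Fin 5, p < q ∧ 5 * (4 + p.1 - q.1) + p.1 = n
      · obtain ⟨p, q, h, rfl⟩ := h
        have h1 := cj_mem (Φ := fun r s => r < s ∧
          5 * (4 + r.1 - s.1) + r.1 < 5 * (4 + p.1 - q.1) + p.1) h.ne (by omega)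
        refine (ih.to_sup_of_normal_left' (K := zpowers (tv p q)) ?_ ?_).to_le
          (KK_le fun r s h' => ?_)
        · exact IsPGroup.of_card_dvd_pow (n := 1) (by
            rw [Nat.card_zpowers]; exact orderOf_dvd_of_pow_eq_one (by rw [pow_one, pow_two, tv_sq]))
        · refine zpowers_le.2 (mem_normalizer_iff.2 fun k => ⟨fun hk => ?_, fun hk => ?_⟩)
          · rw [tv_inv]; exact h1 k hk
          · have := h1 _ hk
            rwa [tv_inv, ← mul_assoc, ← mul_assoc, tv_sq, one_mul, mul_assoc, tv_sq, mul_one] at this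
        · by_cases e : r = p ∧ s = q
          · rw [e.1, e.2]; exact mem_sup_right (mem_zpowers _)
          · exact mem_sup_left (tv_mem ⟨h'.1, by omega⟩)
      · push Not at h
        exact ih.to_le (KK_le fun r s h' => tv_mem ⟨h'.1, by have := h r s h'.1; omega⟩)
  exact (key 30).to_le (KK_le fun r s h => tv_mem ⟨h, by omega⟩)

theorem exists_fix {H B : Type*} [Group H] [AddCommGroup B] [Finite B] [DistribMulAction H B]
    (hH : IsPGroup 2 H) (h2 : ∀ b : B, b + b = 0) {b : B} (hb : b ≠ 0) :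
    ∃ c : B, c ≠ 0 ∧ ∀ h : H, h • c = c := by
  have : addOrderOf b = 2 := addOrderOf_eq_prime (by rw [two_nsmul, h2]) hb
  obtain ⟨c, hc, h0⟩ := hH.exists_fixed_point_of_prime_dvd_card_of_fixed_point B
    (this ▸ addOrderOf_dvd_natCard b) (a := 0) fun h => smul_zero h
  exact ⟨c, h0.symm, hc⟩

theorem hecke {C : Type*} (P : C → Prop) (z : C) (a b c d : C → C)
    (ha : ∀ v, P v → P (a v) ∧ a (a v) = a v) (hb : ∀ v, P v → P (b v) ∧ b (b v) = b v)
    (hc : ∀ v, P v → P (c v) ∧ c (c v) = c v) (hd : ∀ v, P v → P (d v) ∧ d (d v) = d v)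
    (za : a z = z) (zb : b z = z) (zc : c z = z) (zd : d z = z)
    (ab : ∀ v, a (b (a v)) = b (a (b v))) (bc : ∀ v, b (c (b v)) = c (b (c v)))
    (cd : ∀ v, c (d (c v)) = d (c (d v))) (ac : ∀ v, a (c v) = c (a v))
    (ad : ∀ v, a (d v) = d (a v)) (bd : ∀ v, b (d v) = d (b v)) (h : ∃ v, P v ∧ v ≠ z) :
    ∃ v, P v ∧ v ≠ z ∧ (a v = v ∨ a v = z) ∧ (b v = v ∨ b v = z) ∧ (c v = v ∨ c v = z) ∧
      (d v = v ∨ d v = z) := by
  obtain ⟨v, h⟩ := h
  obtain ⟨v, h⟩ : ∃ v, P v ∧ v ≠ z ∧ (a v = v ∨ a v = z) := by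
    by_contra H
    have h1 := not_exists.1 H v
    have h2 := not_exists.1 H (a v)
    grind
  obtain ⟨v, h⟩ : ∃ v, P v ∧ v ≠ z ∧ (a v = v ∨ a v = z) ∧ (b v = v ∨ b v = z) := by
    by_contra H
    have h1 := not_exists.1 H v
    have h2 := not_exists.1 H (b v)
    have h3 := not_exists.1 H (a (b v))
    have := ab v
    grind
  obtain ⟨v, h⟩ : ∃ v, P v ∧ v ≠ z ∧ (a v = v ∨ a v = z) ∧ (b v = v ∨ b v = z) ∧
      (c v = v ∨ c v = z) := by
    by_contra H
    have h1 := not_exists.1 H v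
    have h2 := not_exists.1 H (c v)
    have h3 := not_exists.1 H (b (c v))
    have h4 := not_exists.1 H (a (b (c v)))
    have := ab (c v)
    have := bc v
    have := ac v
    have := ac (b (c v))
    grind
  obtain ⟨p0, n0, a0, b0, c0⟩ := h
  obtain ⟨p1, d1⟩ := hd v p0
  obtain ⟨p2, c2⟩ := hc _ p1
  obtain ⟨p3, b3⟩ := hb _ p2
  obtain ⟨p4, a4⟩ := ha _ p3
  have a1 : a (d v) = d v ∨ a (d v) = z := by rw [ad]; grind
  have b1 : b (d v) = d v ∨ b (d v) = z := by rw [bd]; grind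
  have a2 : a (c (d v)) = c (d v) ∨ a (c (d v)) = z := by rw [ac]; grind
  have d2 : d (c (d v)) = c (d v) ∨ d (c (d v)) = z := by rw [← cd]; grind
  have c3 : c (b (c (d v))) = b (c (d v)) ∨ c (b (c (d v))) = z := by rw [← bc]; grind
  have d3 : d (b (c (d v))) = b (c (d v)) ∨ d (b (c (d v))) = z := by rw [← bd]; grind
  by_cases e1 : d v = z
  · exact ⟨v, p0, n0, a0, b0, c0, Or.inr e1⟩
  by_cases e2 : c (d v) = z
  · exact ⟨_, p1, e1, a1, b1, Or.inr e2, Or.inl d1⟩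
  by_cases e3 : b (c (d v)) = z
  · exact ⟨_, p2, e2, a2, Or.inr e3, Or.inl c2, d2⟩
  by_cases e4 : a (b (c (d v))) = z
  · exact ⟨_, p3, e3, Or.inr e4, Or.inl b3, c3, d3⟩
  refine ⟨_, p4, e4, Or.inl a4, ?_, ?_, ?_⟩
  · rw [← ab]; grind
  · rw [← ac]; grind
  · rw [← ad]; grind

variable {A : Type*} [AddCommGroup A] [DistribMulAction L5 A]

/-- The Hecke operators. -/
def HK (p q : Fin 5) (c : A) : A := pm (swap p q) • c + tv p q • pm (swap p q) • c

theorem pm_tv_smul (σ : Perm (Fin 5)) (p q : Fin 5) (c : A) :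
    pm σ • tv p q • c = tv (σ p) (σ q) • pm σ • c := by rw [← mul_smul, pm_tv, mul_smul]

theorem pm_pm (σ τ : Perm (Fin 5)) (c : A) : pm σ • pm τ • c = pm (σ * τ) • c := by
  rw [map_mul, mul_smul]

theorem tv_tv (p q : Fin 5) (c : A) : tv p q • tv p q • c = c := by
  rw [← mul_smul, tv_sq, one_smul]

theorem HK_zero (p q : Fin 5) : HK p q (0 : A) = 0 := by simp [HK]

theorem HK_comm {p q r s : Fin 5} (h1 : p ≠ r) (h2 : p ≠ s) (h3 : q ≠ r) (h4 : q ≠ s) (c : A) :
    HK p q (HK r s c) = HK r s (HK p q c) := by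
  have e : swap r s * swap p q = swap p q * swap r s := by
    rw [mul_swap_eq_swap_mul, swap_apply_of_ne_of_ne h1 h2, swap_apply_of_ne_of_ne h3 h4]
  simp only [HK, smul_add, pm_tv_smul, pm_pm, swap_apply_of_ne_of_ne h1 h2,
    swap_apply_of_ne_of_ne h3 h4, swap_apply_of_ne_of_ne h1.symm h3.symm,
    swap_apply_of_ne_of_ne h2.symm h4.symm, e]
  generalize pm (swap p q * swap r s) • c = d
  simp only [← mul_smul, tv_comm p q r s h3 h2]
  abel

theorem HK_braid {p q r : Fin 5} (h1 : p ≠ q) (h2 : q ≠ r) (h3 : p ≠ r) (c : A) :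
    HK p q (HK q r (HK p q c)) = HK q r (HK p q (HK q r c)) := by
  have e : swap q r * (swap p q * swap q r) = swap p q * (swap q r * swap p q) := by
    revert p q r; decide +kernel
  simp only [HK, smul_add, pm_tv_smul, pm_pm, swap_apply_left, swap_apply_right,
    swap_apply_of_ne_of_ne h1 h3, swap_apply_of_ne_of_ne h3.symm h2.symm, e]
  generalize pm (swap p q * (swap q r * swap p q)) • c = d
  obtain ⟨s1, s2⟩ := tv_st p q r h1 h2 h3
  have e1 : tv q r * tv p q = tv p q * (tv p r * tv q r) := by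
    rw [← tv_comm q r p r h3.symm h2, ← s1, mul_assoc, ← mul_assoc, tv_sq, one_mul]
  have e2 : tv q r * (tv p q * tv p r) = tv p q * tv q r := by
    rw [← s2, mul_assoc, ← mul_assoc, tv_sq, one_mul]
  simp only [← mul_smul, e1, e2, tv_comm p r p q h3.symm h1, tv_comm q r p r h3.symm h2]
  abel

end Cfsg.Lib.R10.MD
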