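import Cfsg.Agent.R10.ModB

/-! # Modules for `SL₅(2)` in characteristic two: the weight vector and its functional -/

set_option autoImplicit false

namespace Cfsg.Lib.R10.MD

open Equiv Subgroup MulAction

variable {A : Type*} [AddCommGroup A] [DistribMulAction L5 A]

/-- Fixed by the upper unitriangular group. -/
def Up (c : A) : Prop := ∀ p q : Fin 5, p < q → tv p q • c = c

/-- A weight vector. -/
structure Wt (a : A) : Prop where
  ne : a ≠ 0
  up : Up a
  eig : ∀ i : Fin 4, tv i.succ i.castSucc • a = a ∨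
    tv i.castSucc i.succ • tv i.succ i.castSucc • a = a + tv i.succ i.castSucc • a

theorem fix_cj {K : Subgroup L5} {g : L5} (g2 : g * g = 1) (h : ∀ k ∈ K, g * k * g ∈ K) {c : A}
    (hc : K ≤ stabilizer L5 c) : K ≤ stabilizer L5 (g • c) := fun k hk => by
  have := hc (h k hk)
  rw [mem_stabilizer_iff] at this ⊢
  conv_rhs => rw [← this]
  rw [← mul_smul, ← mul_smul, ← mul_assoc, ← mul_assoc, g2, one_mul]

theorem HK_eq {p q : Fin 5} (h : p ≠ q) {c : A} (hc : tv p q • c = c) :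
    HK p q c = tv p q • tv q p • c + tv q p • c := by
  rw [HK, pm_swap p q h, mul_smul, mul_smul, hc, tv_tv]

theorem braid {p q : Fin 5} (h : p ≠ q) (c : A) :
    tv p q • tv q p • tv p q • c = tv q p • tv p q • tv q p • c := by
  simp only [← mul_smul, ← mul_assoc]
  rw [← pm_swap p q h, ← pm_swap q p h.symm, swap_comm]

theorem HK_up (h2 : ∀ a : A, a + a = 0) (i : Fin 4) (c : A) (hc : Up c) :
    Up (HK i.castSucc i.succ c) ∧
      HK i.castSucc i.succ (HK i.castSucc i.succ c) = HK i.castSucc i.succ c := by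
  have hi : i.castSucc < i.succ := Fin.castSucc_lt_succ
  have v1 : (i.castSucc : ℕ) = i := rfl
  have v2 : (i.succ : ℕ) = i + 1 := rfl
  generalize i.castSucc = p at *
  generalize i.succ = q at *
  have hx := hc p q hi
  have h1 := cj_mem (Φ := fun r s => r < s ∧ ¬ (r = p ∧ s = q)) hi.ne (by omega)
  have h3 := cj_mem (Φ := fun r s => r < s ∧ ¬ (r = p ∧ s = q)) hi.ne' (by omega)
  have h4 := fix_cj (tv_sq _ _) h3 (c := c) (KK_le fun r s h => hc r s h.1)
  have h5 := fix_cj (tv_sq _ _) h1 h4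
  have e := HK_eq hi.ne hx
  have h6 : tv p q • HK p q c = HK p q c := by rw [e, smul_add, tv_tv, add_comm]
  refine ⟨fun r s h => ?_, ?_⟩
  · by_cases h' : r = p ∧ s = q
    · rw [h'.1, h'.2, h6]
    rw [e, smul_add, mem_stabilizer_iff.1 (h4 (tv_mem ⟨h, h'⟩)),
      mem_stabilizer_iff.1 (h5 (tv_mem ⟨h, h'⟩))]
  · rw [HK_eq hi.ne h6, e]
    simp only [smul_add, ← braid hi.ne, tv_tv, hx]
    linear_combination (norm := abel) h2 c

theorem exists_wt [Finite A] (h2 : ∀ a : A, a + a = 0) {b : A} (hb : b ≠ 0) : ∃ a : A, Wt a := by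
  obtain ⟨c, c0, hc⟩ := exists_fix two_U h2 hb
  obtain ⟨a, up, a0, h⟩ := hecke Up (0 : A) (HK 0 1) (HK 1 2) (HK 2 3) (HK 3 4) (HK_up h2 0)
    (HK_up h2 1) (HK_up h2 2) (HK_up h2 3) (HK_zero _ _) (HK_zero _ _) (HK_zero _ _) (HK_zero _ _)
    (HK_braid (by decide) (by decide) (by decide)) (HK_braid (by decide) (by decide) (by decide))
    (HK_braid (by decide) (by decide) (by decide))
    (HK_comm (by decide) (by decide) (by decide) (by decide))
    (HK_comm (by decide) (by decide) (by decide) (by decide))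
    (HK_comm (by decide) (by decide) (by decide) (by decide))
    ⟨c, fun p q h => hc ⟨_, tv_mem h⟩, c0⟩
  have key : ∀ p q : Fin 5, p < q → HK p q a = a ∨ HK p q a = 0 →
      tv q p • a = a ∨ tv p q • tv q p • a = a + tv q p • a := fun p q h e => by
    rw [HK_eq h.ne (up p q h)] at e
    refine e.symm.imp (fun e => ?_) fun e => by linear_combination (norm := abel) e - h2 (tv q p • a)
    have e1 : tv p q • tv q p • a = tv q p • a := by
      linear_combination (norm := abel) e - h2 (tv q p • a)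
    have e2 := braid h.ne a
    rwa [up p q h, e1, tv_tv] at e2
  refine ⟨a, a0, up, fun i => ?_⟩
  fin_cases i
  exacts [key 0 1 (by decide) h.1, key 1 2 (by decide) h.2.1, key 2 3 (by decide) h.2.2.1,
    key 3 4 (by decide) h.2.2.2]

theorem inv_all (W : AddSubgroup A)
    (h1 : ∀ i : Fin 4, ∀ w ∈ W, tv i.castSucc i.succ • w ∈ W)
    (h3 : ∀ p q : Fin 5, q < p → ∀ w ∈ W, tv p q • w ∈ W) : ∀ g : L5, ∀ w ∈ W, g • w ∈ W := by
  let H : Subgroup L5 :=
    { carrier := {g | ∀ w, g • w ∈ W ↔ w ∈ W}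
      one_mem' := fun w => by rw [one_smul]
      mul_mem' := fun {a b} ha hb w => by rw [mul_smul, ha, hb]
      inv_mem' := fun {a} ha w => by rw [← ha, smul_inv_smul] }
  have k1 : ∀ p q, (∀ w ∈ W, tv p q • w ∈ W) → tv p q ∈ H := fun p q h w =>
    ⟨fun hw => by simpa only [tv_tv] using h _ hw, h w⟩
  have k2 : ∀ p q r, p ≠ q → q ≠ r → p ≠ r → tv p q ∈ H → tv q r ∈ H → tv p r ∈ H :=
    fun p q r a b c d e => (H.mul_mem_cancel_left e).1
      ((tv_st p q r a b c).1 ▸ mul_mem (mul_mem d e) d)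
  have a01 : tv 0 1 ∈ H := k1 _ _ (h1 0)
  have a12 : tv 1 2 ∈ H := k1 _ _ (h1 1)
  have a23 : tv 2 3 ∈ H := k1 _ _ (h1 2)
  have a34 : tv 3 4 ∈ H := k1 _ _ (h1 3)
  have a02 := k2 _ _ _ (by decide) (by decide) (by decide) a01 a12
  have a13 := k2 _ _ _ (by decide) (by decide) (by decide) a12 a23
  have a24 := k2 _ _ _ (by decide) (by decide) (by decide) a23 a34
  have a03 := k2 _ _ _ (by decide) (by decide) (by decide) a02 a23
  have a14 := k2 _ _ _ (by decide) (by decide) (by decide) a13 a34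
  have a04 := k2 _ _ _ (by decide) (by decide) (by decide) a03 a34
  have : H = ⊤ := tv_gen H fun p q h => by
    rcases lt_or_gt_of_ne h with h | h
    · fin_cases p <;> fin_cases q <;> first | assumption | exact absurd h (by decide)
    · exact k1 p q (h3 p q h)
  exact fun g w hw => ((this ▸ mem_top g : g ∈ H) w).2 hw

theorem low_dec (i : Fin 4) : ∀ u ∈ KK fun r s => s < r,
    ∃ v ∈ KK fun r s => s < r ∧ ¬ (r = i.succ ∧ s = i.castSucc),
      u = v ∨ u = v * tv i.succ i.castSucc := by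
  have hi : i.castSucc < i.succ := Fin.castSucc_lt_succ
  have v1 : (i.castSucc : ℕ) = i := rfl
  have v2 : (i.succ : ℕ) = i + 1 := rfl
  generalize i.castSucc = p at *
  generalize i.succ = q at *
  have h3 := cj_mem (Φ := fun r s => s < r ∧ ¬ (r = q ∧ s = p)) hi.ne' (by omega)
  have y2 := tv_sq q p
  have y1 := tv_inv q p
  intro u hu
  induction hu using closure_induction with
  | mem g hg =>
    obtain ⟨r, s, h, rfl⟩ := hg
    by_cases h' : r = q ∧ s = p
    · exact ⟨1, one_mem _, Or.inr (by rw [h'.1, h'.2, one_mul])⟩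
    · exact ⟨_, tv_mem ⟨h, h'⟩, Or.inl rfl⟩
  | one => exact ⟨1, one_mem _, Or.inl rfl⟩
  | mul a b _ _ ha hb =>
    generalize tv q p = y at *
    obtain ⟨v, hv, rfl | rfl⟩ := ha <;> obtain ⟨w, hw, rfl | rfl⟩ := hb
    · exact ⟨_, mul_mem hv hw, Or.inl rfl⟩
    · exact ⟨_, mul_mem hv hw, Or.inr (mul_assoc _ _ _).symm⟩
    · exact ⟨_, mul_mem hv (h3 _ hw), Or.inr (by simp only [mul_assoc, y2, mul_one])⟩
    · exact ⟨_, mul_mem hv (h3 _ hw), Or.inl (by simp only [mul_assoc])⟩
  | inv a _ ha =>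
    generalize tv q p = y at *
    obtain ⟨v, hv, rfl | rfl⟩ := ha
    · exact ⟨_, inv_mem hv, Or.inl rfl⟩
    · exact ⟨_, h3 _ (inv_mem hv), Or.inr (by simp only [mul_inv_rev, y1, mul_assoc, y2, mul_one])⟩

theorem exists_fn [Finite A] (h2 : ∀ a : A, a + a = 0)
    (irr : ∀ W : AddSubgroup A, (∀ g : L5, ∀ w ∈ W, g • w ∈ W) → W = ⊥ ∨ W = ⊤) {a : A}
    (ha : Wt a) : ∃ l : A →+ ZMod 2, l a = 1 ∧ ∀ p q : Fin 5, q < p → ∀ m, l (tv p q • m) = l m := by
  obtain ⟨l, l0, hl⟩ : ∃ l : A →+ ZMod 2, l ≠ 0 ∧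
      ∀ p q : Fin 5, q < p → ∀ m, l (tv p q • m) = l m := by
    letI : Module (ZMod 2) A := AddCommGroup.zmodModule fun a => by rw [two_nsmul, h2]
    obtain ⟨f, hf⟩ := Module.Projective.exists_dual_ne_zero (ZMod 2) ha.ne
    have : Finite (A →+ ZMod 2) := DFunLike.finite _
    have hU : IsPGroup 2 (KK fun r s => r < s)ᵈᵐᵃ := fun g => by
      obtain ⟨k, hk⟩ := two_U (DomMulAct.mk.symm g)
      exact ⟨k, DomMulAct.mk.symm.injective (by rw [DomMulAct.symm_mk_pow, hk]; rfl)⟩
    obtain ⟨l, l0, hl⟩ := exists_fix hU (B := A →+ ZMod 2)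
      (fun b => AddMonoidHom.ext fun m => CharTwo.add_self_eq_zero _) (b := f.toAddMonoidHom)
      fun e => hf (DFunLike.congr_fun e a)
    refine ⟨l.comp (DistribMulAction.toAddMonoidHom A (pm Fin.revPerm)), fun e => l0 ?_,
      fun p q h m => ?_⟩
    · ext m
      have := DFunLike.congr_fun e ((pm Fin.revPerm)⁻¹ • m)
      simpa using this
    · change l (pm _ • tv p q • m) = l (pm _ • m)
      rw [pm_tv_smul]
      exact DFunLike.congr_fun (hl (DomMulAct.mk ⟨_, tv_mem (Fin.rev_lt_rev.2 h)⟩)) _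
  refine ⟨l, ?_, hl⟩
  by_contra h1
  have h0 : l a = 0 := by revert h1; generalize l a = z; revert z; decide
  let H : Subgroup L5 :=
    { carrier := {g | ∀ m, l (g • m) = l m}
      one_mem' := fun m => by rw [one_smul]
      mul_mem' := fun {a b} ha hb m => by rw [mul_smul, ha, hb]
      inv_mem' := fun {a} ha m => by rw [← ha, smul_inv_smul] }
  have hH : (KK fun r s => s < r) ≤ H := KK_le hl
  let M : AddSubgroup A := AddSubgroup.closure {m | ∃ u ∈ KK fun r s => s < r, m = u • a}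
  have hM : ∀ u ∈ KK fun r s => s < r, u • a ∈ M := fun u hu =>
    AddSubgroup.subset_closure ⟨u, hu, rfl⟩
  have key : ∀ g : L5, (∀ u ∈ KK fun r s => s < r, g • u • a ∈ M) → ∀ w ∈ M, g • w ∈ M :=
    fun g h => (AddSubgroup.closure_le (M.comap (DistribMulAction.toAddMonoidHom A g))).2
      (by rintro _ ⟨u, hu, rfl⟩; exact h u hu)
  suffices hx : ∀ i : Fin 4, ∀ u ∈ KK fun r s => s < r, tv i.castSucc i.succ • u • a ∈ M by
    rcases irr M (inv_all M (fun i => key _ (hx i)) fun p q h => key _ fun u hu => by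
      rw [← mul_smul]; exact hM _ (mul_mem (tv_mem h) hu)) with e | e
    · exact ha.ne (by simpa [e] using hM 1 (one_mem _))
    · refine l0 (AddMonoidHom.ext fun m => ?_)
      have : M ≤ l.ker := (AddSubgroup.closure_le _).2 (by
        rintro _ ⟨u, hu, rfl⟩; exact (hH hu a).trans h0)
      exact this (e ▸ AddSubgroup.mem_top m)
  intro i u hu
  obtain ⟨v, hv, e⟩ := low_dec i u hu
  have hi : i.castSucc < i.succ := Fin.castSucc_lt_succ
  have v1 : (i.castSucc : ℕ) = i := rfl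
  have v2 : (i.succ : ℕ) = i + 1 := rfl
  have eig := ha.eig i
  generalize i.castSucc = p at *
  generalize i.succ = q at *
  have h3 := KK_le (H := KK fun r s => s < r) (fun r s h => tv_mem h.1)
    (cj_mem (Φ := fun r s => s < r ∧ ¬ (r = q ∧ s = p)) hi.ne (by omega) v hv)
  have e1 : ∀ m : A, tv p q • v • m = (tv p q * v * tv p q) • tv p q • m := fun m => by
    rw [mul_smul, mul_smul, tv_tv]
  have e2 := ha.up p q hi
  rcases e with rfl | rfl
  · rw [e1, e2]; exact hM _ h3
  rw [mul_smul, e1]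
  rcases eig with e | e
  · rw [e, e2]; exact hM _ h3
  · rw [e, smul_add, ← mul_smul _ (tv q p)]
    exact add_mem (hM _ h3) (hM _ (mul_mem h3 (tv_mem hi)))

end Cfsg.Lib.R10.MD
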