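import Cfsg.Agent.R10.Defs
import Cfsg.Agent.Class.SLGen

/-! # `SL₅(2)`: elementary transvections and permutation matrices -/

set_option autoImplicit false

namespace Cfsg.Lib.R10.MD

open Matrix Equiv

/-- Permutation matrices. -/
def pm : Perm (Fin 5) →* L5 where
  toFun σ := ⟨permMatrixHom σ, by
    change det (σ⁻¹.permMatrix _) = 1
    rw [det_permutation]
    rcases Int.units_eq_one_or (Perm.sign σ⁻¹) with h | h <;> rw [h] <;> rfl⟩
  map_one' := Subtype.ext (map_one permMatrixHom)
  map_mul' σ τ := Subtype.ext (map_mul permMatrixHom σ τ)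

theorem tv_self : ∀ p, tv p p = 1 := by decide +kernel

theorem tv_val : ∀ {p q : Fin 5}, p ≠ q → (tv p q).1 = 1 + single p q 1 := by decide +kernel

theorem pm_val (σ : Perm (Fin 5)) (i j : Fin 5) : (pm σ).1 i j = if i = σ j then 1 else 0 := by
  change (σ⁻¹.permMatrix (ZMod 2)) i j = _
  simp [Perm.permMatrix, PEquiv.toMatrix_apply, Equiv.symm_apply_eq]

theorem tv_sq : ∀ p q, tv p q * tv p q = 1 := by decide +kernel

theorem tv_inv (p q : Fin 5) : (tv p q)⁻¹ = tv p q := inv_eq_of_mul_eq_one_right (tv_sq p q)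

theorem tv_comm (p q r s : Fin 5) (h1 : q ≠ r) (h2 : p ≠ s) :
    tv p q * tv r s = tv r s * tv p q := by
  by_cases h : p = q
  · simp [h, tv_self]
  by_cases h' : r = s
  · simp [h', tv_self]
  refine Subtype.ext (show (tv p q).1 * (tv r s).1 = (tv r s).1 * (tv p q).1 from ?_)
  simp only [tv_val h, tv_val h', mul_add, add_mul, mul_one, one_mul,
    single_mul_single_of_ne _ _ _ _ h1, single_mul_single_of_ne _ _ _ _ h2.symm]
  abel

theorem tv_st : ∀ p q r, p ≠ q → q ≠ r → p ≠ r → tv p q * tv q r * tv p q = tv q r * tv p r ∧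
    tv q r * tv p q * tv q r = tv p q * tv p r := by decide +kernel

theorem pm_swap : ∀ p q, p ≠ q → pm (swap p q) = tv p q * tv q p * tv p q := by decide +kernel

theorem pm_tv (σ : Perm (Fin 5)) (p q : Fin 5) : pm σ * tv p q = tv (σ p) (σ q) * pm σ := by
  by_cases h : p = q
  · simp [h, tv_self]
  refine Subtype.ext (show (pm σ).1 * (tv p q).1 = (tv (σ p) (σ q)).1 * (pm σ).1 from ?_)
  simp only [tv_val h, tv_val (σ.injective.ne h), mul_add, add_mul,
    mul_one, one_mul, add_right_inj]
  ext i j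
  simp only [mul_apply, single_apply, pm_val, ite_and, mul_ite, ite_mul, mul_one, mul_zero, one_mul,
    zero_mul, Finset.sum_ite_eq, Finset.mem_univ, if_true]
  by_cases h1 : i = σ p <;> by_cases h2 : q = j <;> simp [h1, h2, eq_comm (a := σ p)]

theorem tv_gen (H : Subgroup L5) (h : ∀ p q, p ≠ q → tv p q ∈ H) : H = ⊤ :=
  Class.SL_eq_top_of_transvection_mem H fun p q hpq c => by
    obtain rfl | rfl : c = 0 ∨ c = 1 := by revert c; decide
    · rw [SpecialLinearGroup.transvection_coeff_zero]; exact one_mem _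
    · have : SpecialLinearGroup.transvection hpq 1 = tv p q := Subtype.ext (tv_val hpq).symm
      exact this ▸ h p q hpq

end Cfsg.Lib.R10.MD
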