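import Cfsg.Agent.R10.Defs
import Cfsg.Agent.Chev.LaceSL

/-! Permutation matrices, generators and the graph automorphism of `L₅(2)`. -/

set_option autoImplicit false

namespace Cfsg.Lib.R10

open Matrix Equiv

theorem L5_ext {g h : L5} (e : g.1 = h.1) : g = h := Subtype.ext e

theorem L5_mul (g h : L5) : (g * h).1 = g.1 * h.1 := rfl

theorem tv_val (p q : Fin 5) : (tv p q).1 = tm p q := rfl

theorem tm_eq : ∀ p q : Fin 5, p ≠ q → tm p q = 1 + single p q 1 := by decide +kernel

theorem tv_sq (p q : Fin 5) : tv p q * tv p q = 1 :=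
  L5_ext (by rw [L5_mul, tv_val]; revert p q; decide +kernel)

theorem gen (H : Subgroup L5) (h : ∀ p q, p ≠ q → tv p q ∈ H) : H = ⊤ :=
  Chev.closure_slE H fun p q hpq t => by
    rcases (by decide : ∀ c : ZMod 2, c = 0 ∨ c = 1) t with rfl | rfl
    · rw [show Chev.slE p q (0 : ZMod 2) = 1 from L5_ext (by
        rw [Chev.slE, dif_pos hpq]; exact transvection_zero p q)]
      exact H.one_mem
    · rw [show Chev.slE p q (1 : ZMod 2) = tv p q from L5_ext (by
        rw [Chev.slE, dif_pos hpq, tv_val, tm_eq p q hpq]; rfl)]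
      exact h p q hpq

/-- Permutation matrices. -/
def pm : Perm (Fin 5) →* L5 where
  toFun w := ⟨permMatrixHom w, by
    rw [permMatrixHom_apply, det_permutation]
    rcases Int.units_eq_one_or (Perm.sign w⁻¹) with h | h <;> rw [h] <;> rfl⟩
  map_one' := Subtype.ext (map_one _)
  map_mul' a b := Subtype.ext (map_mul _ a b)

theorem pm_eq_1' : type_of% @pm.eq_1 := @pm.eq_1

theorem pm_val (w : Perm (Fin 5)) (i j : Fin 5) : (pm w).1 i j = if i = w j then 1 else 0 := by
  change permMatrixHom w i j = _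
  simp [permMatrixHom_apply, Perm.permMatrix, PEquiv.toMatrix_apply, Perm.inv_def, symm_apply_eq]

theorem pm_tv (w : Perm (Fin 5)) (p q : Fin 5) : pm w * tv p q = tv (w p) (w q) * pm w := by
  refine L5_ext (Matrix.ext fun i j => ?_)
  obtain ⟨i, rfl⟩ := w.surjective i
  rw [L5_mul, L5_mul, mul_apply, mul_apply, Finset.sum_eq_single i, Finset.sum_eq_single (w j)] <;>
    simp +contextual [pm_val, tv_val, tm, eq_comm]

theorem pm_swap {p q : Fin 5} (h : p ≠ q) : pm (swap p q) = tv p q * tv q p * tv p q := by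
  refine L5_ext (Matrix.ext fun i j => ?_)
  rw [pm_val, L5_mul, L5_mul, tv_val, tv_val]
  revert p q i j
  decide +kernel

/-- The transpose. -/
def tp (g : L5) : L5 := ⟨g.1ᵀ, by rw [det_transpose, g.2]⟩

theorem tp_eq_1' : type_of% @tp.eq_1 := @tp.eq_1

theorem tp_val (g : L5) : (tp g).1 = g.1ᵀ := rfl

theorem tp_mul (g h : L5) : tp (g * h) = tp h * tp g :=
  L5_ext (by rw [L5_mul, tp_val, tp_val, tp_val, L5_mul, transpose_mul])

theorem tp_tp (g : L5) : tp (tp g) = g := rfl

theorem tp_inv (g : L5) : tp g⁻¹ = (tp g)⁻¹ :=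
  eq_inv_of_mul_eq_one_left (by rw [← tp_mul, mul_inv_cancel]; exact L5_ext transpose_one)

/-- The inverse transpose automorphism. -/
def tau : L5 ≃* L5 where
  toFun g := tp g⁻¹
  invFun g := tp g⁻¹
  left_inv g := by simp only [tp_inv, inv_inv, tp_tp]
  right_inv g := by simp only [tp_inv, inv_inv, tp_tp]
  map_mul' g h := by rw [_root_.mul_inv_rev, tp_mul]

theorem tau_eq_1' : type_of% @tau.eq_1 := @tau.eq_1

theorem tau_tv (p q : Fin 5) : tau (tv p q) = tv q p := by
  change tp (tv p q)⁻¹ = _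
  rw [inv_eq_of_mul_eq_one_right (tv_sq p q)]
  refine L5_ext ?_
  rw [tp_val, tv_val, tv_val]
  revert p q
  decide +kernel

end Cfsg.Lib.R10
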