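import Cfsg.Agent.Gold.Defs

/-! Strong closure of an extraspecial group modulo its centre: the setting. -/

set_option autoImplicit false

namespace Cfsg.Lib.R10

open Subgroup Cfsg.Lib.Trans Cfsg.Lib.Gold

universe u

variable {H : Type u} [Group H]

/-- `a` and `b` commute modulo `z`. -/
def CM (z a b : H) : Prop := a * b = b * a ∨ a * b = b * a * z

/-- The class of conjugates of the extraspecial group. -/
structure XC (z : H) (X : Set (Subgroup H)) : Prop where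
  cz : ∀ g, g * z = z * g
  z2 : z * z = 1
  zm : ∀ V ∈ X, z ∈ V
  cjm : ∀ V ∈ X, ∀ h, cj h V ∈ X
  cm : ∀ V ∈ X, ∀ a ∈ V, ∀ b ∈ V, CM z a b
  sq : ∀ V ∈ X, ∀ a ∈ V, a * a = 1 ∨ a * a = z
  cen : ∀ V ∈ X, ∀ a ∈ V, (∀ b ∈ V, a * b = b * a) → a = 1 ∨ a = z
  two : ∀ V ∈ X, IsPGroup 2 V
  rep : ∀ V ∈ X, ∀ N P : Subgroup H, V ≤ N → P ≤ N → IsPGroup 2 P → ∃ n ∈ N, P ≤ Ns (cj n V)
  wc : ∀ V ∈ X, ∀ W ∈ X, V ≤ Ns W → V = W
  big : ∀ V ∈ X, ∀ E : Subgroup H, E ≤ Ns V → z ∈ E → (∀ a ∈ E, a * a = 1 ∨ a * a = z) →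
    Nat.card V ≤ Nat.card E → E = V
  n4 : ∀ V ∈ X, ∀ P : Subgroup H, IsPGroup 2 P → P ≤ Ns V → ∀ s ∈ P, ∀ s' ∈ P, s ∉ V → s' ∉ V →
    s * s' ∉ V → ∃ t ∈ P, t ∉ V ∧
      ∀ C : Subgroup H, C ≤ V → (∀ q ∈ C, CM z q t) → 4 * Nat.card C < Nat.card V

/-- An extremal pair of conjugates. -/
structure Sym (z : H) (X : Set (Subgroup H)) (V W : Subgroup H) : Prop where
  m1 : V ∈ X
  m2 : W ∈ X
  p1 : ∃ b ∈ V, b ∈ Ns W ∧ b ∉ W
  p2 : ∃ u ∈ W, u ∈ Ns V ∧ u ∉ V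
  f1 : ∀ b ∈ V, b ∈ Ns W → b ∉ W → ∀ v ∈ W, b * v * b⁻¹ * v⁻¹ ∈ V → v ∈ Ns V
  f2 : ∀ u ∈ W, u ∈ Ns V → u ∉ V → ∀ v ∈ V, u * v * u⁻¹ * v⁻¹ ∈ W → v ∈ Ns W
  f4 : ∀ V' ∈ X, ∀ W' ∈ X, (∃ b ∈ V', b ∈ Ns W' ∧ b ∉ W') →
    Nat.card (V' ⊓ W' : Subgroup H) ≤ Nat.card (V ⊓ W : Subgroup H)
  eq : Nat.card (V ⊓ Ns W : Subgroup H) = Nat.card (W ⊓ Ns V : Subgroup H)

theorem Sym.symm {z : H} {X : Set (Subgroup H)} {V W : Subgroup H} (s : Sym z X V W) :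
    Sym z X W V :=
  ⟨s.m2, s.m1, s.p2, s.p1, s.f2, s.f1, fun V' h W' h' e => inf_comm V W ▸ s.f4 V' h W' h' e,
    s.eq.symm⟩

theorem cm_iff {z a b : H} (cz : ∀ g, g * z = z * g) :
    CM z a b ↔ a * b * a⁻¹ = b ∨ a * b * a⁻¹ = b * z := by
  refine or_congr mul_inv_eq_iff_eq_mul.symm ?_
  rw [mul_inv_eq_iff_eq_mul, mul_assoc b z, ← cz, mul_assoc]

namespace XC

variable {z : H} {X : Set (Subgroup H)} {V W : Subgroup H}

/-- An element of `V` conjugates an element of `V` to itself or to its product with `z`. -/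
theorem conj (h : XC z X) (hV : V ∈ X) {a b : H} (ha : a ∈ V) (hb : b ∈ V) :
    a * b * a⁻¹ = b ∨ a * b * a⁻¹ = b * z := (cm_iff h.cz).1 (h.cm V hV a ha b hb)

/-- `V` normalises each of its subgroups containing `z`. -/
theorem le_Ns [Finite H] (h : XC z X) (hV : V ∈ X) {J : Subgroup H} (hJ : J ≤ V) (hz : z ∈ J) :
    V ≤ Ns J := fun a ha => mem_normalizer_of_cj_le (cj_le_iff.2 fun b hb => by
  rcases h.conj hV ha (hJ hb) with e | e <;> rw [e]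
  exacts [hb, mul_mem hb hz])

end XC

/-- The commutator of `w ∈ V` with `u ∈ W ⊓ N(V)` lies in `V ⊓ N(W)`. -/
theorem Sym.comm_mem {z : H} {X : Set (Subgroup H)} {V W : Subgroup H} (h : XC z X)
    (s : Sym z X V W) {w u : H} (hw : w ∈ V) (hu : u ∈ W) (hn : u ∈ Ns V) :
    w * u * w⁻¹ * u⁻¹ ∈ V ∧ w * u * w⁻¹ * u⁻¹ ∈ Ns W := by
  have c1 : w * u * w⁻¹ * u⁻¹ ∈ V := by
    have := mul_mem hw (mem_normalizer_conj hn (inv_mem hw))
    simpa only [mul_assoc] using this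
  refine ⟨c1, ?_⟩
  by_cases uV : u ∈ V
  · refine le_normalizer (mul_mem ?_ (inv_mem hu))
    rcases h.conj s.m1 hw uV with e | e <;> rw [e]
    exacts [hu, mul_mem hu (h.zm W s.m2)]
  refine s.f2 u hu hn uV _ c1 ?_
  have u2 : ∀ g, u * u * g = g * (u * u) := fun g => by
    rcases h.sq W s.m2 u hu with e | e <;> rw [e]
    exacts [by rw [one_mul, mul_one], (h.cz g).symm]
  have e : u * (w * u * w⁻¹ * u⁻¹) * u⁻¹ = (w * u * w⁻¹ * u⁻¹)⁻¹ := by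
    calc _ = u * w * u⁻¹ * (u * u * w⁻¹) * (u * u)⁻¹ := by group
      _ = _ := by rw [u2]; group
  rw [e, ← mul_inv_rev]
  refine inv_mem ?_
  rcases h.sq V s.m1 _ c1 with e | e <;> rw [e]
  exacts [one_mem _, h.zm W s.m2]

/-- Counting through an injection of coset spaces. -/
theorem quot_inj [Finite H] {A A0 B B0 : Subgroup H} (hA : A0 ≤ A) (hB : B0 ≤ B) (f : H → H)
    (m : ∀ a ∈ A, f a ∈ B) (i : ∀ a ∈ A, ∀ a' ∈ A, (f a)⁻¹ * f a' ∈ B0 → a⁻¹ * a' ∈ A0) :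
    Nat.card A * Nat.card B0 ≤ Nat.card B * Nat.card A0 := by
  have k : ∀ {C C0 : Subgroup H}, C0 ≤ C → Nat.card C = Nat.card (C ⧸ C0.subgroupOf C) * Nat.card C0 :=
    fun {C C0} hC => by
      rw [card_eq_card_quotient_mul_card_subgroup (C0.subgroupOf C),
        Nat.card_congr (subgroupOfEquivOfLe hC).toEquiv]
  have l : Nat.card (A ⧸ A0.subgroupOf A) ≤ Nat.card (B ⧸ B0.subgroupOf B) :=
    Nat.card_le_card_of_injective
      (fun q => (QuotientGroup.mk (⟨f q.out, m _ q.out.2⟩ : B) : B ⧸ B0.subgroupOf B))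
      fun q q' e => by
        have e' := mem_subgroupOf.1 (QuotientGroup.eq.1 e)
        rw [← q.out_eq, ← q'.out_eq]
        exact QuotientGroup.eq.2 (mem_subgroupOf.2 (i _ q.out.2 _ q'.out.2 e'))
  rw [k hA, k hB]
  calc _ = Nat.card (A ⧸ A0.subgroupOf A) * (Nat.card B0 * Nat.card A0) := by ring
    _ ≤ Nat.card (B ⧸ B0.subgroupOf B) * (Nat.card B0 * Nat.card A0) := Nat.mul_le_mul_right _ l
    _ = _ := by ring

end Cfsg.Lib.R10
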